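import Cfsg.Agent.EvenLocal.Involved

/-!
# Interface for the section `S₃` in Goldschmidt groups
-/

set_option autoImplicit false

namespace Cfsg.Agent.ReeSThree

open Subgroup

universe u v

/-- No involution inverts an element of order three. -/
def NoInvThree (G : Type*) [Group G] : Prop :=
  ∀ t x : G, orderOf t = 2 → orderOf x = 3 → t * x * t ≠ x⁻¹

/-- `D₆ ≅ S₃`. -/
theorem dihedral_three_iso : Nonempty (DihedralGroup 3 ≃* Equiv.Perm (Fin 3)) := by
  let f : DihedralGroup 3 → Equiv.Perm (Fin 3) := fun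
    | .r i => finRotate 3 ^ i.val
    | .sr i => Equiv.swap 0 1 * finRotate 3 ^ i.val
  exact ⟨MulEquiv.ofBijective (MonoidHom.mk' f (by decide +kernel)) (by decide +kernel)⟩

/-- An inverted element of order three gives a section `S₃`. -/
theorem involves_three {G : Type u} [Group G] [Finite G] (h : ¬ NoInvThree G) :
    Cfsg.Involves (Equiv.Perm (Fin 3)) G := by
  simp only [NoInvThree, ne_eq, not_forall, not_not] at h
  obtain ⟨t, x, ht, hx, h⟩ := h
  have ht2 : t * t = 1 := by rw [← sq, ← ht, pow_orderOf_eq_one]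
  haveI : Fact (Nat.Prime 3) := ⟨Nat.prime_three⟩
  obtain ⟨e⟩ := dihedral_three_iso
  refine EvenLocal.involves_congr e (EvenLocal.involves_of_inverted (p := 3) (by norm_num)
    (x := t) (y := x) ⟨1, by simpa using ht⟩ ⟨1, by simpa using hx⟩ ?_ ?_)
  · rintro rfl; simp at hx
  · rw [inv_eq_of_mul_eq_one_right ht2]; exact h

theorem noInvThree_congr {G : Type u} [Group G] {H : Type v} [Group H] (e : G ≃* H)
    (h : NoInvThree G) : NoInvThree H := fun t x ht hx he =>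
  h (e.symm t) (e.symm x) (by rw [MulEquiv.orderOf_eq, ht]) (by rw [MulEquiv.orderOf_eq, hx])
    (by rw [← map_mul, ← map_mul, he, map_inv])

/-- The facts about `K ≃ PSL₂(q)`, `q = 3^(2n+1)`, used for the groups of Ree type. -/
structure PslFacts (K : Type*) [Group K] (q : ℕ) : Prop where
  q_mod : q % 8 = 3
  three_dvd : 3 ∣ q
  q_pow : ∃ m, q = 3 ^ m
  card_K : Nat.card K * 2 = q * (q ^ 2 - 1)
  invol_conj : ∀ a b : K, orderOf a = 2 → orderOf b = 2 → IsConj a b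
  four : ∀ a : K, orderOf a = 2 → ∃ b σ : K, orderOf b = 2 ∧ orderOf σ = 3 ∧ a * b = b * a ∧
    b ≠ a ∧ σ * a * σ⁻¹ = b ∧ σ * b * σ⁻¹ = a * b ∧
    ∀ c : K, c * a = a * c → c * b = b * c → c = 1 ∨ c = a ∨ c = b ∨ c = a * b
  torus : ∀ a : K, orderOf a = 2 → Nat.card (centralizer ({a} : Set K)) = q + 1 ∧
    ∃ O : Subgroup K, Nat.card O * 4 = q + 1 ∧ (∀ x ∈ O, x * a = a * x) ∧
      (∀ x ∈ O, ∀ y ∈ O, x * y = y * x) ∧
      (∀ c : K, c * a = a * c → Odd (orderOf c) → c ∈ O) ∧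
      ∀ x ∈ O, x ≠ 1 → (∀ c : K, c * x = x * c ↔ c ∈ O ∨ c * a ∈ O) ∧
        (∀ g : K, g * x * g⁻¹ ∈ O → g * x * g⁻¹ = x ∨ g * x * g⁻¹ = x⁻¹) ∧
        ∃ g : K, g * x * g⁻¹ = x⁻¹
  three : ∀ u : K, orderOf u = 3 → ∃ U : Subgroup K, u ∈ U ∧ Nat.card U = q ∧
    (∀ w ∈ U, w ^ 3 = 1) ∧ (∀ x ∈ U, ∀ y ∈ U, x * y = y * x) ∧
    (∀ w ∈ U, w ≠ 1 → centralizer ({w} : Set K) = U) ∧
    Nat.card (normalizer (U : Set K)) * 2 = q * (q - 1)

end Cfsg.Agent.ReeSThree
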