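import Cfsg.Agent.CharInd.GenChar
import Cfsg.Agent.CharInd.TI
import Cfsg.Agent.Char.Kernel
import Cfsg.Agent.CharInd.Linear

/-!
# Class functions from an involution centraliser `⟨t⟩ × K`
-/

set_option autoImplicit false

noncomputable section

namespace Cfsg.Agent.ReeSThree

open Subgroup
open scoped ComplexConjugate
open Classical

universe u

variable {G : Type u} [Group G]

/-- `C(t) = ⟨t⟩ × K`. -/
structure Ctr (t : G) (K : Subgroup G) : Prop where
  orderOf_t : orderOf t = 2
  le : K ≤ centralizer ({t} : Set G)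
  notMem : t ∉ K
  decomp : ∀ g : G, g * t = t * g → g ∈ K ∨ t * g ∈ K

namespace Ctr

variable {t : G} {K : Subgroup G}

theorem sq (h : Ctr t K) : t * t = 1 := by rw [← _root_.sq, ← h.orderOf_t, pow_orderOf_eq_one]

theorem comm (h : Ctr t K) {k : G} (hk : k ∈ K) : k * t = t * k :=
  mem_centralizer_singleton_iff.1 (h.le hk)

theorem t_mul_notMem (h : Ctr t K) {k : G} (hk : k ∈ K) : t * k ∉ K := fun h' =>
  h.notMem (by simpa using K.mul_mem h' (K.inv_mem hk))

theorem mem_C (h : Ctr t K) (k : K) : (k : G) ∈ centralizer ({t} : Set G) := h.le k.2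

theorem t_mem_C (_h : Ctr t K) : t ∈ centralizer ({t} : Set G) :=
  mem_centralizer_singleton_iff.2 rfl

/-- The two cosets of `K` in `C(t)`. -/
def glue (h : Ctr t K) : K ⊕ K → centralizer ({t} : Set G)
  | .inl k => ⟨k, h.le k.2⟩
  | .inr k => ⟨t * k, mul_mem h.t_mem_C (h.le k.2)⟩

theorem glue_bijective (h : Ctr t K) : Function.Bijective h.glue := by
  constructor
  · rintro (a | a) (b | b) e <;> have e' := congrArg Subtype.val e <;>
      simp only [glue] at e'
    · rw [Subtype.ext e']
    · exact absurd (e' ▸ a.2) (h.t_mul_notMem b.2)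
    · exact absurd (e'.symm ▸ b.2) (h.t_mul_notMem a.2)
    · rw [Subtype.ext (mul_left_cancel e')]
  · rintro ⟨g, hg⟩
    rcases h.decomp g (mem_centralizer_singleton_iff.1 hg) with hk | hk
    · exact ⟨.inl ⟨g, hk⟩, rfl⟩
    · exact ⟨.inr ⟨t * g, hk⟩, Subtype.ext (by simp [glue, ← mul_assoc, h.sq])⟩

theorem sum_C [Fintype G] (h : Ctr t K) (f : centralizer ({t} : Set G) → ℂ) :
    ∑ c, f c = ∑ k : K, f ⟨k, h.le k.2⟩ +
      ∑ k : K, f ⟨t * k, mul_mem h.t_mem_C (h.le k.2)⟩ := by
  rw [← Equiv.sum_comp (Equiv.ofBijective _ h.glue_bijective), Fintype.sum_sum_type]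
  rfl

theorem card_C [Fintype G] (h : Ctr t K) :
    Nat.card (centralizer ({t} : Set G)) = 2 * Nat.card K := by
  rw [← Nat.card_congr (Equiv.ofBijective _ h.glue_bijective), Nat.card_sum, two_mul]

/-- The projection of `C(t)` onto `K`. -/
def proj (h : Ctr t K) : centralizer ({t} : Set G) →* K :=
  MonoidHom.mk' (fun c => if hc : (c : G) ∈ K then ⟨c, hc⟩ else
    ⟨t * c, (h.decomp c (mem_centralizer_singleton_iff.1 c.2)).resolve_left hc⟩) <| by
    rintro ⟨a, ha⟩ ⟨b, hb⟩
    have hat : a * t = t * a := mem_centralizer_singleton_iff.1 ha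
    by_cases h1 : a ∈ K <;> by_cases h2 : b ∈ K <;>
      simp only [Subgroup.coe_mul, h1, h2, dite_true, dite_false]
    · rw [dif_pos (K.mul_mem h1 h2)]; rfl
    · have : a * b ∉ K := fun h' => h2 (by simpa using K.mul_mem (K.inv_mem h1) h')
      rw [dif_neg this]
      exact Subtype.ext (by simp [← mul_assoc, hat])
    · have : a * b ∉ K := fun h' => h1 (by simpa using K.mul_mem h' (K.inv_mem h2))
      rw [dif_neg this]
      exact Subtype.ext (by simp [mul_assoc])
    · have hab : a * b ∈ K := by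
        have := K.mul_mem ((h.decomp a hat).resolve_left h1)
          ((h.decomp b (mem_centralizer_singleton_iff.1 hb)).resolve_left h2)
        rwa [← mul_assoc, mul_assoc t a t, hat, ← mul_assoc, h.sq, one_mul] at this
      rw [dif_pos hab]
      refine Subtype.ext ?_
      show a * b = t * a * (t * b)
      rw [← mul_assoc, mul_assoc t a t, hat, ← mul_assoc, h.sq, one_mul]

theorem proj_mem (h : Ctr t K) (k : K) (hk : (k : G) ∈ centralizer ({t} : Set G)) :
    h.proj ⟨k, hk⟩ = k := by
  simp [proj, k.2]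

theorem proj_tmul (h : Ctr t K) (k : K) (hk : t * (k : G) ∈ centralizer ({t} : Set G)) :
    h.proj ⟨t * k, hk⟩ = k := by
  simp [proj, h.t_mul_notMem k.2, ← mul_assoc, h.sq]

/-- The sign character of `C(t)` with kernel `K`. -/
def eps (h : Ctr t K) : centralizer ({t} : Set G) →* ℂˣ :=
  MonoidHom.mk' (fun c => if (c : G) ∈ K then 1 else -1) <| by
    rintro ⟨a, ha⟩ ⟨b, hb⟩
    have hat : a * t = t * a := mem_centralizer_singleton_iff.1 ha
    by_cases h1 : a ∈ K <;> by_cases h2 : b ∈ K <;> simp only [Subgroup.coe_mul, h1, h2, if_true,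
      if_false]
    · rw [if_pos (K.mul_mem h1 h2), one_mul]
    · rw [if_neg fun h' => h2 (by simpa using K.mul_mem (K.inv_mem h1) h'), one_mul]
    · rw [if_neg fun h' => h1 (by simpa using K.mul_mem h' (K.inv_mem h2)), mul_one]
    · have := K.mul_mem ((h.decomp a hat).resolve_left h1)
        ((h.decomp b (mem_centralizer_singleton_iff.1 hb)).resolve_left h2)
      rw [← mul_assoc, mul_assoc t a t, hat, ← mul_assoc, h.sq, one_mul] at this
      rw [if_pos this, neg_mul_neg, one_mul]

/-- The virtual character of `C(t)` attached to `Φ`. -/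
def small (h : Ctr t K) (Φ : K → ℂ) : centralizer ({t} : Set G) → ℂ :=
  fun c => (1 - (h.eps c : ℂ)) * Φ (h.proj c)

theorem small_mem (h : Ctr t K) (Φ : K → ℂ) (k : K)
    (hk : (k : G) ∈ centralizer ({t} : Set G)) : h.small Φ ⟨k, hk⟩ = 0 := by
  simp [small, eps, k.2]

theorem small_tmul (h : Ctr t K) (Φ : K → ℂ) (k : K)
    (hk : t * (k : G) ∈ centralizer ({t} : Set G)) : h.small Φ ⟨t * k, hk⟩ = 2 * Φ k := by
  simp only [small, h.proj_tmul k hk, eps, MonoidHom.mk'_apply, h.t_mul_notMem k.2, if_false,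
    Units.val_neg, Units.val_one]
  ring

theorem genChar_small [Finite G] (h : Ctr t K) {Φ : K → ℂ} (hΦ : Cfsg.IsGeneralizedCharacter K Φ) :
    Cfsg.IsGeneralizedCharacter (centralizer ({t} : Set G)) (h.small Φ) := by
  refine CharInd.genChar_mul
    (θ := (fun _ => (1 : ℂ)) - fun c => (h.eps c : ℂ)) (φ := fun c => Φ (h.proj c))
    (CharInd.genChar_sub (CharInd.genChar_irr CharInd.irr_one_const)
      (CharInd.genChar_irr (CharInd.irr_of_linHom h.eps)))
    (Char.isGeneralizedCharacter_comp hΦ h.proj)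

variable [Fintype G]

/-- The virtual character of `G` attached to `Φ`. -/
def big (h : Ctr t K) (Φ : K → ℂ) : G → ℂ :=
  Cfsg.indFun (centralizer ({t} : Set G)) (h.small Φ)

theorem genChar_big (h : Ctr t K) {Φ : K → ℂ} (hΦ : Cfsg.IsGeneralizedCharacter K Φ) :
    Cfsg.IsGeneralizedCharacter G (h.big Φ) :=
  CharInd.genChar_indFun _ (h.genChar_small hΦ)

omit [Fintype G] in
theorem not_odd_tmul (h : Ctr t K) {k : G} (hk : k ∈ K) : ¬ Odd (orderOf (t * k)) := by
  rintro ⟨m, hm⟩
  have h1 := pow_orderOf_eq_one (t * k)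
  rw [(show Commute t k from (h.comm hk).symm).mul_pow, hm, pow_succ, pow_mul, _root_.sq t, h.sq,
    one_pow, one_mul] at h1
  exact h.t_mul_notMem (K.pow_mem hk _) (h1 ▸ K.one_mem)

theorem big_odd (h : Ctr t K) (Φ : K → ℂ) {g : G} (hg : Odd (orderOf g)) : h.big Φ g = 0 := by
  rw [big, CharInd.indFun_apply, Finset.sum_eq_zero, mul_zero]
  intro x _
  by_cases hx : x⁻¹ * g * x ∈ centralizer ({t} : Set G)
  · rw [CharInd.extendByZero_mem _ _ hx]
    have ho : orderOf (x⁻¹ * g * x) = orderOf g := by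
      simpa using orderOf_injective (MulAut.conj x⁻¹).toMonoidHom (MulAut.conj x⁻¹).injective g
    obtain ⟨k | k, hk⟩ := h.glue_bijective.2 ⟨_, hx⟩
    · rw [← hk]; exact h.small_mem Φ k _
    · have e : t * (k : G) = x⁻¹ * g * x := congrArg Subtype.val hk
      exact absurd (e ▸ ho ▸ hg) (h.not_odd_tmul k.2)
  · exact CharInd.extendByZero_notMem _ _ hx

theorem big_tmul (h : Ctr t K) {Φ : K → ℂ} (hΦ : Cfsg.IsGeneralizedCharacter K Φ)
    (hev : ∀ k : K, Even (orderOf k) → Φ k = 0) (k : K) (hk : Odd (orderOf k)) :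
    h.big Φ (t * k) = 2 * Φ k := by
  have hmem : t * (k : G) ∈ centralizer ({t} : Set G) := mul_mem h.t_mem_C (h.le k.2)
  have hcl := CharInd.genChar_isClassFunction (h.genChar_small hΦ)
  have key : ∀ x : G, Cfsg.extendByZero _ (h.small Φ) (x⁻¹ * (t * k) * x) =
      if x ∈ centralizer ({t} : Set G) then 2 * Φ k else 0 := by
    intro x
    split_ifs with hx
    · have := CharInd.extendByZero_conj_mem _ hcl (inv_mem hx) (t * (k : G))
      rw [inv_inv] at this
      rw [this, CharInd.extendByZero_mem _ _ hmem, h.small_tmul Φ k]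
    · by_cases hy : x⁻¹ * (t * k) * x ∈ centralizer ({t} : Set G)
      · rw [CharInd.extendByZero_mem _ _ hy]
        obtain ⟨k' | k', hk'⟩ := h.glue_bijective.2 ⟨_, hy⟩
        · rw [← hk']; exact h.small_mem Φ k' _
        · rw [← hk']
          show h.small Φ ⟨t * k', _⟩ = 0
          rw [h.small_tmul]
          by_cases hev' : Even (orderOf k')
          · rw [hev k' hev', mul_zero]
          exfalso
          apply hx
          have e : t * (k' : G) = x⁻¹ * (t * k) * x := congrArg Subtype.val hk'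
          have ho : Odd (orderOf (k' : G)) := by
            rw [orderOf_coe]; exact Nat.not_even_iff_odd.1 hev'
          have hk2 : Odd (orderOf (k : G)) := by rwa [orderOf_coe]
          have key : ∀ k₀ : G, k₀ ∈ K → ∀ n, Odd n → k₀ ^ n = 1 → (t * k₀) ^ n = t := by
            intro k₀ h₀ n hn h1
            obtain ⟨m, rfl⟩ := hn
            rw [(show Commute t k₀ from (h.comm h₀).symm).mul_pow, h1, mul_one, pow_succ, pow_mul,
              _root_.sq t, h.sq, one_pow, one_mul]
          set n := orderOf (k : G) * orderOf (k' : G) with hn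
          have e1 := key _ k.2 n (hk2.mul ho) (by rw [hn, pow_mul, pow_orderOf_eq_one, one_pow])
          have e2 := key _ k'.2 n (hk2.mul ho)
            (by rw [hn, mul_comm, pow_mul, pow_orderOf_eq_one, one_pow])
          rw [e] at e2
          rw [show x⁻¹ * (t * k) * x = x⁻¹ * (t * (k : G)) * x⁻¹⁻¹ by rw [inv_inv], conj_pow, e1,
            inv_inv] at e2
          rw [mem_centralizer_singleton_iff]
          calc x * t = x * (x⁻¹ * t * x) := by rw [e2]
            _ = t * x := by simp [mul_assoc]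
      · exact CharInd.extendByZero_notMem _ _ hy
  rw [big, CharInd.indFun_apply]
  simp only [key]
  rw [← Finset.sum_filter, Finset.sum_const, nsmul_eq_mul, ← Fintype.card_subtype,
    ← Nat.card_eq_fintype_card]
  exact inv_mul_cancel_left₀ CharInd.natCard_ne_zero _

/-- The coefficient of `χ` in the virtual character attached to `Φ`. -/
theorem inner_big (h : Ctr t K) {χ : G → ℂ} (hχ : Cfsg.IsClassFunction G χ) (Φ : K → ℂ) :
    Cfsg.classInner χ (h.big Φ) = Cfsg.classInner (fun k : K => χ (t * k)) Φ := by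
  rw [← CharInd.classInner_swap, big, CharInd.classInner_indFun_left _ _ hχ,
    CharInd.classInner_swap, Cfsg.classInner, Cfsg.classInner, h.sum_C, h.card_C]
  simp only [small_mem, small_tmul, map_zero, mul_zero, Finset.sum_const_zero, zero_add, map_mul,
    map_ofNat, Nat.cast_mul, Nat.cast_ofNat, mul_inv, Finset.mul_sum]
  exact Finset.sum_congr rfl fun k _ => by ring

theorem big_inner_big (h : Ctr t K) {Φ Ψ : K → ℂ} (hΦ : Cfsg.IsGeneralizedCharacter K Φ)
    (hevΦ : ∀ k : K, Even (orderOf k) → Φ k = 0) (hevΨ : ∀ k : K, Even (orderOf k) → Ψ k = 0) :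
    Cfsg.classInner (h.big Φ) (h.big Ψ) = 2 * Cfsg.classInner Φ Ψ := by
  rw [h.inner_big (CharInd.genChar_isClassFunction (h.genChar_big hΦ))]
  simp only [Cfsg.classInner]
  rw [← mul_assoc 2, mul_comm 2, mul_assoc, Finset.mul_sum _ _ (2 : ℂ)]
  congr 1
  refine Finset.sum_congr rfl fun k _ => ?_
  rcases Nat.even_or_odd (orderOf k) with hk | hk
  · simp [hevΨ k hk]
  · rw [h.big_tmul hΦ hevΦ k hk]; ring

/-- Parity of the coefficients. -/
theorem inner_parity (h : Ctr t K) {χ : G → ℂ} (hχ : Cfsg.IsGeneralizedCharacter G χ) {Φ : K → ℂ}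
    (hΦ : Cfsg.IsGeneralizedCharacter K Φ) :
    ∃ a b : ℤ, Cfsg.classInner χ (h.big Φ) = (a : ℂ) - b ∧
      Cfsg.classInner (fun k : K => χ k) Φ = (a : ℂ) + b := by
  have hr : Cfsg.IsGeneralizedCharacter (centralizer ({t} : Set G))
      (fun c : centralizer ({t} : Set G) => χ c) :=
    Char.isGeneralizedCharacter_comp hχ (centralizer ({t} : Set G)).subtype
  have hp : Cfsg.IsGeneralizedCharacter (centralizer ({t} : Set G)) (fun c => Φ (h.proj c)) :=
    Char.isGeneralizedCharacter_comp hΦ h.proj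
  have he : Cfsg.IsGeneralizedCharacter (centralizer ({t} : Set G))
      ((fun c => (h.eps c : ℂ)) * fun c => Φ (h.proj c)) :=
    CharInd.genChar_mul (CharInd.genChar_irr (CharInd.irr_of_linHom h.eps)) hp
  obtain ⟨a, ha⟩ := Char.classInner_generalized_int hr hp
  obtain ⟨b, hb⟩ := Char.classInner_generalized_int hr he
  refine ⟨a, b, ?_, ?_⟩ <;> rw [← ha, ← hb]
  · rw [← CharInd.classInner_swap, big,
      CharInd.classInner_indFun_left _ _ (CharInd.genChar_isClassFunction hχ),
      CharInd.classInner_swap, ← CharInd.classInner_sub_right]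
    congr 1
    funext c
    simp [small, sub_mul]
  · rw [← CharInd.classInner_add_right]
    simp only [Cfsg.classInner]
    rw [h.sum_C, h.card_C]
    simp only [Pi.add_apply, Pi.mul_apply, proj_mem, proj_tmul, map_add, map_mul]
    simp only [eps, MonoidHom.mk'_apply, SetLike.coe_mem, if_true, h.t_mul_notMem, if_false,
      Units.val_one, map_one, one_mul, Units.val_neg, map_neg, neg_mul, add_neg_cancel, mul_zero,
      Finset.sum_const_zero, add_zero, Nat.cast_mul, Nat.cast_ofNat, mul_inv, Finset.mul_sum]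
    exact Finset.sum_congr rfl fun k _ => by ring

end Ctr

end Cfsg.Agent.ReeSThree
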