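import Cfsg.Agent.Char.Integrality
import Cfsg.Agent.Char.Virtual
import Cfsg.Agent.Char.Kernel
import Cfsg.Agent.Char.Linear
import Cfsg.Agent.CharInd.GenChar

/-!
# Tools for the character argument: class sums, congruences, four-by-four sign frames
-/

set_option autoImplicit false

noncomputable section

namespace Cfsg.Agent.ReeSThree

open scoped ComplexConjugate
open Classical

universe u

variable {G : Type u} [Group G] [Fintype G]

/-- The class sum of `t` acts on an irreducible character by an algebraic integer. -/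
theorem exists_omega {χ : G → ℂ} (hχ : Cfsg.IsIrrCharacter G χ) (t : G) :
    ∃ ω : ℂ, IsIntegral ℤ ω ∧
      ∀ g : G, ∑ i ∈ Finset.univ.filter (IsConj t), χ (i * g) = ω * χ g := by
  obtain ⟨n, ρ, hρ, rfl⟩ := hχ
  have hcl : ∀ x y : G, (if IsConj t (y * x * y⁻¹) then (1 : ℤ) else 0) =
      if IsConj t x then 1 else 0 := by
    intro x y
    have hc : IsConj x (y * x * y⁻¹) := isConj_iff.mpr ⟨y, rfl⟩
    exact if_congr ⟨fun k => k.trans hc.symm, fun k => k.trans hc⟩ rfl rfl
  refine ⟨_, Char.isIntegral_sum_mul_character_div ρ (fun x => if IsConj t x then 1 else 0) hcl,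
    fun g => ?_⟩
  have h := congrArg (fun A => LinearMap.trace ℂ _ (A * ρ g))
    (Char.sum_smul_eq_smul_id ρ (f := fun x => ((if IsConj t x then (1 : ℤ) else 0 : ℤ) : ℂ))
      (fun x y => by simp only [hcl x y]))
  simp only [Finset.sum_mul, smul_mul_assoc, ← map_mul, map_sum, map_smul, smul_eq_mul] at h
  rw [← Module.End.one_eq_id, one_mul] at h
  refine Eq.trans ?_ h
  rw [Finset.sum_filter]
  exact Finset.sum_congr rfl fun x _ => by
    by_cases hx : IsConj t x <;> simp [hx, Representation.character]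

/-- Congruence modulo three of algebraic integers. -/
def Cong (x y : ℂ) : Prop := ∃ z : ℂ, IsIntegral ℤ z ∧ x - y = 3 * z

theorem Cong.refl (x : ℂ) : Cong x x := ⟨0, isIntegral_zero, by ring⟩

theorem Cong.symm {x y : ℂ} (h : Cong x y) : Cong y x := by
  obtain ⟨z, hz, e⟩ := h; exact ⟨-z, hz.neg, by linear_combination (-1 : ℂ) * e⟩

theorem Cong.trans {x y w : ℂ} (h : Cong x y) (h' : Cong y w) : Cong x w := by
  obtain ⟨z, hz, e⟩ := h; obtain ⟨z', hz', e'⟩ := h'
  exact ⟨z + z', hz.add hz', by linear_combination e + e'⟩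

theorem Cong.mul {x y c : ℂ} (hc : IsIntegral ℤ c) (h : Cong x y) : Cong (c * x) (c * y) := by
  obtain ⟨z, hz, e⟩ := h; exact ⟨c * z, hc.mul hz, by linear_combination c * e⟩

theorem not_cong_natCast_zero {n : ℕ} (hn : ¬ 3 ∣ n) : ¬ Cong (n : ℂ) 0 := by
  rintro ⟨z, hz, e⟩
  apply hn
  refine Char.dvd_of_isIntegral_div (by norm_num) ?_
  rwa [show (n : ℂ) / ((3 : ℕ) : ℂ) = z by
    rw [div_eq_iff (by norm_num)]; push_cast; linear_combination e]

/-- A sum over a set permuted by a map of order three is congruent to the sum over the fixed points. -/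
theorem sum_cong_fixed {α : Type*} [DecidableEq α] (σ : α → α) (f : α → ℂ)
    (hf : ∀ a, IsIntegral ℤ (f a)) (hinv : ∀ a, f (σ a) = f a) :
    ∀ S : Finset α, (∀ a ∈ S, σ a ∈ S ∧ σ (σ (σ a)) = a) →
      Cong (∑ a ∈ S, f a) (∑ a ∈ S.filter (fun a => σ a = a), f a) := by
  intro S
  induction S using Finset.strongInduction with
  | _ S ih =>
  intro hS
  by_cases hfix : ∀ a ∈ S, σ a = a
  · rw [Finset.filter_true_of_mem hfix]; exact Cong.refl _
  push Not at hfix
  obtain ⟨a, ha, hne⟩ := hfix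
  have hb := (hS a ha).1
  have hc := (hS _ hb).1
  have h3 := (hS a ha).2
  have hab : σ a ≠ σ (σ a) := fun e => hne (by
    have : σ (σ (σ a)) = σ (σ (σ (σ a))) := congrArg (fun x => σ (σ x)) e
    simp only [h3] at this; exact this.symm)
  have hac : a ≠ σ (σ a) := fun e => hne (by conv_lhs => rw [e, h3])
  set O : Finset α := {a, σ a, σ (σ a)} with hO
  have hOS : O ⊆ S := by
    intro x hx; simp only [hO, Finset.mem_insert, Finset.mem_singleton] at hx
    rcases hx with rfl | rfl | rfl <;> assumption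
  have hO3 : ∀ x ∈ O, σ x ∈ O ∧ σ x ≠ x := by
    intro x hx; simp only [hO, Finset.mem_insert, Finset.mem_singleton] at hx ⊢
    rcases hx with rfl | rfl | rfl
    · exact ⟨Or.inr (Or.inl rfl), hne⟩
    · exact ⟨Or.inr (Or.inr rfl), hab.symm⟩
    · exact ⟨Or.inl h3, by rw [h3]; exact hac⟩
  have hstab : ∀ x ∈ S \ O, σ x ∈ S \ O ∧ σ (σ (σ x)) = x := by
    intro x hx
    obtain ⟨h1, h2⟩ := Finset.mem_sdiff.1 hx
    refine ⟨Finset.mem_sdiff.2 ⟨(hS x h1).1, fun h => h2 ?_⟩, (hS x h1).2⟩
    rw [← (hS x h1).2]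
    exact (hO3 _ (hO3 _ h).1).1
  have hlt : S \ O ⊂ S := Finset.sdiff_ssubset hOS ⟨a, by simp [hO]⟩
  obtain ⟨z, hz, e⟩ := ih _ hlt hstab
  refine ⟨z + f a, hz.add (hf a), ?_⟩
  have h1 : (S \ O).filter (fun a => σ a = a) = S.filter (fun a => σ a = a) := by
    ext x
    simp only [Finset.mem_filter, Finset.mem_sdiff]
    exact ⟨fun h => ⟨h.1.1, h.2⟩, fun h => ⟨⟨h.1, fun hx => (hO3 x hx).2 h.2⟩, h.2⟩⟩
  have h2 : ∑ x ∈ O, f x = 3 * f a := by
    rw [hO, Finset.sum_insert (by simp [Ne.symm hne, hac]),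
      Finset.sum_pair hab, hinv (σ a), hinv a]
    ring
  rw [← h1, ← Finset.sum_sdiff hOS, h2]
  linear_combination e

/-- Three orthogonal sign rows and their product form a frame. -/
theorem frame {s : Fin 3 → Fin 4 → ℂ} (hpm : ∀ j i, s j i = 1 ∨ s j i = -1)
    (horth : ∀ j k, j ≠ k → ∑ i, s j i * s k i = 0) {v : Fin 4 → ℂ}
    (hv : ∀ j, ∑ i, s j i * v i = 0) (i : Fin 4) :
    4 * v i = (∑ l, s 0 l * s 1 l * s 2 l * v l) * (s 0 i * s 1 i * s 2 i) := by
  have hsq : ∀ j i, s j i * s j i = 1 := fun j i => by rcases hpm j i with h | h <;> simp [h]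
  let n : Fin 4 → ℂ := fun i => s 0 i * s 1 i * s 2 i
  let M : Matrix (Fin 4) (Fin 4) ℂ := Matrix.of ![s 0, s 1, s 2, n]
  have key : ∀ a b : Fin 4, ∑ i, M a i * M b i = if a = b then 4 else 0 := by
    have hn : ∀ j k l : Fin 3, j ≠ k → l ≠ j → l ≠ k →
        ∑ i, s l i * n i = ∑ i, s j i * s k i := by
      intro j k l h1 h2 h3
      refine Finset.sum_congr rfl fun i _ => ?_
      fin_cases j <;> fin_cases k <;> fin_cases l <;>
        first
          | exact absurd rfl h1
          | exact absurd rfl h2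
          | exact absurd rfl h3
          | (simp only [n, Fin.reduceFinMk]
             linear_combination (s 1 i * s 2 i) * hsq 0 i)
          | (simp only [n, Fin.reduceFinMk]
             linear_combination (s 0 i * s 2 i) * hsq 1 i)
          | (simp only [n, Fin.reduceFinMk]
             linear_combination (s 0 i * s 1 i) * hsq 2 i)
    have hn0 : ∀ l, ∑ i, s l i * n i = 0 := by
      intro l
      fin_cases l
      · exact (hn 1 2 0 (by decide) (by decide) (by decide)).trans (horth 1 2 (by decide))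
      · exact (hn 0 2 1 (by decide) (by decide) (by decide)).trans (horth 0 2 (by decide))
      · exact (hn 0 1 2 (by decide) (by decide) (by decide)).trans (horth 0 1 (by decide))
    have hs4 : ∀ j, ∑ i, s j i * s j i = 4 := fun j => by simp [hsq]
    have hn4 : ∑ i, n i * n i = 4 := by
      have : ∀ i, n i * n i = 1 := fun i => by
        simp only [n]
        linear_combination (s 0 i * s 0 i * (s 1 i * s 1 i)) * hsq 2 i +
          (s 0 i * s 0 i) * hsq 1 i + hsq 0 i
      simp [this]
    have hn0' : ∀ l, ∑ i, n i * s l i = 0 := fun l => by simp only [mul_comm (n _), hn0]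
    intro a b
    fin_cases a <;> fin_cases b <;>
      simp [M, hn0, hn0', hn4, hs4, horth]
  have hMM : M * M.transpose = (4 : ℂ) • (1 : Matrix (Fin 4) (Fin 4) ℂ) := by
    ext a b
    rw [Matrix.mul_apply]
    simp only [Matrix.transpose_apply, key, Matrix.smul_apply, Matrix.one_apply, smul_eq_mul,
      mul_ite, mul_one, mul_zero]
  have h1 : M * ((1 / 4 : ℂ) • M.transpose) = 1 := by
    rw [Matrix.mul_smul, hMM, smul_smul]; norm_num
  have h2 := mul_eq_one_comm.1 h1
  have h3 := congrArg (fun A : Matrix (Fin 4) (Fin 4) ℂ => A.mulVec v) h2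
  simp only [Matrix.one_mulVec, ← Matrix.mulVec_mulVec] at h3
  have hMv : M.mulVec v = ![0, 0, 0, ∑ l, n l * v l] := by
    funext a
    fin_cases a <;> simp [M, Matrix.mulVec, dotProduct, hv]
  rw [hMv, Matrix.smul_mulVec] at h3
  have h4 := congrFun h3 i
  simp only [Pi.smul_apply, smul_eq_mul, Matrix.mulVec, dotProduct, Matrix.transpose_apply, M,
    Matrix.of_apply] at h4
  simp only [Fin.sum_univ_four, Matrix.cons_val_zero, Matrix.cons_val_one, Matrix.cons_val, n,
    mul_zero, zero_add] at h4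
  simp only [Fin.sum_univ_four]
  rw [← h4]
  ring

end Cfsg.Agent.ReeSThree
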