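import Cfsg.Agent.ReeSThree.KDef
import Cfsg.Agent.ReeSThree.Pair
import Cfsg.Agent.ReeSThree.Tools

/-!
# The character argument
-/

set_option autoImplicit false
set_option maxHeartbeats 1000000

noncomputable section

namespace Cfsg.Agent.ReeSThree

open Subgroup
open scoped ComplexConjugate
open Classical

universe u

section general

variable {X : Type u} [Group X] [Fintype X]

theorem even_ind_eq_zero {H : Subgroup X} (hH : Odd (Nat.card H)) (θ : H → ℂ) {g : X}
    (hg : Even (orderOf g)) : Cfsg.indFun H θ g = 0 := by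
  refine CharInd.indFun_eq_zero_of_forall H θ fun x hx => ?_
  have h1 : orderOf g = orderOf (⟨_, hx⟩ : H) := by
    rw [Subgroup.orderOf_mk]
    simpa using (orderOf_injective (MulAut.conj x⁻¹).toMonoidHom (MulAut.conj x⁻¹).injective g).symm
  have h2 : Odd (orderOf g) := h1 ▸ hH.of_dvd_nat (orderOf_dvd_natCard _)
  exact (Nat.not_odd_iff_even.2 hg) h2

/-- Expansion of a virtual character with its norm. -/
theorem coeffs {a : X → ℂ} (ha : Cfsg.IsGeneralizedCharacter X a) :
    ∃ m : Cfsg.IrrCharacter X → ℤ, a = ∑ ξ, (m ξ : ℂ) • (ξ : X → ℂ) ∧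
      (∀ ξ : Cfsg.IrrCharacter X, Cfsg.classInner a (ξ : X → ℂ) = m ξ) ∧ (∀ ξ : Cfsg.IrrCharacter X, Cfsg.classInner (ξ : X → ℂ) a = m ξ) ∧
      Cfsg.classInner a a = ((∑ ξ, m ξ * m ξ : ℤ) : ℂ) := by
  obtain ⟨m, hm⟩ := CharInd.genChar_coef ha
  have h1 : ∀ ξ : Cfsg.IrrCharacter X, Cfsg.classInner a (ξ : X → ℂ) = m ξ := fun ξ => by
    rw [hm]; exact CharInd.classInner_irrSum (fun ξ => (m ξ : ℂ)) ξ
  refine ⟨m, hm, h1, fun ξ => ?_, CharInd.genChar_classInner hm hm⟩
  rw [← CharInd.classInner_swap, h1, map_intCast]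

theorem irr_apply_one {A : Subgroup X} (hA : ∀ a ∈ A, ∀ b ∈ A, a * b = b * a) {ψ : A → ℂ}
    (hψ : Cfsg.IsIrrCharacter A ψ) : ψ 1 = 1 :=
  Char.irr_degree_one_of_comm (fun a b => Subtype.ext (hA a a.2 b b.2)) hψ

theorem exists_irr_ne_one {A : Subgroup X} [Fintype A] (hA : ∀ a ∈ A, ∀ b ∈ A, a * b = b * a)
    {u : A} (hu : u ≠ 1) : ∃ ψ : Cfsg.IrrCharacter A, (ψ : A → ℂ) u ≠ 1 := by
  by_contra h
  push Not at h
  have h1 := Char.sum_irr_degree_mul u
  rw [if_neg hu] at h1
  have h2 : ∀ ψ : Cfsg.IrrCharacter A, (ψ : A → ℂ) 1 * (ψ : A → ℂ) u = 1 := fun ψ => by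
    rw [irr_apply_one hA ψ.2, h ψ, one_mul]
  simp only [h2, Finset.sum_const, nsmul_eq_mul, mul_one, Finset.card_univ] at h1
  have : Nonempty (Cfsg.IrrCharacter A) := ⟨Char.trivialIrr A⟩
  exact (Nat.cast_ne_zero.2 Fintype.card_ne_zero) h1

theorem exists_moved {A : Subgroup X} [Fintype A] (hA : ∀ a ∈ A, ∀ b ∈ A, a * b = b * a)
    (σ : A ≃* A) {x : A} (hx : σ x ≠ x) :
    ∃ θ : A → ℂ, Cfsg.IsIrrCharacter A θ ∧ θ ∘ σ ≠ θ := by
  by_contra h
  push Not at h
  have h1 := Char.sum_irr_mul_conj (σ x) x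
  have hcA : ¬ IsConj (σ x) x := fun hc => by
    obtain ⟨c, hc⟩ := isConj_iff.1 hc
    apply hx
    refine Eq.trans ?_ hc
    exact Subtype.ext (by simp [hA c c.2 (σ x) (σ x).2])
  rw [if_neg hcA] at h1
  have h2 := Char.sum_irr_mul_conj x x
  rw [if_pos (IsConj.refl x)] at h2
  have h3 : (Nat.card (centralizer ({x} : Set A)) : ℂ) = 0 := by
    rw [← h2, ← h1]
    exact Finset.sum_congr rfl fun θ _ => by
      rw [show (θ : A → ℂ) (σ x) = (θ : A → ℂ) x from congrFun (h θ θ.2) x]
  exact Nat.card_pos.ne' (Nat.cast_eq_zero.1 h3)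

end general

variable {G : Type u} [Group G] [Fintype G]

/-- The character argument: the Ree-type configuration with `r` acting on `O` is impossible. -/
theorem char_contra {t : G} {K : Subgroup G} (h : Ctr t K) {U O : Subgroup K} [Fintype U]
    [Fintype O] {P : K → ℂ} (hC : KChars U O P)
    (hUab : ∀ x ∈ U, ∀ y ∈ U, x * y = y * x) (hOab : ∀ x ∈ O, ∀ y ∈ O, x * y = y * x)
    (hcard : Nat.card O * 4 = Nat.card U + 1)
    (σ : O ≃* O) (hσG : ∀ χ : G → ℂ, Cfsg.IsClassFunction G χ → ∀ x : O, χ (σ x : K) = χ (x : K))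
    (hσ3 : ∀ x, σ (σ (σ x)) = x) {x₀ : O} (hx₀ : σ x₀ ≠ x₀)
    {u : K} (huU : u ∈ U) (hu : orderOf u = 3)
    (hconj : ∀ i : G, IsConj t i → i * u = u * i → ∃ g : G, g * u = u * g ∧ g * t * g⁻¹ = i)
    (hodd : ∀ i : G, IsConj t i → i * u = u * i → Odd (orderOf (i * (t * u))))
    (hN : ¬ 3 ∣ (Finset.univ.filter fun i : G => IsConj t i ∧ i * u = u * i).card) : False := by
  have hu1 : u ≠ 1 := fun e => by simp [e] at hu
  have hU1 : ∀ ψ : Cfsg.IrrCharacter U, (ψ : U → ℂ) 1 = 1 := fun ψ => irr_apply_one hUab ψ.2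
  have hO1 : ∀ θ : Cfsg.IrrCharacter O, (θ : O → ℂ) 1 = 1 := fun θ => irr_apply_one hOab θ.2
  -- the three characters of `O`
  obtain ⟨θ, hθ, hθσ⟩ := exists_moved hOab σ hx₀
  have hconjσ : ∀ f : O → ℂ, ((fun h => conj (f h)) ∘ σ) = fun h => conj ((f ∘ σ) h) := fun f => rfl
  have hσσσ : ∀ f : O → ℂ, f ∘ σ ∘ σ ∘ σ = f := fun f => by funext x; simp [hσ3]
  let Θ : Fin 3 → (O → ℂ) := ![θ, θ ∘ σ, θ ∘ σ ∘ σ]
  have hΘirr : ∀ j, Cfsg.IsIrrCharacter O (Θ j) := by
    intro j; fin_cases j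
    · exact hθ
    · exact Char.isIrrCharacter_comp_mulEquiv hθ σ
    · exact Char.isIrrCharacter_comp_mulEquiv hθ (σ.trans σ)
  have hne1 : θ ≠ fun _ => 1 := fun e => hθσ (by rw [e]; rfl)
  have hne : θ ∘ σ ∘ σ ≠ θ := fun e => hθσ (by
    calc θ ∘ σ = (θ ∘ σ ∘ σ) ∘ σ := by rw [e]
      _ = θ := hσσσ θ)
  have hnb : θ ∘ σ ≠ fun h => conj (θ h) := fun e => hne (by
    calc θ ∘ σ ∘ σ = (θ ∘ σ) ∘ σ := rfl
      _ = (fun h => conj (θ h)) ∘ σ := by rw [e]
      _ = fun h => conj ((θ ∘ σ) h) := rfl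
      _ = θ := by rw [e]; simp)
  have hnb2 : θ ∘ σ ∘ σ ≠ fun h => conj (θ h) := fun e => by
    have : θ = fun h => conj ((θ ∘ σ) h) := by
      calc θ = (θ ∘ σ ∘ σ) ∘ σ := (hσσσ θ).symm
        _ = (fun h => conj (θ h)) ∘ σ := by rw [e]
    exact hnb (funext fun x => by
      have := congrArg conj (congrFun this x)
      simpa using this.symm)
  have hΘne : ∀ j, Θ j ≠ fun _ => 1 := by
    intro j; fin_cases j
    · exact hne1
    · exact fun e => hne1 (by rw [← hσσσ θ]; exact congrArg (fun f => f ∘ σ ∘ σ) e)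
    · exact fun e => hne1 (by rw [← hσσσ θ]; exact congrArg (fun f => f ∘ σ) e)
  have hpairs : ∀ j k, j ≠ k → Θ k ≠ Θ j ∧ Θ k ≠ fun h => conj (Θ j h) := by
    have cancel : ∀ f g : O → ℂ, f ∘ σ = g ∘ σ → f = g := fun f g e =>
      σ.surjective.injective_comp_right e
    have cc : ∀ f g : O → ℂ, g = (fun h => conj (f h)) → f = fun h => conj (g h) := fun f g e => by
      subst e; simp
    intro j k hjk
    fin_cases j <;> fin_cases k <;> first | exact absurd rfl hjk | skip
    · exact ⟨hθσ, hnb⟩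
    · exact ⟨hne, hnb2⟩
    · exact ⟨Ne.symm hθσ, fun e => hnb (cc _ _ e)⟩
    · exact ⟨fun e => hθσ (cancel (θ ∘ σ) θ e),
        fun e => hnb (cancel (θ ∘ σ) (fun h => conj (θ h)) e)⟩
    · exact ⟨Ne.symm hne, fun e => hnb2 (cc _ _ e)⟩
    · exact ⟨fun e => hθσ (cancel (θ ∘ σ) θ e.symm),
        fun e => hnb (cancel (θ ∘ σ) (fun h => conj (θ h)) (cc _ _ e))⟩
  -- generalized characters of `K`
  obtain ⟨ψ₀, hψ₀⟩ := exists_irr_ne_one hUab (u := ⟨u, huU⟩) fun e => hu1 (congrArg Subtype.val e)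
  have hψ₀ne : (ψ₀ : U → ℂ) ≠ fun _ => 1 := fun e => hψ₀ (congrFun e _)
  have hPeq := hC.P_eq ψ₀ ψ₀.2 hψ₀ne
  have hgU : ∀ ψ : U → ℂ, Cfsg.IsIrrCharacter U ψ →
      Cfsg.IsGeneralizedCharacter K (Cfsg.indFun U ψ) := fun ψ hψ =>
    CharInd.genChar_indFun U (CharInd.genChar_irr hψ)
  have hgP : Cfsg.IsGeneralizedCharacter K P := by
    rw [← hPeq]
    exact CharInd.genChar_add (hgU _ ψ₀.2) (hgU _ (Char.isIrrCharacter_conjFun ψ₀.2))
  have hevP : ∀ k : K, Even (orderOf k) → P k = 0 := fun k hk => by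
    rw [← hPeq, Pi.add_apply, even_ind_eq_zero hC.oddU _ hk, even_ind_eq_zero hC.oddU _ hk,
      add_zero]
  have hgphi : ∀ f : O → ℂ, Cfsg.IsIrrCharacter O f →
      Cfsg.IsGeneralizedCharacter K (phi O P f) := fun f hf => by
    refine CharInd.genChar_sub ?_ (CharInd.genChar_indFun O (CharInd.genChar_irr hf))
    exact_mod_cast CharInd.genChar_zsmul hgP 2
  have hevphi : ∀ (f : O → ℂ) (k : K), Even (orderOf k) → phi O P f k = 0 := fun f k hk => by
    simp [phi, hevP k hk, even_ind_eq_zero hC.oddO f hk]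
  -- the virtual characters `F`
  let Φ : Fin 3 → K → ℂ := fun j => phi O P (Θ j)
  have hgF : ∀ j, Cfsg.IsGeneralizedCharacter G (h.big (Φ j)) := fun j =>
    h.genChar_big (hgphi _ (hΘirr j))
  choose c hcF hcl hcr hcn using fun j => coeffs (hgF j)
  have hnorm : ∀ j, ∑ ξ, c j ξ * c j ξ = 4 := fun j => by
    have e := hcn j
    rw [h.big_inner_big (hgphi _ (hΘirr j)) (hevphi _) (hevphi _),
      hC.phi_self _ (hΘirr j) (hΘne j)] at e
    exact_mod_cast (e.symm.trans (by norm_num) : ((∑ ξ, c j ξ * c j ξ : ℤ) : ℂ) = (4 : ℤ))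
  have horth : ∀ j k, j ≠ k → ∑ ξ, c j ξ * c k ξ = 0 := fun j k hjk => by
    have e := CharInd.genChar_classInner (hcF j) (hcF k)
    rw [h.big_inner_big (hgphi _ (hΘirr j)) (hevphi _) (hevphi _),
      hC.phi_orth _ _ (hΘirr j) (hΘirr k) (hpairs j k hjk).1 (hpairs j k hjk).2, mul_zero] at e
    exact_mod_cast e.symm
  have hpar : ∀ j k ξ, ∃ z : ℤ, c j ξ - c k ξ = 2 * z := by
    intro j k ξ
    have hξ := CharInd.genChar_irr ξ.2
    obtain ⟨a, b, h1, h2⟩ := h.inner_parity hξ (hgphi _ (hΘirr j))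
    obtain ⟨a', b', h1', h2'⟩ := h.inner_parity hξ (hgphi _ (hΘirr k))
    rw [hcr j ξ] at h1
    rw [hcr k ξ] at h1'
    have hcl' : Cfsg.IsClassFunction K (fun x : K => (ξ : G → ℂ) x) := fun x y => by
      simpa using Char.irr_isClassFunction ξ.2 (x : G) (y : G)
    have hinv : ∀ f : O → ℂ, Cfsg.classInner (fun x : O => (ξ : G → ℂ) (x : K)) (f ∘ σ) =
        Cfsg.classInner (fun x : O => (ξ : G → ℂ) (x : K)) f := by
      intro f
      simp only [Cfsg.classInner]
      congr 1
      refine Fintype.sum_equiv σ.toEquiv _ _ fun x => ?_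
      simp [hσG _ (Char.irr_isClassFunction ξ.2) x]
    have hsame : ∀ j, Cfsg.classInner (fun x : O => (ξ : G → ℂ) (x : K)) (Θ j) =
        Cfsg.classInner (fun x : O => (ξ : G → ℂ) (x : K)) θ := by
      intro j; fin_cases j
      · rfl
      · exact hinv θ
      · exact (hinv (θ ∘ σ)).trans (hinv θ)
    have hval : ∀ f : O → ℂ, Cfsg.classInner (fun x : K => (ξ : G → ℂ) x) (phi O P f) =
        2 * Cfsg.classInner (fun x : K => (ξ : G → ℂ) x) P -
          Cfsg.classInner (fun x : O => (ξ : G → ℂ) (x : K)) f := fun f => by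
      rw [phi, CharInd.classInner_sub_right, CharInd.classInner_smul_right, map_ofNat,
        ← CharInd.classInner_swap (Cfsg.indFun O f), CharInd.classInner_indFun_left O f hcl',
        CharInd.classInner_swap]
    rw [hval, hsame] at h2 h2'
    have hab : a + b = a' + b' := by exact_mod_cast (h2.symm.trans h2')
    have e1 : c j ξ = a - b := by exact_mod_cast h1
    have e2 : c k ξ = a' - b' := by exact_mod_cast h1'
    exact ⟨a - a', by omega⟩
  have hF1 : ∀ j, ∀ g : G, Odd (orderOf g) → h.big (Φ j) g = 0 := fun j g hg => h.big_odd _ hg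
  have hsmall : ∀ j ξ, c j ξ = 0 ∨ c j ξ = 1 ∨ c j ξ = -1 := by
    intro j ξ
    by_contra hbad
    push Not at hbad
    have h4 : 4 ≤ c j ξ * c j ξ := by
      rcases le_or_gt 2 (c j ξ) with h' | h'
      · nlinarith
      · have : c j ξ ≤ -2 := by omega
        nlinarith
    have hothers : ∀ η, η ≠ ξ → c j η = 0 := by
      intro η hη
      by_contra h0
      have hle := Finset.sum_le_sum_of_subset_of_nonneg (f := fun η => c j η * c j η)
        (Finset.subset_univ {ξ, η}) (fun i _ _ => mul_self_nonneg _)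
      rw [Finset.sum_pair (Ne.symm hη), hnorm] at hle
      have : 0 < c j η * c j η := mul_self_pos.2 h0
      omega
    have e := hF1 j 1 (by simp)
    rw [hcF j, Finset.sum_apply, Finset.sum_eq_single ξ (fun η _ hη => by simp [hothers η hη])
      (by simp), Pi.smul_apply, smul_eq_mul] at e
    rcases mul_eq_zero.1 e with e' | e'
    · exact hbad.1 (by exact_mod_cast e')
    · exact Char.irr_one_ne_zero ξ.2 e'
  -- the four constituents
  set S := Finset.univ.filter (fun ξ => c 0 ξ ≠ 0) with hS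
  have hsupp : ∀ j ξ, c j ξ ≠ 0 ↔ ξ ∈ S := by
    intro j ξ
    obtain ⟨z, hz⟩ := hpar j 0 ξ
    rw [hS, Finset.mem_filter]
    rcases hsmall j ξ with e | e | e <;> rcases hsmall 0 ξ with e' | e' | e' <;>
      simp only [Finset.mem_univ, true_and] <;> omega
  have hS4 : S.card = 4 := by
    have e := hnorm 0
    have : ∀ ξ, c 0 ξ * c 0 ξ = if ξ ∈ S then 1 else 0 := by
      intro ξ
      rcases hsmall 0 ξ with e | e | e <;> simp [hS, e]
    simp only [this, Finset.sum_ite_mem, Finset.univ_inter, Finset.sum_const, nsmul_eq_mul,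
      mul_one] at e
    exact_mod_cast e
  let e := (Finset.equivFinOfCardEq hS4).symm
  have hsum : ∀ f : Cfsg.IrrCharacter G → ℂ, ∀ j,
      ∑ ξ, (c j ξ : ℂ) * f ξ = ∑ i, (c j (e i) : ℂ) * f (e i) := by
    intro f j
    rw [Equiv.sum_comp e (fun ξ : S => (c j ξ : ℂ) * f ξ),
      Finset.sum_coe_sort S (fun ξ => (c j ξ : ℂ) * f ξ)]
    refine (Finset.sum_subset (Finset.subset_univ S) fun ξ _ hξ => ?_).symm
    rw [not_not.1 (mt (hsupp j ξ).1 hξ)]; simp
  let s : Fin 3 → Fin 4 → ℂ := fun j i => (c j (e i) : ℂ)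
  let χ : Fin 4 → G → ℂ := fun i => ((e i : Cfsg.IrrCharacter G) : G → ℂ)
  have hχ : ∀ i, Cfsg.IsIrrCharacter G (χ i) := fun i => (e i : Cfsg.IrrCharacter G).2
  have hspm : ∀ j i, s j i = 1 ∨ s j i = -1 := fun j i => by
    rcases hsmall j (e i) with e' | e' | e'
    · exact absurd e' ((hsupp j _).2 (e i).2)
    · exact Or.inl (by simp [s, e'])
    · exact Or.inr (by simp [s, e'])
  have hsq : ∀ j i, s j i * s j i = 1 := fun j i => by rcases hspm j i with h | h <;> simp [h]
  have hsorth : ∀ j k, j ≠ k → ∑ i, s j i * s k i = 0 := fun j k hjk => by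
    rw [← hsum (fun ξ => (c k ξ : ℂ)) j]
    exact_mod_cast horth j k hjk
  have hFexp : ∀ j g, h.big (Φ j) g = ∑ i, s j i * χ i g := fun j g => by
    rw [← hsum (fun ξ => (ξ : G → ℂ) g) j]
    conv_lhs => rw [hcF j]
    simp [Finset.sum_apply]
  let n : Fin 4 → ℂ := fun i => s 0 i * s 1 i * s 2 i
  have hnn : ∀ i, n i * n i = 1 := fun i => by
    simp only [n]
    linear_combination (s 0 i * s 0 i * (s 1 i * s 1 i)) * hsq 2 i +
      (s 0 i * s 0 i) * hsq 1 i + hsq 0 i
  have hnint : ∀ i, IsIntegral ℤ (n i) := fun i => by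
    simp only [n, s, ← Int.cast_mul]; exact Char.isIntegral_of_int _
  let β : G → ℂ := fun g => (∑ i, n i * χ i g) / 4
  have hval : ∀ g, Odd (orderOf g) → ∀ i, χ i g = n i * β g := by
    intro g hg i
    have := frame hspm hsorth (v := fun i => χ i g) (fun j => by rw [← hFexp]; exact hF1 j g hg) i
    simp only [β, n]
    linear_combination this / 4
  have hnormsum : ∀ i, n i * χ i 1 = β 1 := fun i => by
    rw [hval 1 (by simp) i, ← mul_assoc, hnn, one_mul]
  have hβ1 : β 1 ≠ 0 := fun e0 => Char.irr_one_ne_zero (hχ 0) (by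
    rw [hval 1 (by simp) 0, e0, mul_zero])
  -- orthogonal virtual characters have no coefficient at the four constituents
  have vanish : ∀ Ψ : K → ℂ, Cfsg.IsGeneralizedCharacter K Ψ →
      (∀ k : K, Even (orderOf k) → Ψ k = 0) →
      (∀ j, Cfsg.classInner Ψ (Φ j) = 0) → ∀ m : Cfsg.IrrCharacter G → ℤ,
      (h.big Ψ = ∑ ξ, (m ξ : ℂ) • (ξ : G → ℂ)) →
      ∃ k : ℤ, (∀ i, (m (e i) : ℂ) = k * n i) ∧ 4 * (k * k) ≤ ∑ ξ, m ξ * m ξ ∧
        (∑ ξ, m ξ * m ξ ≤ 4 → k = 0) := by
    intro Ψ hgΨ hevΨ horΨ m hm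
    have horm : ∀ j, ∑ i, s j i * (m (e i) : ℂ) = 0 := fun j => by
      rw [← hsum (fun ξ => (m ξ : ℂ)) j]
      have e1 := CharInd.genChar_classInner hm (hcF j)
      rw [h.big_inner_big hgΨ hevΨ (hevphi _), horΨ j, mul_zero] at e1
      have e2 : ∑ ξ, m ξ * c j ξ = 0 := by exact_mod_cast e1.symm
      have e3 : ∑ ξ, c j ξ * m ξ = 0 := by rw [← e2]; exact Finset.sum_congr rfl fun _ _ => mul_comm _ _
      exact_mod_cast e3
    have hfr := frame hspm hsorth (v := fun i => (m (e i) : ℂ)) horm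
    obtain ⟨k, hk⟩ : ∃ k : ℤ, (k : ℂ) = m (e 0) * n 0 :=
      ⟨m (e 0) * (c 0 (e 0) * c 1 (e 0) * c 2 (e 0)), by simp [n, s]⟩
    have hkn : ∀ i, (m (e i) : ℂ) = k * n i := by
      intro i
      have h4 : (4 : ℂ) * (m (e i) : ℂ) = 4 * (k * n i) := by
        rw [hk]; linear_combination hfr i - (n i * n 0) * hfr 0 -
          (n i * ∑ l, s 0 l * s 1 l * s 2 l * (m (e l) : ℂ)) * hnn 0
      exact mul_left_cancel₀ (by norm_num) h4
    have hsqk : ∀ i, m (e i) * m (e i) = k * k := fun i => by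
      have : (m (e i) : ℂ) * m (e i) = (k : ℂ) * k := by
        rw [hkn i]; linear_combination ((k : ℂ) * k) * hnn i
      exact_mod_cast this
    have hSsum : ∑ ξ ∈ S, m ξ * m ξ = 4 * (k * k) := by
      rw [← Finset.sum_coe_sort S, ← Equiv.sum_comp e]
      simp [hsqk]
    refine ⟨k, hkn, ?_, fun hle => ?_⟩
    · rw [← hSsum]
      exact Finset.sum_le_sum_of_subset_of_nonneg (Finset.subset_univ _)
        (fun i _ _ => mul_self_nonneg _)
    by_contra hk0
    have hk1 : 1 ≤ k * k := by have := mul_self_pos.2 hk0; omega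
    have hout : ∀ ξ, ξ ∉ S → m ξ = 0 := by
      intro ξ hξ
      by_contra h0
      have hle' := Finset.sum_le_sum_of_subset_of_nonneg (f := fun η => m η * m η)
        (Finset.subset_univ (insert ξ S)) (fun i _ _ => mul_self_nonneg _)
      rw [Finset.sum_insert hξ, hSsum] at hle'
      have := mul_self_pos.2 h0
      omega
    have e0 := h.big_odd Ψ (g := (1 : G)) (by simp)
    rw [hm, Finset.sum_apply] at e0
    simp only [Pi.smul_apply, smul_eq_mul] at e0
    rw [← Finset.sum_subset (Finset.subset_univ S) (fun ξ _ hξ => by simp [hout ξ hξ]),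
      ← Finset.sum_coe_sort S (fun ξ => (m ξ : ℂ) * (ξ : G → ℂ) 1), ← Equiv.sum_comp e] at e0
    have e1 : ∀ i, (m (e i) : ℂ) * χ i 1 = (k : ℂ) * β 1 := fun i => by
      rw [hkn i, mul_assoc, hnormsum i]
    change ∑ i, (m (e i) : ℂ) * χ i 1 = 0 at e0
    simp only [e1, Finset.sum_const, Finset.card_univ, Fintype.card_fin, nsmul_eq_mul] at e0
    simp [hk0, hβ1] at e0
  -- the coefficient functionals
  let co : (K → ℂ) → Fin 4 → ℂ := fun Ψ i => Cfsg.classInner (fun k : K => χ i (t * k)) Ψ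
  have hco : ∀ Ψ i (m : Cfsg.IrrCharacter G → ℤ),
      (h.big Ψ = ∑ ξ, (m ξ : ℂ) • (ξ : G → ℂ)) → co Ψ i = m (e i) := by
    intro Ψ i m hm
    simp only [co]
    rw [← h.inner_big (Char.irr_isClassFunction (hχ i)), hm, ← CharInd.classInner_swap,
      CharInd.classInner_irrSum (fun ξ => (m ξ : ℂ)) (e i), map_intCast]
  have hcoΦ : ∀ j i, co (Φ j) i = s j i := fun j i => hco _ i _ (hcF j)
  have hco_add : ∀ A B i, co (A + B) i = co A i + co B i := fun A B i =>
    CharInd.classInner_add_right _ A B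
  have hco_sub : ∀ A B i, co (A - B) i = co A i - co B i := fun A B i =>
    CharInd.classInner_sub_right _ A B
  have hco_zero : ∀ Ψ, Cfsg.IsGeneralizedCharacter K Ψ →
      (∀ k : K, Even (orderOf k) → Ψ k = 0) → (∀ j, Cfsg.classInner Ψ (Φ j) = 0) →
      (∃ q : ℕ, q ≤ 2 ∧ Cfsg.classInner Ψ Ψ = q) → ∀ i, co Ψ i = 0 := by
    intro Ψ hg hev hor ⟨q, hq, hqe⟩ i
    obtain ⟨m, hm, -, -, hmn⟩ := coeffs (h.genChar_big hg)
    obtain ⟨k, hk, -, hk0⟩ := vanish Ψ hg hev hor m hm
    rw [hco Ψ i m hm, hk, hk0, Int.cast_zero, zero_mul]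
    rw [h.big_inner_big hg hev hev, hqe] at hmn
    have : ((∑ ξ, m ξ * m ξ : ℤ) : ℂ) = ((2 * q : ℤ) : ℂ) := by rw [← hmn]; push_cast; rfl
    have := Int.cast_injective this
    omega
  have hΦsym : ∀ A B : K → ℂ, Cfsg.classInner A B = 0 → Cfsg.classInner B A = 0 := fun A B e => by
    rw [← CharInd.classInner_swap, e, map_zero]
  -- `Ind_U 1`
  have hA : ∀ i, co (Cfsg.indFun U fun _ => 1) i = 0 := by
    obtain ⟨m, f, hf, hprop⟩ := hC.borel
    intro i
    simp only [co]
    rw [← hf, CharInd.classInner_sum_right]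
    refine Finset.sum_eq_zero fun l _ => ?_
    obtain ⟨h1, h2, h3, h4⟩ := hprop l
    exact hco_zero _ h1 h2 (fun j => h4 _ (hΘirr j)) h3 i
  -- `ψ` and its conjugate
  have hψψ : ∀ ψ : U → ℂ, Cfsg.IsIrrCharacter U ψ → ψ ≠ (fun _ => 1) → ∀ i,
      2 * co (Cfsg.indFun U ψ) i = co P i := by
    intro ψ hψ hψ1 i
    have e0 := hco_zero (Cfsg.indFun U ψ - Cfsg.indFun U fun h => conj (ψ h))
      (CharInd.genChar_sub (hgU _ hψ) (hgU _ (Char.isIrrCharacter_conjFun hψ)))
      (fun k hk => by simp [even_ind_eq_zero hC.oddU _ hk])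
      (fun j => hC.sub_phi ψ hψ hψ1 _ (hΘirr j)) ⟨2, le_rfl, by rw [hC.sub_norm ψ hψ hψ1]; simp⟩ i
    rw [hco_sub, sub_eq_zero] at e0
    rw [← hC.P_eq ψ hψ hψ1, hco_add, ← e0]; ring
  let d : Fin 4 → ℂ := fun i => co (Cfsg.indFun U ψ₀) i
  have hdP : ∀ i, co P i = 2 * d i := fun i => (hψψ ψ₀ ψ₀.2 hψ₀ne i).symm
  have hdint : ∀ i, ∃ z : ℤ, d i = z := fun i => by
    obtain ⟨m, hm, -⟩ := coeffs (h.genChar_big (hgU _ ψ₀.2))
    exact ⟨m (e i), hco _ i m hm⟩
  -- Fourier on `U`
  have hUval : ∀ i (x : U), χ i (t * (x : K)) =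
      d i * ((if x = 1 then (Nat.card U : ℂ) else 0) - 1) := by
    intro i x
    have hcl : Cfsg.IsClassFunction U (fun x : U => χ i (t * (x : K))) := fun a b => by
      rw [show b * a * b⁻¹ = a from
        Subtype.ext (by simp [hUab b b.2 a a.2])]
    have e1 := congrFun (Char.eq_sum_classInner_smul hcl) x
    simp only [Finset.sum_apply, Pi.smul_apply, smul_eq_mul] at e1
    have key : ∀ ψ : Cfsg.IrrCharacter U,
        Cfsg.classInner (fun x : U => χ i (t * (x : K))) (ψ : U → ℂ) =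
          if ψ = Char.trivialIrr U then 0 else d i := by
      intro ψ
      have hcl' : Cfsg.IsClassFunction K (fun k : K => χ i (t * k)) := fun a b => by
        have e := Char.irr_isClassFunction (hχ i) (t * (a : G)) (b : G)
        have hb : (b : G) * t = t * b := h.comm b.2
        simpa [← mul_assoc, hb] using e
      have e2 : Cfsg.classInner (fun x : U => χ i (t * (x : K))) (ψ : U → ℂ) =
          co (Cfsg.indFun U ψ) i := by
        simp only [co]
        rw [← CharInd.classInner_swap (Cfsg.indFun U _), CharInd.classInner_indFun_left U _ hcl',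
          CharInd.classInner_swap]
      rw [e2]
      split_ifs with hψ
      · rw [hψ]; exact hA i
      · have hne' : (ψ : U → ℂ) ≠ fun _ => 1 := fun e' => hψ (Subtype.ext e')
        have := hψψ ψ ψ.2 hne' i
        rw [hdP i] at this
        linear_combination this / 2
    simp only [key, ite_mul, zero_mul] at e1
    rw [e1]
    have e3 := Char.sum_irr_degree_mul x
    simp only [hU1, one_mul] at e3
    rw [← e3, ← Finset.add_sum_erase _ _ (Finset.mem_univ (Char.trivialIrr U)),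
      ← Finset.add_sum_erase _ (fun ψ : Cfsg.IrrCharacter U => (ψ : U → ℂ) x)
        (Finset.mem_univ (Char.trivialIrr U))]
    simp only [if_true]
    rw [show ((Char.trivialIrr U : Cfsg.IrrCharacter U) : U → ℂ) x = 1 from rfl, zero_add,
      add_sub_cancel_left, Finset.mul_sum]
    refine Finset.sum_congr rfl fun ψ hψ => ?_
    rw [if_neg (Finset.ne_of_mem_erase hψ)]
  -- the identity fixing `d`
  have hd : ∀ i, d i = s 0 i + s 1 i + s 2 i := by
    intro i
    have hphiconj : ∀ j, phi O P (fun h => conj (Θ j h)) = Φ j := fun j => by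
      simp only [Φ, phi, hC.ind_conj _ (hΘirr j)]
    have hcoval : ∀ θ : O → ℂ, co (phi O P θ) i =
        2 * co P i - co (Cfsg.indFun O θ) i := fun θ => by
      simp only [phi, co]
      rw [CharInd.classInner_sub_right, CharInd.classInner_smul_right, map_ofNat]
    have hOsum : ∑ θ : Cfsg.IrrCharacter O, co (Cfsg.indFun O (θ : O → ℂ)) i = χ i t := by
      have hcl : Cfsg.IsClassFunction O (fun x : O => χ i (t * (x : K))) := fun a b => by
        rw [show b * a * b⁻¹ = a from Subtype.ext (by simp [hOab b b.2 a a.2])]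
      have e1 := congrFun (Char.eq_sum_classInner_smul hcl) 1
      simp only [Finset.sum_apply, Pi.smul_apply, smul_eq_mul, hO1, mul_one, OneMemClass.coe_one]
        at e1
      rw [e1]
      refine Finset.sum_congr rfl fun θ _ => ?_
      have hcl' : Cfsg.IsClassFunction K (fun k : K => χ i (t * k)) := fun a b => by
        have e := Char.irr_isClassFunction (hχ i) (t * (a : G)) (b : G)
        have hb : (b : G) * t = t * b := h.comm b.2
        simpa [← mul_assoc, hb] using e
      simp only [co]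
      rw [← CharInd.classInner_swap (Cfsg.indFun O _), CharInd.classInner_indFun_left O _ hcl',
        CharInd.classInner_swap]
    let Q : Finset (Cfsg.IrrCharacter O) :=
      (Finset.univ : Finset (Fin 3 × Bool)).image fun p =>
        if p.2 then ⟨_, hΘirr p.1⟩ else ⟨_, Char.isIrrCharacter_conjFun (hΘirr p.1)⟩
    have hQval : ∀ p : Fin 3 × Bool, co (phi O P ((if p.2 then ⟨_, hΘirr p.1⟩ else
        ⟨_, Char.isIrrCharacter_conjFun (hΘirr p.1)⟩ : Cfsg.IrrCharacter O) : O → ℂ)) i =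
          s p.1 i := by
      rintro ⟨j, _ | _⟩
      · simp [hphiconj j, hcoΦ]
      · exact hcoΦ j i
    have hnotself : ∀ j, Θ j ≠ fun h => conj (Θ j h) := by
      intro j e0
      apply hΘne j
      funext x
      obtain ⟨z, hz⟩ := Char.irr_exists_monoidHom_of_comm
        (fun a b : O => Subtype.ext (hOab a a.2 b b.2)) (hΘirr j)
      have e1 := congrFun e0 x
      have hpw : ∀ k : ℕ, Θ j (x ^ k) = Θ j x ^ k := fun k => by
        simp [hz]
      have hord : Θ j x ^ Nat.card O = 1 := by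
        rw [← hpw, pow_card_eq_one', irr_apply_one hOab (hΘirr j)]
      have hnorm1 : conj (Θ j x) * Θ j x = 1 := by
        rw [← Complex.normSq_eq_conj_mul_self, Complex.normSq_eq_norm_sq,
          Complex.norm_eq_one_of_pow_eq_one hord Nat.card_pos.ne']
        simp
      rw [← e1] at hnorm1
      obtain ⟨m, hm⟩ := hC.oddO
      rw [hm, pow_succ, pow_mul, sq, hnorm1, one_pow, one_mul] at hord
      exact hord
    have hQinj : Function.Injective (fun p : Fin 3 × Bool =>
        (if p.2 then ⟨_, hΘirr p.1⟩ else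
          ⟨_, Char.isIrrCharacter_conjFun (hΘirr p.1)⟩ : Cfsg.IrrCharacter O)) := by
      rintro ⟨j, _ | _⟩ ⟨k, _ | _⟩ e0 <;> have e1 := congrArg Subtype.val e0 <;>
        simp only [if_true, if_false, Bool.false_eq_true] at e1
      · by_contra hne0
        refine (hpairs j k fun e2 => hne0 (by rw [e2])).1 (funext fun x => ?_)
        simpa using (congrArg conj (congrFun e1 x)).symm
      · by_cases hjk : j = k
        · exact absurd e1.symm (hjk ▸ hnotself j)
        · exact absurd e1.symm (hpairs j k hjk).2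
      · by_cases hjk : j = k
        · exact absurd e1 (hjk ▸ hnotself j)
        · exact absurd e1 (hpairs k j (Ne.symm hjk)).2
      · by_contra hne0
        exact (hpairs j k fun e2 => hne0 (by rw [e2])).1 e1.symm
    have htriv : Char.trivialIrr O ∉ Q := by
      simp only [Q, Finset.mem_image, Finset.mem_univ, true_and, not_exists]
      rintro ⟨j, _ | _⟩ e0 <;> have e1 := congrArg Subtype.val e0
      · refine hΘne j (funext fun x => ?_)
        have := congrArg conj (congrFun e1 x)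
        simpa [Char.trivialIrr] using this
      · exact hΘne j e1
    have hzero : ∀ θ : Cfsg.IrrCharacter O, θ ∉ Q → θ ≠ Char.trivialIrr O →
        co (phi O P (θ : O → ℂ)) i = 0 := by
      intro θ' hθ' hθ1
      have hne' : (θ' : O → ℂ) ≠ fun _ => 1 := fun e0 => hθ1 (Subtype.ext e0)
      refine hco_zero _ (hgphi _ θ'.2) (hevphi _) (fun j => hΦsym _ _ ?_)
        ⟨2, le_rfl, by rw [hC.phi_self _ θ'.2 hne']; simp⟩ i
      refine hC.phi_orth _ _ (hΘirr j) θ'.2 (fun e0 => hθ' ?_) (fun e0 => hθ' ?_)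
      · exact Finset.mem_image.2 ⟨(j, true), Finset.mem_univ _, Subtype.ext e0.symm⟩
      · exact Finset.mem_image.2 ⟨(j, false), Finset.mem_univ _, Subtype.ext e0.symm⟩
    have hsumphi : ∑ θ : Cfsg.IrrCharacter O, co (phi O P (θ : O → ℂ)) i =
        co (phi O P fun _ => 1) i + 2 * (s 0 i + s 1 i + s 2 i) := by
      rw [← Finset.sum_subset (Finset.subset_univ (insert (Char.trivialIrr O) Q)) (fun θ _ hθ =>
        hzero θ (fun h' => hθ (Finset.mem_insert_of_mem h'))
          (fun h' => hθ (h' ▸ Finset.mem_insert_self _ _))), Finset.sum_insert htriv]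
      congr 1
      rw [Finset.sum_image (fun a _ b _ e0 => hQinj e0)]
      simp only [hQval]
      simp [Fintype.sum_prod_type, Fin.sum_univ_three]
      ring
    have hcardO : (Finset.univ : Finset (Cfsg.IrrCharacter O)).card = Nat.card O := by
      have := Char.sum_irr_degree_sq (G := O)
      simp only [hO1, one_pow, Finset.sum_const, nsmul_eq_mul, mul_one] at this
      exact_mod_cast this
    simp only [hcoval, Finset.sum_sub_distrib, Finset.sum_const, nsmul_eq_mul, hcardO, hOsum]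
      at hsumphi
    have ht1 := hUval i 1
    simp only [if_true, OneMemClass.coe_one, mul_one] at ht1
    rw [hdP i, ht1] at hsumphi
    have hcardC : (Nat.card O : ℂ) * 4 = (Nat.card U : ℂ) + 1 := by exact_mod_cast hcard
    -- the coefficient of `phi 1`
    have hg1 := hgphi _ CharInd.irr_one_const
    obtain ⟨m, hm, -, -, hmn⟩ := coeffs (h.genChar_big hg1)
    obtain ⟨k, hk, hk4, -⟩ := vanish _ hg1 (hevphi _) (fun j => hΦsym _ _
      (hC.phi_orth _ _ (hΘirr j) CharInd.irr_one_const (Ne.symm (hΘne j)) fun e0 => hΘne j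
        (funext fun x => by simpa using (congrArg conj (congrFun e0 x)).symm))) m hm
    rw [h.big_inner_big hg1 (hevphi _) (hevphi _), hC.phi_one] at hmn
    have hm8 : ∑ ξ, m ξ * m ξ = 8 := by
      have : ((∑ ξ, m ξ * m ξ : ℤ) : ℂ) = ((8 : ℤ) : ℂ) := by rw [← hmn]; norm_num
      exact_mod_cast this
    have hc1 : co (phi O P fun _ => 1) i = (k : ℂ) * n i := by rw [hco _ i m hm, hk]
    have hrel : (k : ℂ) * n i = 2 * d i - 2 * (s 0 i + s 1 i + s 2 i) := by
      rw [← hc1, hcoval, hdP i]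
      linear_combination (-1 : ℂ) * hsumphi + d i * hcardC
    obtain ⟨z, hz⟩ := hdint i
    have hk2 : ∃ w : ℤ, k = 2 * w := by
      refine ⟨(z - (c 0 (e i) + c 1 (e i) + c 2 (e i))) * (c 0 (e i) * c 1 (e i) * c 2 (e i)), ?_⟩
      have : (k : ℂ) = 2 * ((z - (s 0 i + s 1 i + s 2 i)) * n i) := by
        rw [← hz]; linear_combination n i * hrel - (k : ℂ) * hnn i
      simp only [s, n] at this
      exact_mod_cast this
    obtain ⟨w, hw⟩ := hk2
    rw [hm8] at hk4
    have hw0 : w = 0 := by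
      by_contra hw0
      have := mul_self_pos.2 hw0
      rw [hw] at hk4
      nlinarith
    have hk0 : (k : ℂ) = 0 := by rw [hw, hw0]; simp
    rw [hk0, zero_mul] at hrel
    linear_combination (-1 / 2 : ℂ) * hrel
  -- congruences
  let T := Finset.univ.filter (IsConj t)
  let ν : Fin 4 → ℂ := fun i => -(n i * (s 0 i + s 1 i + s 2 i))
  have hνint : ∀ i, IsIntegral ℤ (ν i) := fun i => by
    refine ((hnint i).mul ?_).neg
    simp only [s, ← Int.cast_add]; exact Char.isIntegral_of_int _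
  have htu : ∀ i, n i * χ i (t * (u : G)) = ν i := fun i => by
    have := hUval i ⟨u, huU⟩
    rw [if_neg (fun e0 => hu1 (congrArg Subtype.val e0))] at this
    rw [show χ i (t * (u : G)) = _ from this, hd i]
    simp only [ν]; ring
  have hu3 : (u : G) ^ 3 = 1 := by rw [← hu, ← orderOf_coe, pow_orderOf_eq_one]
  have huodd : Odd (orderOf (u : G)) := by rw [orderOf_coe, hu]; decide
  have htcomm : (u : G) * t = t * u := h.comm u.2
  let τ : G → G := fun i => (u : G) * i * (u : G)⁻¹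
  have hτ : ∀ a ∈ T, τ a ∈ T ∧ τ (τ (τ a)) = a := by
    intro a ha
    refine ⟨Finset.mem_filter.2 ⟨Finset.mem_univ _,
      (Finset.mem_filter.1 ha).2.trans (isConj_iff.2 ⟨u, rfl⟩)⟩, ?_⟩
    calc τ (τ (τ a)) = (u : G) ^ 3 * a * ((u : G) ^ 3)⁻¹ := by
          simp only [τ, pow_succ, pow_zero, one_mul, mul_inv_rev, mul_assoc]
      _ = a := by rw [hu3]; simp
  have hfixed : T.filter (fun a => τ a = a) =
      Finset.univ.filter (fun i : G => IsConj t i ∧ i * u = u * i) := by
    ext a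
    simp only [T, τ, Finset.filter_filter, Finset.mem_filter, Finset.mem_univ, true_and,
      mul_inv_eq_iff_eq_mul, eq_comm (a := (u : G) * a)]
  let Fx := Finset.univ.filter (fun i : G => IsConj t i ∧ i * u = u * i)
  let SB : ℂ := ∑ a ∈ Fx, β (a * (t * u))
  have hχint : ∀ i g, IsIntegral ℤ (χ i g) := fun i g =>
    Char.isCharacter_isIntegral (Char.isCharacter_of_irr (hχ i)) g
  have hβint : ∀ g, Odd (orderOf g) → IsIntegral ℤ (β g) := fun g hg => by
    have : β g = n 0 * χ 0 g := by rw [hval g hg 0, ← mul_assoc, hnn, one_mul]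
    rw [this]; exact (hnint 0).mul (hχint 0 g)
  choose ω hωint hω using fun i => exists_omega (hχ i) t
  have hcong : ∀ i, Cong (ω i * β u) ((Fx.card : ℂ) * ν i) ∧ Cong (ω i * ν i) SB := by
    intro i
    have hcl := Char.irr_isClassFunction (hχ i)
    have hinv : ∀ g : G, (u : G) * g * (u : G)⁻¹ = g → ∀ a,
        χ i (τ a * g) = χ i (a * g) := fun g hg a => by
      conv_lhs => rw [← hg]
      rw [show τ a * ((u : G) * g * (u : G)⁻¹) = (u : G) * (a * g) * (u : G)⁻¹ by
        simp only [τ]; group]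
      exact hcl _ _
    have step : ∀ g : G, (u : G) * g * (u : G)⁻¹ = g →
        Cong (n i * (ω i * χ i g)) (n i * ∑ a ∈ Fx, χ i (a * g)) := fun g hg => by
      rw [← hω i g]
      refine Cong.mul (hnint i) ?_
      have := sum_cong_fixed τ (fun a => χ i (a * g)) (fun a => hχint i _) (hinv g hg) T hτ
      rwa [hfixed] at this
    constructor
    · have e1 := step u (by group)
      have e2 : ∀ a ∈ Fx, χ i (a * u) = χ i (t * u) := by
        intro a ha
        obtain ⟨-, ha1, ha2⟩ := Finset.mem_filter.1 ha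
        obtain ⟨g, hg1, hg2⟩ := hconj a ha1 ha2
        rw [← hcl (t * u) g, ← hg2]
        congr 1
        calc g * t * g⁻¹ * u = g * t * (g⁻¹ * u) := by group
          _ = g * t * ((u : G) * g⁻¹) := by
            rw [show g⁻¹ * (u : G) = u * g⁻¹ from (Commute.inv_left hg1).eq]
          _ = g * (t * u) * g⁻¹ := by group
      rw [Finset.sum_congr rfl e2, Finset.sum_const, nsmul_eq_mul] at e1
      have e3 : n i * (ω i * χ i u) = ω i * β u := by
        rw [hval u huodd i]; linear_combination (ω i * β u) * hnn i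
      have e4 : n i * ((Fx.card : ℂ) * χ i (t * u)) = (Fx.card : ℂ) * ν i := by
        rw [← htu i]; ring
      rwa [e3, e4] at e1
    · have e1 := step (t * u) (by
        rw [← mul_assoc (u : G), htcomm]; group)
      have e2 : n i * ∑ a ∈ Fx, χ i (a * (t * u)) = SB := by
        rw [Finset.mul_sum]
        refine Finset.sum_congr rfl fun a ha => ?_
        obtain ⟨-, ha1, ha2⟩ := Finset.mem_filter.1 ha
        rw [hval _ (hodd a ha1 ha2) i, ← mul_assoc, hnn, one_mul]
      rw [e2] at e1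
      rwa [show n i * (ω i * χ i (t * u)) = ω i * ν i by rw [← htu i]; ring] at e1
  -- one row sum is three, another is one
  have hcases : ∀ i, ν i = 3 ∨ ν i = -3 ∨ ν i = 1 ∨ ν i = -1 := fun i => by
    simp only [ν, n]
    rcases hspm 0 i with a | a <;> rcases hspm 1 i with b | b <;> rcases hspm 2 i with c' | c' <;>
      rw [a, b, c'] <;> norm_num
  have hν2 : ∑ i, ν i * ν i = 12 := by
    have : ∀ i, ν i * ν i = 3 + 2 * (s 0 i * s 1 i) + 2 * (s 0 i * s 2 i) + 2 * (s 1 i * s 2 i) :=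
      fun i => by
        simp only [ν]
        linear_combination (s 0 i + s 1 i + s 2 i) ^ 2 * hnn i + hsq 0 i + hsq 1 i + hsq 2 i
    simp only [this, Finset.sum_add_distrib, ← Finset.mul_sum, hsorth 0 1 (by decide),
      hsorth 0 2 (by decide), hsorth 1 2 (by decide)]
    norm_num
  obtain ⟨i₀, h₀⟩ : ∃ i, ν i = 3 ∨ ν i = -3 := by
    by_contra hno
    push Not at hno
    have : ∀ i, ν i * ν i = 1 := fun i => by
      rcases hcases i with a | a | a | a
      · exact absurd a (hno i).1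
      · exact absurd a (hno i).2
      · rw [a]; norm_num
      · rw [a]; norm_num
    simp only [this] at hν2
    norm_num at hν2
  obtain ⟨i₁, h₁⟩ : ∃ i, ν i = 1 ∨ ν i = -1 := by
    by_contra hno
    push Not at hno
    have : ∀ i, ν i * ν i = 9 := fun i => by
      rcases hcases i with a | a | a | a
      · rw [a]; norm_num
      · rw [a]; norm_num
      · exact absurd a (hno i).1
      · exact absurd a (hno i).2
    simp only [this] at hν2
    norm_num at hν2
  have hS0 : Cong SB 0 := by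
    refine (hcong i₀).2.symm.trans ?_
    rcases h₀ with e0 | e0
    · exact ⟨ω i₀, hωint i₀, by rw [e0]; ring⟩
    · exact ⟨-ω i₀, (hωint i₀).neg, by rw [e0]; ring⟩
  have hsq1 : ν i₁ * ν i₁ = 1 := by rcases h₁ with e0 | e0 <;> rw [e0] <;> norm_num
  have hω0 : Cong (ω i₁) 0 := by
    have := Cong.mul (hνint i₁) ((hcong i₁).2.trans hS0)
    rwa [mul_zero, mul_left_comm, hsq1, mul_one] at this
  have hN0 : Cong ((Fx.card : ℂ) * ν i₁) 0 := by
    refine (hcong i₁).1.symm.trans ?_
    have := Cong.mul (hβint _ huodd) hω0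
    rwa [mul_zero, mul_comm] at this
  refine not_cong_natCast_zero hN ?_
  have := Cong.mul (hνint i₁) hN0
  rwa [mul_zero, mul_left_comm, hsq1, mul_one] at this

end Cfsg.Agent.ReeSThree
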