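import Cfsg.Agent.ReeSThree.Basic
import Cfsg.Agent.TwoFusion.BSW

/-!
A self-centralising four-group whose involutions are self-centralising is normal when no involution
inverts an element of order three.
-/

set_option autoImplicit false
set_option linter.unusedSimpArgs false

namespace Cfsg.Agent.ReeSThree

open Subgroup

theorem four_cc {Y : Type*} [Group Y] [Finite Y] (hY : NoInvThree Y) {a b : Y} (ha : orderOf a = 2)
    (hb : orderOf b = 2) (hab : a * b = b * a) (hne : a ≠ b)
    (hca : ∀ y, y * a = a * y → y = 1 ∨ y = a ∨ y = b ∨ y = a * b)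
    (hcb : ∀ y, y * b = b * y → y = 1 ∨ y = a ∨ y = b ∨ y = a * b)
    (hcab : ∀ y, y * (a * b) = a * b * y → y = 1 ∨ y = a ∨ y = b ∨ y = a * b) :
    (Subgroup.closure ({a, b} : Set Y)).Normal := by
  classical
  haveI : Fact (Nat.Prime 2) := ⟨Nat.prime_two⟩
  have ha2 : a * a = 1 := by rw [← sq, ← ha, pow_orderOf_eq_one]
  have hb2 : b * b = 1 := by rw [← sq, ← hb, pow_orderOf_eq_one]
  set V := Subgroup.closure ({a, b} : Set Y) with hVdef
  have haV : a ∈ V := subset_closure (by simp)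
  have hbV : b ∈ V := subset_closure (by simp)
  have hcomm : ∀ x ∈ V, ∀ y ∈ V, x * y = y * x := by
    have hle : V ≤ centralizer ({a, b} : Set Y) := by
      rw [hVdef, closure_le]
      rintro x hx
      rw [SetLike.mem_coe, mem_centralizer_iff]
      rintro y hy
      rcases hx with rfl | hx <;> rcases hy with rfl | hy
      · rfl
      · rw [Set.mem_singleton_iff] at hy; subst hy; exact hab.symm
      · rw [Set.mem_singleton_iff] at hx; subst hx; exact hab
      · rw [Set.mem_singleton_iff] at hx hy; subst hx hy; rfl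
    have hle' : V ≤ centralizer (V : Set Y) := by
      conv_lhs => rw [hVdef]
      rw [closure_le]
      intro g hg
      rw [SetLike.mem_coe, mem_centralizer_iff]
      intro x hx
      exact (mem_centralizer_iff.1 (hle hx) g hg).symm
    intro x hx y hy
    exact (mem_centralizer_iff.1 (hle' hx) y hy).symm
  have hmem : ∀ y, (y = 1 ∨ y = a ∨ y = b ∨ y = a * b) → y ∈ V := by
    rintro y (rfl | rfl | rfl | rfl)
    exacts [one_mem _, haV, hbV, mul_mem haV hbV]
  have hlist : ∀ y ∈ V, y = 1 ∨ y = a ∨ y = b ∨ y = a * b := fun y hy =>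
    hca y (hcomm y hy a haV)
  have hsq : ∀ y ∈ V, y ^ 2 = 1 := by
    intro y hy
    rcases hlist y hy with rfl | rfl | rfl | rfl
    · exact one_pow 2
    · rw [sq, ha2]
    · rw [sq, hb2]
    · calc (a * b) ^ 2 = a * (b * a) * b := by rw [sq]; group
        _ = a * a * (b * b) := by rw [← hab]; group
        _ = 1 := by rw [ha2, hb2, one_mul]
  have hC : ∀ y ∈ V, y ≠ 1 → ∀ c, c * y = y * c → c ∈ V := by
    intro y hy hy1 c hc
    rcases hlist y hy with rfl | rfl | rfl | rfl
    exacts [absurd rfl hy1, hmem _ (hca c hc), hmem _ (hcb c hc), hmem _ (hcab c hc)]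
  -- `V` is a Sylow subgroup
  have hVp : IsPGroup 2 V := fun ⟨y, hy⟩ => ⟨1, Subtype.ext (by simpa using hsq y hy)⟩
  obtain ⟨T, hVT⟩ := hVp.exists_le_sylow
  have hTV : (T : Subgroup Y) = V := by
    refine le_antisymm (fun c hc => ?_) hVT
    haveI : Nontrivial ↥(T : Subgroup Y) :=
      ⟨⟨⟨a, hVT haV⟩, 1, fun h => by
        have := congrArg Subtype.val h; simp only [OneMemClass.coe_one] at this
        rw [this] at ha; simp at ha⟩⟩
    haveI := T.isPGroup'.center_nontrivial
    obtain ⟨z, hz⟩ := exists_ne (1 : center ↥(T : Subgroup Y))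
    set w : Y := ((z : ↥(T : Subgroup Y)) : Y) with hw
    have hw1 : w ≠ 1 := fun h => hz (Subtype.ext (Subtype.ext h))
    have hwc : ∀ x ∈ (T : Subgroup Y), x * w = w * x := fun x hx =>
      congrArg Subtype.val (mem_center_iff.1 z.2 ⟨x, hx⟩)
    have hwV : w ∈ V := hmem _ (hca w (hwc a (hVT haV)).symm)
    exact hC w hwV hw1 c (hwc c hc)
  by_contra hnn
  have hnn' : ¬ (T : Subgroup Y).Normal := by rwa [hTV]
  have hnc : ¬ IsCyclic (T : Subgroup Y) := by
    rw [hTV]
    intro hcy
    obtain ⟨⟨g, hg⟩, hgen⟩ := hcy.exists_generator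
    have key : ∀ x ∈ V, x = 1 ∨ x = g := by
      intro x hx
      obtain ⟨k, hk⟩ := Subgroup.mem_zpowers_iff.1 (hgen ⟨x, hx⟩)
      have hk' : g ^ k = x := by
        have := congrArg Subtype.val hk; simpa using this
      rcases Int.even_or_odd k with ⟨m, hm⟩ | ⟨m, hm⟩
      · left; rw [← hk', hm, ← two_mul, zpow_mul, show g ^ (2 : ℤ) = 1 from (zpow_natCast g 2).trans (hsq g hg), one_zpow]
      · right; rw [← hk', hm, zpow_add, zpow_mul, show g ^ (2 : ℤ) = 1 from (zpow_natCast g 2).trans (hsq g hg), one_zpow,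
          one_mul, zpow_one]
    have ha1 : a ≠ 1 := fun h => by simp [h] at ha
    have hb1 : b ≠ 1 := fun h => by simp [h] at hb
    exact hne (((key a haV).resolve_left ha1).trans ((key b hbV).resolve_left hb1).symm)
  have hCent : ∀ t : Y, orderOf t = 2 → IsMulCommutative (centralizer ({t} : Set Y)) ∧
      ∀ c ∈ centralizer ({t} : Set Y), c ^ 2 = 1 := by
    intro t ht
    have hp : IsPGroup 2 (zpowers t) := IsPGroup.of_card (n := 1) (by rw [Nat.card_zpowers, ht, pow_one])
    obtain ⟨S, hS⟩ := hp.exists_le_sylow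
    obtain ⟨g, hg⟩ := MulAction.exists_smul_eq Y T S
    set u := g⁻¹ * t * g with hu
    have huV : u ∈ V := by
      have h1 : t ∈ (S : Subgroup Y) := hS (mem_zpowers t)
      rw [← hg, Sylow.coe_subgroup_smul, Subgroup.mem_pointwise_smul_iff_inv_smul_mem, hTV,
        ← map_inv, MulAut.smul_def, MulAut.conj_apply, inv_inv] at h1
      exact h1
    have hu1 : u ≠ 1 := fun h => by
      have : t = 1 := by
        calc t = g * u * g⁻¹ := by rw [hu]; group
          _ = 1 := by rw [h]; group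
      simp [this] at ht
    have hback : ∀ c ∈ centralizer ({t} : Set Y), g⁻¹ * c * g ∈ V := by
      intro c hc
      refine hC u huV hu1 _ ?_
      have hc' := mem_centralizer_singleton_iff.1 hc
      calc g⁻¹ * c * g * u = g⁻¹ * (c * t) * g := by rw [hu]; group
        _ = g⁻¹ * (t * c) * g := by rw [hc']
        _ = u * (g⁻¹ * c * g) := by rw [hu]; group
    refine ⟨⟨⟨fun x y => Subtype.ext ?_⟩⟩, fun c hc => ?_⟩
    · have := hcomm _ (hback _ x.2) _ (hback _ y.2)
      calc (x : Y) * y = g * ((g⁻¹ * x * g) * (g⁻¹ * y * g)) * g⁻¹ := by group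
        _ = g * ((g⁻¹ * y * g) * (g⁻¹ * x * g)) * g⁻¹ := by rw [this]
        _ = (y : Y) * x := by group
    · have := hsq _ (hback c hc)
      calc c ^ 2 = g * (g⁻¹ * c * g) ^ 2 * g⁻¹ := by rw [sq, sq]; group
        _ = 1 := by rw [this]; group
  have hyp : TwoFusion.BSW.Hyp T := ⟨hnc, hnn', hCent⟩
  have hX := TwoFusion.BSW.card_outside hyp
  have hT4 : 1 < Nat.card (T : Subgroup Y) := by
    rw [hTV]
    refine Finite.one_lt_card_iff_nontrivial.2 ⟨⟨⟨a, haV⟩, 1, fun h => ?_⟩⟩
    have := congrArg Subtype.val h; simp only [OneMemClass.coe_one] at this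
    simp [this] at ha
  rw [← hX] at hT4
  obtain ⟨⟨x₂, h21⟩, ⟨x₃, h31⟩, h23'⟩ := (Finite.one_lt_card_iff_nontrivial.1 hT4).exists_pair_ne
  set x₁ : Y ⧸ TwoFusion.BSW.nT T := QuotientGroup.mk 1 with hx₁
  have h12 : x₁ ≠ x₂ := Ne.symm h21
  have h13 : x₁ ≠ x₃ := Ne.symm h31
  have h23 : x₂ ≠ x₃ := fun h => h23' (Subtype.ext h)
  have free : ∀ g : Y, g • x₁ = x₁ → g • x₂ = x₂ → g • x₃ = x₃ → g = 1 := fun g =>
    TwoFusion.BSW.three_point_stabilizer hyp g h12 h13 h23
  obtain ⟨g, g1, g2, g3⟩ := TwoFusion.BSW.triple_transitive hyp h12 h13 h23 (Ne.symm h12) h23 h13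
  obtain ⟨h, h1, h2, h3⟩ := TwoFusion.BSW.triple_transitive hyp h12 h13 h23 h23 (Ne.symm h12) (Ne.symm h13)
  have gg : g ^ 2 = 1 := free _ (by rw [sq, mul_smul, g1, g2]) (by rw [sq, mul_smul, g2, g1])
    (by rw [sq, mul_smul, g3, g3])
  have hhh : h ^ 3 = 1 := free _ (by simp only [pow_succ, pow_zero, one_mul, mul_smul, h1, h2, h3])
    (by simp only [pow_succ, pow_zero, one_mul, mul_smul, h1, h2, h3])
    (by simp only [pow_succ, pow_zero, one_mul, mul_smul, h1, h2, h3])
  have hg : orderOf g = 2 := orderOf_eq_prime gg fun e => h12 (by rw [← g1, e, one_smul])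
  haveI : Fact (Nat.Prime 3) := ⟨Nat.prime_three⟩
  have hh : orderOf h = 3 := orderOf_eq_prime hhh fun e => h12 (by rw [← h1, e, one_smul])
  have inv : g * h * g * h = 1 := free _
    (by simp only [mul_smul, g1, g2, g3, h1, h2, h3])
    (by simp only [mul_smul, g1, g2, g3, h1, h2, h3])
    (by simp only [mul_smul, g1, g2, g3, h1, h2, h3])
  exact hY g h hg hh (eq_inv_of_mul_eq_one_left inv)

end Cfsg.Agent.ReeSThree
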