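import Cfsg.Agent.ReeSThree.SetupDef
import Cfsg.Agent.Char.Integrality
import Cfsg.Agent.Transfer.Frobenius

/-!
# The centraliser of an element of order three commuting with an involution
-/

set_option autoImplicit false

namespace Cfsg.Agent.ReeSThree

open Subgroup
open scoped Pointwise
open Classical

universe u

variable {G : Type u} [Group G]

/-- What is known of `C(u)`, `u` of order three in `K`. -/
structure LocalThree (s u : G) (W : Subgroup G) : Prop where
  le : W ≤ centralizer ({u} : Set G)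
  odd : Odd (Nat.card W)
  notMem : s ∉ W
  mem_of_odd : ∀ g : G, g * u = u * g → Odd (orderOf g) → g ∈ W
  cover : ∀ g : G, g * u = u * g → g ∈ W ∨ s * g ∈ W
  normal : ∀ g : G, g * u = u * g → ∀ w ∈ W, g * w * g⁻¹ ∈ W
  conj : ∀ i : G, i * u = u * i → orderOf i = 2 → ∃ g : G, g * u = u * g ∧ g * s * g⁻¹ = i
  three : ∀ P : Subgroup G, P ≤ centralizer ({u} : Set G) → IsPGroup 3 P →
    (∀ p ∈ P, s * p * s ∈ P) → ∀ p ∈ P, s * p = p * s
  count : ∀ [Fintype G], ¬ 3 ∣ (Finset.univ.filter fun i : G => IsConj s i ∧ i * u = u * i).card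

variable [Finite G]

/-- An involution centralises every invariant `3`-subgroup. -/
theorem comm_of_invariant (hni : NoInvThree G) {s : G} (hs : orderOf s = 2) {P : Subgroup G}
    (hP : IsPGroup 3 P) (hinv : ∀ p ∈ P, s * p * s ∈ P) {p : G} (hp : p ∈ P) :
    s * p = p * s := by
  have hs2 : s * s = 1 := by rw [← sq, ← hs, pow_orderOf_eq_one]
  have hsinv : s⁻¹ = s := inv_eq_of_mul_eq_one_right hs2
  by_contra hne
  set x := p⁻¹ * (s * p * s) with hx
  have hxP : x ∈ P := P.mul_mem (P.inv_mem hp) (hinv p hp)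
  have hx1 : x ≠ 1 := fun e => hne (by
    rw [hx, inv_mul_eq_one] at e
    conv_rhs => rw [e]
    rw [mul_assoc, hs2, mul_one])
  have hinvx : s * x * s = x⁻¹ := by
    rw [hx, mul_inv_rev, inv_inv, mul_inv_rev, mul_inv_rev, hsinv]
    simp only [mul_assoc, hs2, mul_one]
  obtain ⟨k, hk⟩ := (IsPGroup.iff_orderOf (p := 3)).1 hP ⟨x, hxP⟩
  rw [Subgroup.orderOf_mk] at hk
  rcases k with _ | k
  · exact hx1 (orderOf_eq_one_iff.1 (by simpa using hk))
  refine hni s (x ^ 3 ^ k) hs ?_ ?_
  · rw [orderOf_pow' x (by positivity), hk, pow_succ, Nat.gcd_eq_right (dvd_mul_right _ 3),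
      Nat.mul_div_cancel_left _ (by positivity)]
  · calc s * x ^ 3 ^ k * s = s * x ^ 3 ^ k * s⁻¹ := by rw [hsinv]
      _ = (s * x * s⁻¹) ^ 3 ^ k := (conj_pow).symm
      _ = (x ^ 3 ^ k)⁻¹ := by rw [hsinv, hinvx, inv_pow]

variable {s : G} {K : Subgroup G} {q : ℕ}

/-- Elements of odd order commuting with `s` lie in `K`. -/
theorem Ctr.mem_of_odd (h : Ctr s K) {g : G} (hg : g * s = s * g) (ho : Odd (orderOf g)) :
    g ∈ K := by
  refine (h.decomp g hg).resolve_right fun hk => ?_
  have := h.not_odd_tmul hk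
  rw [← mul_assoc, h.sq, one_mul] at this
  exact this ho

/-- The centraliser of `u` in `C(s)`. -/
theorem centralizer_three (h : Ctr s K) (hK : PslFacts K q) {u : G} (huK : u ∈ K)
    (hu : orderOf u = 3) :
    ∃ U : Subgroup G, u ∈ U ∧ U ≤ K ∧ Nat.card U = q ∧ (∀ x ∈ U, x ^ 3 = 1) ∧
      (∀ x ∈ U, ∀ y ∈ U, x * y = y * x) ∧
      ∀ g : G, g * s = s * g → g * u = u * g → g ∈ U ∨ s * g ∈ U := by
  obtain ⟨U, hu', hcard, h3, hab, hC, -⟩ := hK.three ⟨u, huK⟩ (by rwa [Subgroup.orderOf_mk])
  have hu1 : (⟨u, huK⟩ : K) ≠ 1 := fun e => by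
    have : u = 1 := congrArg Subtype.val e
    simp [this] at hu
  have key : ∀ g : K, (g : G) * u = u * g → g ∈ U := fun g hg => by
    rw [← hC _ hu' hu1]
    exact mem_centralizer_singleton_iff.2 (Subtype.ext hg)
  refine ⟨U.map K.subtype, ⟨_, hu', rfl⟩, map_subtype_le U, ?_, ?_, ?_, ?_⟩
  · rw [card_map_of_injective K.subtype_injective, hcard]
  · rintro - ⟨x, hx, rfl⟩
    rw [← map_pow, h3 x hx, map_one]
  · rintro - ⟨x, hx, rfl⟩ - ⟨y, hy, rfl⟩
    rw [← map_mul, hab x hx y hy, map_mul]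
  · intro g hgs hgu
    rcases h.decomp g hgs with hg | hg
    · exact Or.inl ⟨⟨g, hg⟩, key _ hgu, rfl⟩
    · refine Or.inr ⟨⟨s * g, hg⟩, key _ ?_, rfl⟩
      show s * g * u = u * (s * g)
      rw [mul_assoc, hgu, ← mul_assoc, ← mul_assoc, h.comm huK]

/-- The structure of `C(u)`. -/
theorem local_three (h : Ctr s K) (hK : PslFacts K q) (hni : NoInvThree G) {u : G} (huK : u ∈ K)
    (hu : orderOf u = 3) : ∃ W : Subgroup G, LocalThree s u W := by
  haveI : Fact (Nat.Prime 2) := ⟨Nat.prime_two⟩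
  haveI : Fact (Nat.Prime 3) := ⟨Nat.prime_three⟩
  obtain ⟨U, huU, hUK, hUcard, hU3, hUab, hcs⟩ := centralizer_three h hK huK hu
  obtain ⟨m, hm⟩ := hK.q_pow
  have hqodd : Odd q := hm ▸ Odd.pow (by decide)
  have hUodd : ∀ x ∈ U, Odd (orderOf x) := fun x hx =>
    (hUcard ▸ hqodd).of_dvd_nat (Subgroup.orderOf_dvd_natCard _ hx)
  have hsU : ∀ {x}, x ∈ U → x * s = s * x := fun hx => h.comm (hUK hx)
  have hsu : s * u = u * s := (h.comm huK).symm
  let C := centralizer ({u} : Set G)
  let s' : C := ⟨s, mem_centralizer_singleton_iff.2 hsu⟩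
  have hs'2 : orderOf s' = 2 := by rw [Subgroup.orderOf_mk]; exact h.orderOf_t
  have hcomm2 : ∀ g : C, g * s' = s' * g → (∃ k, orderOf g = 2 ^ k) → g = 1 ∨ g = s' := by
    rintro ⟨g, hg⟩ hgs ⟨k, hk⟩
    rw [Subgroup.orderOf_mk] at hk
    rcases hcs g (congrArg Subtype.val hgs) (mem_centralizer_singleton_iff.1 hg) with hU' | hU'
    · left
      refine Subtype.ext (orderOf_eq_one_iff.1 ?_)
      have hc : Nat.Coprime (orderOf g) (orderOf g) := by
        nth_rw 1 [hk]
        exact Nat.Coprime.pow_left k (Nat.coprime_two_left.2 (hUodd g hU'))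
      exact Nat.Coprime.eq_one_of_dvd hc (dvd_refl _)
    · right
      refine Subtype.ext ?_
      have hgs' : g * s = s * g := congrArg Subtype.val hgs
      obtain ⟨j, hj⟩ : ∃ j, orderOf (s * g) ∣ 2 ^ j := by
        refine ⟨k + 1, orderOf_dvd_of_pow_eq_one ?_⟩
        rw [(show Commute s g from hgs'.symm).mul_pow, pow_succ' 2 k, pow_mul, pow_mul, sq, h.sq,
          one_pow, one_mul, ← pow_mul, mul_comm 2, pow_mul, ← hk, pow_orderOf_eq_one, one_pow]
      have h1 : s * g = 1 := orderOf_eq_one_iff.1 (Nat.Coprime.eq_one_of_dvd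
        (Nat.Coprime.pow_right j (Nat.coprime_two_right.2 (hUodd _ hU'))) hj)
      show g = s
      rw [← inv_eq_of_mul_eq_one_right h.sq, ← eq_inv_of_mul_eq_one_right h1]
  obtain ⟨S, hS⟩ := (IsPGroup.of_card (p := 2) (n := 1) (G := zpowers s')
    (by rw [Nat.card_zpowers, hs'2, pow_one])).exists_le_sylow
  have hs'S : s' ∈ (S : Subgroup C) := hS (mem_zpowers s')
  have hSmem : ∀ g : C, g ∈ (S : Subgroup C) → g * s' = s' * g → g = 1 ∨ g = s' := by
    intro g hg hc
    refine hcomm2 g hc ?_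
    obtain ⟨k, hk⟩ := (IsPGroup.iff_orderOf (p := 2)).1 S.isPGroup' ⟨g, hg⟩
    exact ⟨k, by rwa [Subgroup.orderOf_mk] at hk⟩
  have hScomm : ∀ g ∈ (S : Subgroup C), g * s' = s' * g := by
    haveI : Nontrivial (S : Subgroup C) := ⟨⟨⟨s', hs'S⟩, 1, fun e => by
      have : s' = 1 := congrArg Subtype.val e
      simp [this] at hs'2⟩⟩
    haveI := S.isPGroup'.center_nontrivial
    obtain ⟨⟨z, hz⟩, hz1⟩ := exists_ne (1 : center (S : Subgroup C))
    rw [mem_center_iff] at hz
    have hzs : (z : C) = s' := by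
      refine ((hSmem z z.2 ?_).resolve_left fun e => hz1 (Subtype.ext (Subtype.ext e)))
      exact congrArg Subtype.val (hz ⟨s', hs'S⟩).symm
    intro g hg
    have := congrArg Subtype.val (hz ⟨g, hg⟩)
    simpa [hzs] using this
  have hS2 : ∀ g ∈ (S : Subgroup C), g = 1 ∨ g = s' := fun g hg => hSmem g hg (hScomm g hg)
  have hnc : normalizer ((S : Subgroup C) : Set C) ≤ centralizer ((S : Subgroup C) : Set C) := by
    intro g hg
    rw [mem_centralizer_iff]
    intro x hx
    rcases hS2 x hx with rfl | rfl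
    · simp
    rcases hS2 _ ((mem_normalizer_iff.1 hg _).1 hs'S) with e | e
    · rw [conj_eq_one_iff] at e; simp [e] at hs'2
    · exact ((mul_inv_eq_iff_eq_mul).1 e).symm
  have hcompl := MonoidHom.ker_transferSylow_isComplement' S hnc
  set N := (MonoidHom.transferSylow S hnc).ker
  have hNodd : Odd (Nat.card N) := by
    have hS' : (S : Subgroup C) = zpowers s' := le_antisymm (fun g hg => by
      rcases hS2 g hg with rfl | rfl
      exacts [one_mem _, mem_zpowers _]) hS
    have hc := hcompl.card_mul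
    have hnd := S.not_dvd_index
    have hidx := (S : Subgroup C).card_mul_index
    rw [hS', Nat.card_zpowers, hs'2] at hc hidx
    rw [hS'] at hnd
    rw [show Nat.card N = (zpowers s').index by omega]
    exact Nat.odd_iff.2 (by omega)
  have hcover : ∀ g : C, g ∈ N ∨ s' * g ∈ N := by
    intro g
    obtain ⟨⟨n, x, hx⟩, e, -⟩ := hcompl.existsUnique g
    simp only at e
    rcases hS2 x hx with rfl | rfl
    · exact Or.inl (by rw [← e, mul_one]; exact n.2)
    · right
      rw [← e, ← mul_assoc]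
      have := (MonoidHom.normal_ker (MonoidHom.transferSylow S hnc)).conj_mem _ n.2 s'
      have hinv : s'⁻¹ = s' := inv_eq_of_mul_eq_one_right (Subtype.ext h.sq)
      rwa [hinv] at this
  have hs'N : s' ∉ N := fun hmem => by
    have h2 : orderOf s' ∣ Nat.card N := Subgroup.orderOf_dvd_natCard _ hmem
    rw [hs'2] at h2
    exact Nat.not_even_iff_odd.2 hNodd (even_iff_two_dvd.2 h2)
  have hsq' : s' * s' = 1 := Subtype.ext h.sq
  have hodd_mem : ∀ g : C, Odd (orderOf g) → g ∈ N := by
    intro g hg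
    refine (hcover g).resolve_right fun hg' => hs'N ?_
    haveI : N.Normal := MonoidHom.normal_ker _
    have : QuotientGroup.mk' N g = QuotientGroup.mk' N s'⁻¹ := by
      refine (QuotientGroup.eq (s := N)).2 ?_
      have := N.inv_mem hg'
      rw [mul_inv_rev] at this
      exact this
    have h2 : (QuotientGroup.mk' N s') ^ orderOf g = 1 := by
      have e := congrArg (· ^ orderOf g) this
      simp only [← map_pow, pow_orderOf_eq_one, map_one, inv_pow, map_inv] at e
      rw [← map_pow, ← inv_inv (QuotientGroup.mk' N (s' ^ orderOf g)), ← e, inv_one]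
    obtain ⟨k, hk⟩ := hg
    rw [hk, pow_succ, pow_mul, sq, ← map_mul, hsq', map_one, one_pow, one_mul] at h2
    exact (QuotientGroup.eq_one_iff s').1 h2
  refine ⟨N.map C.subtype,
    { le := map_subtype_le N
      odd := by rwa [card_map_of_injective C.subtype_injective]
      notMem := ?_
      mem_of_odd := ?_
      cover := ?_
      normal := ?_
      conj := ?_
      three := ?_
      count := ?_ }⟩
  · rintro ⟨x, hx, e⟩
    exact hs'N (by rwa [show x = s' from Subtype.ext e] at hx)
  · intro g hg ho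
    exact ⟨⟨g, mem_centralizer_singleton_iff.2 hg⟩, hodd_mem _ (by rwa [Subgroup.orderOf_mk]), rfl⟩
  · intro g hg
    rcases hcover ⟨g, mem_centralizer_singleton_iff.2 hg⟩ with h1 | h1
    · exact Or.inl ⟨_, h1, rfl⟩
    · exact Or.inr ⟨_, h1, rfl⟩
  · rintro g hg - ⟨w, hw, rfl⟩
    exact ⟨_, (MonoidHom.normal_ker (MonoidHom.transferSylow S hnc)).conj_mem w hw
      ⟨g, mem_centralizer_singleton_iff.2 hg⟩, rfl⟩
  · intro i hi hi2
    let i' : C := ⟨i, mem_centralizer_singleton_iff.2 hi⟩
    have hi'2 : orderOf i' = 2 := by rw [Subgroup.orderOf_mk]; exact hi2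
    obtain ⟨T, hT⟩ := (IsPGroup.of_card (p := 2) (n := 1) (G := zpowers i')
      (by rw [Nat.card_zpowers, hi'2, pow_one])).exists_le_sylow
    obtain ⟨g, hg⟩ := MulAction.exists_smul_eq C T S
    have hmem : g * i' * g⁻¹ ∈ (S : Subgroup C) := by
      rw [← hg, Sylow.coe_subgroup_smul]
      exact ⟨i', hT (mem_zpowers i'), rfl⟩
    rcases hS2 _ hmem with e | e
    · rw [conj_eq_one_iff] at e; simp [e] at hi'2
    · refine ⟨(g⁻¹ : C), mem_centralizer_singleton_iff.1 (g⁻¹ : C).2, ?_⟩
      have e' : (g : G) * i * (g : G)⁻¹ = s := congrArg Subtype.val e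
      rw [InvMemClass.coe_inv, inv_inv, ← e']
      group
  · exact fun P _ hP hinv p hp => comm_of_invariant hni h.orderOf_t hP hinv hp
  · intro _ hdvd
    have hcard : (Finset.univ.filter fun i : G => IsConj s i ∧ i * u = u * i).card =
        (centralizer ({s'} : Set C)).index := by
      rw [← Char.card_isConj_eq_index s', ← Finset.card_map ⟨C.subtype, C.subtype_injective⟩]
      congr 1
      ext i
      simp only [Finset.mem_filter, Finset.mem_univ, true_and, Finset.mem_map,
        Function.Embedding.coeFn_mk]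
      constructor
      · rintro ⟨hc, hi⟩
        obtain ⟨g, rfl⟩ := isConj_iff.1 hc
        refine ⟨⟨_, mem_centralizer_singleton_iff.2 hi⟩, ?_, rfl⟩
        have hi2 : orderOf (g * s * g⁻¹) = 2 := by
          have := orderOf_injective (MulAut.conj g).toMonoidHom (MulAut.conj g).injective s
          simpa [h.orderOf_t] using this
        let i' : C := ⟨_, mem_centralizer_singleton_iff.2 hi⟩
        have hi'2 : orderOf i' = 2 := by rw [Subgroup.orderOf_mk]; exact hi2
        obtain ⟨T, hT⟩ := (IsPGroup.of_card (p := 2) (n := 1) (G := zpowers i')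
          (by rw [Nat.card_zpowers, hi'2, pow_one])).exists_le_sylow
        obtain ⟨c, hc'⟩ := MulAction.exists_smul_eq C T S
        have hmem : c * i' * c⁻¹ ∈ (S : Subgroup C) := by
          rw [← hc', Sylow.coe_subgroup_smul]
          exact ⟨i', hT (mem_zpowers i'), rfl⟩
        rcases hS2 _ hmem with e | e
        · rw [conj_eq_one_iff] at e; simp [e] at hi'2
        · exact (isConj_iff.2 ⟨c, e⟩).symm
      · rintro ⟨c, hc, rfl⟩
        exact ⟨C.subtype.map_isConj hc, mem_centralizer_singleton_iff.1 c.2⟩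
    rw [hcard] at hdvd
    haveI : N.Normal := MonoidHom.normal_ker _
    -- a Sylow `3`-subgroup of `N` fixed by `s`
    let σ : MulAut N := MulAut.conjNormal s'
    have hσ2 : σ ^ 2 = 1 := by rw [← map_pow, sq, hsq', map_one]
    have hp2 : IsPGroup 2 (zpowers σ) := by
      refine fun ⟨g, hg⟩ => ⟨1, Subtype.ext ?_⟩
      obtain ⟨z, rfl⟩ := mem_zpowers_iff.1 hg
      show (σ ^ z) ^ (2 ^ 1) = 1
      rw [pow_one, ← zpow_natCast (σ ^ z), ← zpow_mul, mul_comm, zpow_mul, zpow_natCast, hσ2,
        one_zpow]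
    have hnum : ¬ 2 ∣ Nat.card (Sylow 3 N) := fun h2 => by
      let P : Sylow 3 N := default
      exact Nat.not_even_iff_odd.2 hNodd (even_iff_two_dvd.2
        (h2.trans ((P.card_dvd_index).trans (Subgroup.index_dvd_card _))))
    obtain ⟨P, hP⟩ := hp2.nonempty_fixed_point_of_prime_not_dvd_card (Sylow 3 N) hnum
    have hfix : σ • P = P := hP ⟨σ, mem_zpowers σ⟩
    let PG : Subgroup G := ((P : Subgroup N).map N.subtype).map C.subtype
    have hPG3 : IsPGroup 3 PG := (P.isPGroup'.map _).map _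
    have hinvP : ∀ p ∈ PG, s * p * s ∈ PG := by
      rintro - ⟨-, ⟨x, hx, rfl⟩, rfl⟩
      have : σ x ∈ (P : Subgroup N) := by
        rw [← hfix, Sylow.pointwise_smul_def]
        exact ⟨x, hx, rfl⟩
      refine ⟨_, ⟨σ x, this, rfl⟩, ?_⟩
      show ((s' * (x : C) * s'⁻¹ : C) : G) = _
      rw [inv_eq_of_mul_eq_one_right hsq']
      rfl
    have hle : PG ≤ U := by
      intro p hp
      have hc := comm_of_invariant hni h.orderOf_t hPG3 hinvP hp
      have hpu : p * u = u * p := by
        obtain ⟨y, -, rfl⟩ := hp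
        exact mem_centralizer_singleton_iff.1 y.2
      refine (hcs p hc.symm hpu).resolve_right fun hsp => ?_
      obtain ⟨k, hk⟩ := (IsPGroup.iff_orderOf (p := 3)).1 hPG3 ⟨p, hp⟩
      rw [Subgroup.orderOf_mk] at hk
      have := h.not_odd_tmul (hUK hsp)
      rw [← mul_assoc, h.sq, one_mul, hk] at this
      exact this (Odd.pow (by decide))
    have h1 : Nat.card (P : Subgroup N) ∣ q := by
      rw [← hUcard, ← card_map_of_injective N.subtype_injective,
        ← card_map_of_injective C.subtype_injective]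
      exact card_dvd_of_le hle
    have hUC : U ≤ C := fun x hx => mem_centralizer_singleton_iff.2 (hUab x hx u huU)
    have hqN : q ∣ Nat.card (centralizer ({s'} : Set C)) := by
      rw [← hUcard, ← Nat.card_congr (subgroupOfEquivOfLe hUC).toEquiv]
      refine card_dvd_of_le fun x hx => ?_
      exact mem_centralizer_singleton_iff.2 (Subtype.ext (hsU (mem_subgroupOf.1 hx)))
    have h3q : 3 * q ∣ Nat.card C := by
      rw [← (centralizer ({s'} : Set C)).card_mul_index, mul_comm 3 q]
      exact mul_dvd_mul hqN hdvd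
    have hCN : Nat.card C = Nat.card N * Nat.card (S : Subgroup C) := hcompl.card_mul.symm
    have hS2card : Nat.Coprime (3 * q) (Nat.card (S : Subgroup C)) := by
      obtain ⟨k, hk⟩ := S.isPGroup'.exists_card_eq
      rw [hk, hm, ← pow_succ']
      exact (Nat.Coprime.pow _ _ (by norm_num))
    have h3N : 3 * q ∣ Nat.card N := hS2card.dvd_of_dvd_mul_right (hCN ▸ h3q)
    rw [hm, ← pow_succ'] at h3N
    rw [P.card_eq_multiplicity, hm, Nat.pow_dvd_pow_iff_le_right (by norm_num)] at h1
    have := (Nat.Prime.pow_dvd_iff_le_factorization Nat.prime_three Nat.card_pos.ne').1 h3N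
    omega

end Cfsg.Agent.ReeSThree
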