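import Cfsg.Agent.ReeSThree.SetupDef
import Cfsg.Agent.ReeSThree.FourCC
import Cfsg.Agent.ReeSThree.Local
import Mathlib.GroupTheory.Transfer

/-!
# The second case of the configuration of Ree type: `r` centralises the torus
-/

set_option autoImplicit false
set_option linter.unusedSectionVars false

namespace Cfsg.Agent.ReeSThree

open Subgroup

universe u

variable {G : Type u} [Group G] [Finite G]

/-- An element of order prime to both is trivial. -/
theorem eq_one_of_coprime_orders {H : Type*} [Group H] {g : H} {m n : ℕ} (hm : g ^ m = 1)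
    (hn : g ^ n = 1) (hc : m.Coprime n) : g = 1 := by
  have := pow_gcd_eq_one.2 ⟨hm, hn⟩
  rwa [hc.gcd_eq_one, pow_one] at this

/-- The centralisers of elements of order three inside `K`. -/
theorem exists_elementary {K : Subgroup G} {q : ℕ} (hK : PslFacts K q) {r : G} (hr : r ∈ K)
    (hr3 : orderOf r = 3) :
    ∃ U : Subgroup G, U ≤ K ∧ r ∈ U ∧ Nat.card U = q ∧ (∀ w ∈ U, w ^ 3 = 1) ∧
      (∀ x ∈ U, ∀ y ∈ U, x * y = y * x) ∧ ∀ g ∈ K, g * r = r * g → g ∈ U := by
  obtain ⟨U, h1, h2, h3, h4, h5, -⟩ := hK.three ⟨r, hr⟩ (by rw [Subgroup.orderOf_mk]; exact hr3)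
  refine ⟨U.map K.subtype, map_subtype_le U, ⟨⟨r, hr⟩, h1, rfl⟩, ?_, ?_, ?_, ?_⟩
  · rw [Subgroup.card_map_of_injective K.subtype_injective, h2]
  · rintro _ ⟨w, hw, rfl⟩
    rw [← map_pow, h3 w hw, map_one]
  · rintro _ ⟨x, hx, rfl⟩ _ ⟨y, hy, rfl⟩
    rw [← map_mul, ← map_mul, h4 x hx y hy]
  · intro g hg hgr
    have hne : (⟨r, hr⟩ : K) ≠ 1 := fun e => by
      have := congrArg Subtype.val e
      simp only [OneMemClass.coe_one] at this
      simp [this] at hr3
    have : (⟨g, hg⟩ : K) ∈ centralizer ({(⟨r, hr⟩ : K)} : Set K) :=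
      mem_centralizer_singleton_iff.2 (Subtype.ext hgr)
    rw [h5 _ h1 hne] at this
    exact ⟨_, this, rfl⟩

/-- A group `W` of odd order with an involution `s` acting on it whose fixed points form the
elementary group `U`, every invariant three-subgroup being fixed, has an abelian normal
`3`-complement containing all elements of order prime to three. -/
theorem exists_complement {s : G} (hs : s * s = 1) {W U : Subgroup G} (hWodd : Odd (Nat.card W))
    (hsW : ∀ g ∈ W, s * g * s ∈ W) (hUW : U ≤ W) (hU3 : ∀ w ∈ U, w ^ 3 = 1)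
    (hUab : ∀ x ∈ U, ∀ y ∈ U, x * y = y * x) (hUs : ∀ w ∈ U, s * w * s = w)
    (hfix : ∀ g ∈ W, s * g * s = g → g ∈ U)
    (hthree : ∀ P : Subgroup G, P ≤ W → IsPGroup 3 P → (∀ x ∈ P, s * x * s ∈ P) →
      ∀ x ∈ P, s * x * s = x) :
    ∃ A : Subgroup G, A ≤ W ∧ (∀ w ∈ W, ∀ x ∈ A, w * x * w⁻¹ ∈ A) ∧
      (¬ 3 ∣ Nat.card A) ∧ (∀ x ∈ A, ∀ y ∈ A, x * y = y * x) ∧
      ∀ g ∈ W, (orderOf g).Coprime 3 → g ∈ A := by
  classical
  haveI : Fact (Nat.Prime 3) := ⟨Nat.prime_three⟩
  have hss : ∀ x : G, s * (s * x * s) * s = x := fun x => by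
    rw [show s * (s * x * s) * s = (s * s) * x * (s * s) by group, hs, one_mul, mul_one]
  have hmul : ∀ x y : G, s * (x * y) * s = (s * x * s) * (s * y * s) := fun x y => by
    rw [show s * x * s * (s * y * s) = s * x * (s * s) * y * s by group, hs, mul_one]; group
  have hinv : ∀ x : G, s * x⁻¹ * s = (s * x * s)⁻¹ := fun x =>
    eq_inv_of_mul_eq_one_left (by rw [← hmul, inv_mul_cancel, mul_one, hs])
  have hUp : IsPGroup 3 U := fun ⟨w, hw⟩ => ⟨1, Subtype.ext (by simpa using hU3 w hw)⟩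
  -- three-elements of `W` centralising `U` lie in `U`
  have hC3 : ∀ x ∈ W, (∀ w ∈ U, x * w = w * x) → (∃ n : ℕ, x ^ 3 ^ n = 1) → x ∈ U := by
    intro x hxW hxU hx3
    let C : Subgroup G := W ⊓ centralizer (U : Set G)
    have hsC : ∀ c ∈ C, s * c * s ∈ C := by
      rintro c ⟨hc1, hc2⟩
      refine ⟨hsW c hc1, mem_centralizer_iff.2 fun w hw => ?_⟩
      have := mem_centralizer_iff.1 hc2 w hw
      calc w * (s * c * s) = (s * w * s) * (s * c * s) := by rw [hUs w hw]
        _ = s * (w * c) * s := (hmul _ _).symm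
        _ = s * (c * w) * s := by rw [this]
        _ = (s * c * s) * (s * w * s) := hmul _ _
        _ = (s * c * s) * w := by rw [hUs w hw]
    let σ : MulAut C :=
      { toFun := fun c => ⟨s * c * s, hsC c c.2⟩
        invFun := fun c => ⟨s * c * s, hsC c c.2⟩
        left_inv := fun c => Subtype.ext (hss c)
        right_inv := fun c => Subtype.ext (hss c)
        map_mul' := fun c d => Subtype.ext (hmul c d) }
    have hσ2 : σ * σ = 1 := MulEquiv.ext fun c => Subtype.ext (hss c)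
    haveI : Fintype (Sylow 3 C) := Fintype.ofFinite _
    haveI : Fact (Nat.Prime 2) := ⟨Nat.prime_two⟩
    obtain ⟨P₁, hP₁⟩ : ∃ P₁ : Sylow 3 C, σ • P₁ = P₁ := by
      have hodd : ¬ 2 ∣ Fintype.card (Sylow 3 C) := by
        rw [← Nat.card_eq_fintype_card]
        intro h2
        obtain ⟨P⟩ : Nonempty (Sylow 3 C) := inferInstance
        have h3 : 2 ∣ Nat.card W := h2.trans ((P.card_dvd_index.trans
          (P : Subgroup C).index_dvd_card).trans (card_dvd_of_le inf_le_left))
        exact (Nat.not_even_iff_odd.2 hWodd) (even_iff_two_dvd.2 h3)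
      have hpow : (MulAction.toPerm σ : Equiv.Perm (Sylow 3 C)) ^ 2 ^ 1 = 1 := by
        refine Equiv.ext fun P => ?_
        rw [pow_one, sq, Equiv.Perm.mul_apply]
        show σ • σ • P = P
        rw [smul_smul, hσ2, one_smul]
      obtain ⟨P, hP⟩ := Equiv.Perm.exists_fixed_point_of_prime hodd hpow
      exact ⟨P, hP⟩
    let Q : Subgroup G := (P₁ : Subgroup C).map C.subtype
    have hQU : ∀ y ∈ Q, y ∈ U := by
      have hQW : Q ≤ W := (map_subtype_le _).trans inf_le_left
      have hQp : IsPGroup 3 Q := P₁.isPGroup'.map _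
      have hQs : ∀ y ∈ Q, s * y * s ∈ Q := by
        rintro _ ⟨c, hc, rfl⟩
        refine ⟨σ c, ?_, rfl⟩
        rw [← hP₁]
        exact Subgroup.smul_mem_pointwise_smul c σ _ hc
      exact fun y hy => hfix y (hQW hy) (hthree Q hQW hQp hQs y hy)
    let xC : C := ⟨x, hxW, mem_centralizer_iff.2 fun w hw => (hxU w hw).symm⟩
    obtain ⟨n, hn⟩ := hx3
    have hp : IsPGroup 3 (zpowers xC) := fun ⟨y, hy⟩ => by
      obtain ⟨k, rfl⟩ := Subgroup.mem_zpowers_iff.1 hy
      refine ⟨n, Subtype.ext ?_⟩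
      rw [SubgroupClass.coe_pow, ← zpow_natCast, ← zpow_mul, mul_comm, zpow_mul, zpow_natCast,
        show xC ^ 3 ^ n = 1 from Subtype.ext (by simpa using hn), one_zpow]
      rfl
    obtain ⟨P, hP⟩ := hp.exists_le_sylow
    obtain ⟨c, hc⟩ := MulAction.exists_smul_eq C P₁ P
    have h1 : xC ∈ (P : Subgroup C) := hP (mem_zpowers xC)
    rw [← hc, Sylow.coe_subgroup_smul, Subgroup.mem_pointwise_smul_iff_inv_smul_mem, ← map_inv,
      MulAut.smul_def, MulAut.conj_apply, inv_inv] at h1
    have h2 : (c : G)⁻¹ * x * c ∈ U := hQU _ ⟨_, h1, rfl⟩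
    have h3 := mem_centralizer_iff.1 c.2.2 _ h2
    have h4 : x = (c : G)⁻¹ * x * c := by
      calc x = (c : G) * ((c : G)⁻¹ * x * c) * (c : G)⁻¹ := by group
        _ = ((c : G)⁻¹ * x * c) * c * (c : G)⁻¹ := by rw [← h3]
        _ = (c : G)⁻¹ * x * c := by group
    rw [h4]; exact h2
  -- the normaliser of `U` in `W` centralises it
  have hNC : ∀ x ∈ W, (∀ w ∈ U, x * w * x⁻¹ ∈ U) → ∀ w ∈ U, x * w = w * x := by
    intro x hxW hxN
    set y := x⁻¹ * (s * x * s) with hy
    have hyW : y ∈ W := mul_mem (inv_mem hxW) (hsW x hxW)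
    have hyU : ∀ w ∈ U, y * w = w * y := by
      intro w hw
      have e : s * x * s * w = x * w * x⁻¹ * (s * x * s) := by
        calc s * x * s * w = s * x * s * (s * w * s) := by rw [hUs w hw]
          _ = s * (x * w) * s := (hmul _ _).symm
          _ = s * (x * w * x⁻¹ * x) * s := by group
          _ = (s * (x * w * x⁻¹) * s) * (s * x * s) := hmul _ _
          _ = _ := by rw [hUs _ (hxN w hw)]
      calc y * w = x⁻¹ * (s * x * s * w) := by rw [hy]; group
        _ = x⁻¹ * (x * w * x⁻¹ * (s * x * s)) := by rw [e]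
        _ = w * y := by rw [hy]; group
    have hys : s * y * s = y⁻¹ := by rw [hy, hmul, hinv, hss]; group
    have hyodd : Odd (orderOf y) :=
      hWodd.of_dvd_nat (by rw [← Subgroup.orderOf_mk (H := W) y hyW]; exact orderOf_dvd_natCard _)
    obtain ⟨m, hm⟩ := hyodd
    set z := y ^ (m + 1) with hz
    have hz2 : z * z = y := by
      rw [hz, ← pow_add, show m + 1 + (m + 1) = orderOf y + 1 by omega, pow_succ,
        pow_orderOf_eq_one, one_mul]
    have hzs : s * z * s = z⁻¹ := by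
      rw [hz, ← inv_pow, ← hys]
      have : ∀ k : ℕ, s * y ^ k * s = (s * y * s) ^ k := by
        intro k
        induction k with
        | zero => simp [hs]
        | succ k ih => rw [pow_succ, pow_succ, hmul, ih]
      exact this _
    have hzU : ∀ w ∈ U, z * w = w * z := fun w hw => (Commute.pow_left (hyU w hw) _).eq
    have hc : x * z ∈ U := by
      refine hfix _ (mul_mem hxW (pow_mem hyW _)) ?_
      rw [hmul, hzs, show s * x * s = x * y by rw [hy]; group, ← hz2]
      group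
    intro w hw
    calc x * w = x * (z * z⁻¹) * w := by rw [mul_inv_cancel, mul_one]
      _ = x * z * (z⁻¹ * w) := by group
      _ = x * z * (w * z⁻¹) := by rw [(Commute.inv_left (hzU w hw)).eq]
      _ = w * (x * z) * z⁻¹ := by rw [← mul_assoc, hUab _ hc w hw]
      _ = w * x := by group
  -- `U` is a Sylow subgroup of `W`
  obtain ⟨P, hP⟩ := (hUp.comap_subtype (K := W)).exists_le_sylow
  have hPU : (P : Subgroup W) = U.subgroupOf W := by
    refine le_antisymm (fun p hp => ?_) hP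
    let Q : Subgroup G := (P : Subgroup W).map W.subtype
    have hQp : IsPGroup 3 Q := P.isPGroup'.map _
    have hUQ : U ≤ Q := fun w hw => ⟨⟨w, hUW hw⟩, hP hw, rfl⟩
    haveI : Group.IsNilpotent Q := hQp.isNilpotent
    have htop : U.subgroupOf Q = ⊤ := by
      by_contra hne
      have hlt := (Group.normalizerCondition_of_isNilpotent (G := Q)) _ (lt_top_iff_ne_top.2 hne)
      obtain ⟨⟨x, hxQ⟩, hxN, hxU⟩ := SetLike.exists_of_lt hlt
      have hxW : x ∈ W := map_subtype_le _ hxQ
      have hxn : ∀ w ∈ U, x * w * x⁻¹ ∈ U := fun w hw => by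
        have := (Subgroup.mem_normalizer_iff.1 hxN ⟨w, hUQ hw⟩).1 hw
        simpa [Subgroup.mem_subgroupOf] using this
      obtain ⟨n, hn⟩ := hQp ⟨x, hxQ⟩
      exact hxU (hC3 x hxW (hNC x hxW hxn) ⟨n, by simpa using congrArg Subtype.val hn⟩)
    have hpQ : (p : G) ∈ Q := ⟨p, hp, rfl⟩
    have hmem : (⟨(p : G), hpQ⟩ : Q) ∈ U.subgroupOf Q := htop ▸ Subgroup.mem_top _
    exact hmem
  have hPC : normalizer ((P : Subgroup W) : Set W) ≤ centralizer ((P : Subgroup W) : Set W) := by
    intro x hx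
    rw [hPU] at hx ⊢
    refine mem_centralizer_iff.2 fun w hw => Subtype.ext (hNC (x : G) x.2 (fun v hv => ?_) w hw).symm
    exact (Subgroup.mem_normalizer_iff.1 hx ⟨v, hUW hv⟩).1 hv
  let φ := MonoidHom.transferSylow P hPC
  let A : Subgroup G := φ.ker.map W.subtype
  have hA3 : ¬ 3 ∣ Nat.card A := by
    rw [Subgroup.card_map_of_injective W.subtype_injective]
    exact MonoidHom.not_dvd_card_ker_transferSylow P hPC
  have hmemA : ∀ g ∈ W, (orderOf g).Coprime 3 → g ∈ A := by
    intro g hg hco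
    refine ⟨⟨g, hg⟩, ?_, rfl⟩
    show φ ⟨g, hg⟩ = 1
    obtain ⟨n, hn⟩ := P.isPGroup' (φ ⟨g, hg⟩)
    refine eq_one_of_coprime_orders ?_ hn (Nat.Coprime.pow_right n hco)
    rw [← map_pow, show (⟨g, hg⟩ : W) ^ orderOf g = 1 from Subtype.ext (pow_orderOf_eq_one g), map_one]
  have hAW : A ≤ W := map_subtype_le _
  have hordA : ∀ g ∈ A, (orderOf g).Coprime 3 := fun g hg => by
    refine (Nat.Coprime.coprime_dvd_left ?_ ((Nat.prime_three.coprime_iff_not_dvd.2 hA3).symm))
    rw [← Subgroup.orderOf_mk (H := A) g hg]; exact orderOf_dvd_natCard _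
  have hordσ : ∀ g : G, orderOf (s * g * s) = orderOf g := fun g => by
    have := orderOf_injective (MulAut.conj s).toMonoidHom (MulAut.conj s).injective g
    simpa [inv_eq_of_mul_eq_one_right hs] using this
  have hsA : ∀ g ∈ A, s * g * s ∈ A := fun g hg =>
    hmemA _ (hsW g (hAW hg)) (by rw [hordσ]; exact hordA g hg)
  have hAinv : ∀ g ∈ A, s * g * s = g⁻¹ := by
    let f : A → A := fun b => ⟨(b : G)⁻¹ * (s * b * s), mul_mem (inv_mem b.2) (hsA b b.2)⟩
    have hf : Function.Injective f := by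
      intro b c hbc
      have e : (b : G)⁻¹ * (s * b * s) = (c : G)⁻¹ * (s * c * s) := congrArg Subtype.val hbc
      have hfixed : s * ((b : G) * (c : G)⁻¹) * s = (b : G) * (c : G)⁻¹ := by
        rw [hmul, hinv, show s * (b : G) * s = b * ((c : G)⁻¹ * (s * c * s)) by rw [← e]; group]
        group
      have hmem : (b : G) * (c : G)⁻¹ ∈ A := mul_mem b.2 (inv_mem c.2)
      have h1 : (b : G) * (c : G)⁻¹ = 1 :=
        eq_one_of_coprime_orders (pow_orderOf_eq_one _)
          (hU3 _ (hfix _ (hAW hmem) hfixed)) (hordA _ hmem)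
      exact Subtype.ext (mul_inv_eq_one.1 h1)
    intro g hg
    obtain ⟨b, hb⟩ := Finite.surjective_of_injective hf ⟨g, hg⟩
    have e : (b : G)⁻¹ * (s * b * s) = g := congrArg Subtype.val hb
    rw [← e, hmul, hinv, hss]; group
  refine ⟨A, hAW, ?_, hA3, ?_, hmemA⟩
  · intro w hw x hx
    refine hmemA _ (mul_mem (mul_mem hw (hAW hx)) (inv_mem hw)) ?_
    have := orderOf_injective (MulAut.conj w).toMonoidHom (MulAut.conj w).injective x
    simp only [MulEquiv.coe_toMonoidHom, MulAut.conj_apply] at this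
    rw [this]; exact hordA x hx
  · intro x hx y hy
    have := hAinv _ (mul_mem hx hy)
    rw [hmul, hAinv x hx, hAinv y hy, mul_inv_rev] at this
    calc x * y = (y⁻¹ * x⁻¹)⁻¹ := by group
      _ = (x⁻¹ * y⁻¹)⁻¹ := by rw [this]
      _ = y * x := by group

/-- The second case, given the three-local data at `r`. -/
theorem case_b_core {t r a s : G} {K Ks W : Subgroup G} {q : ℕ} (hni : NoInvThree G)
    (h : Ctr t K) (hK : PslFacts K q) (hs : Ctr s Ks) (hKs : PslFacts Ks q) (hq : 27 ≤ q)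
    (hc : Cycle t K r a s) (O : Subgroup G) (hOK : O ≤ K) (hOa : ∀ x ∈ O, x * a = a * x)
    (hO : Nat.card O * 4 = q + 1) (hcent : ∀ x ∈ O, r * x = x * r)
    (hWle : W ≤ centralizer ({r} : Set G)) (hWodd : Odd (Nat.card W))
    (hWmem : ∀ g : G, g * r = r * g → Odd (orderOf g) → g ∈ W)
    (hthree : ∀ P : Subgroup G, P ≤ centralizer ({r} : Set G) → IsPGroup 3 P →
      (∀ x ∈ P, s * x * s ∈ P) → ∀ x ∈ P, s * x * s = x) : False := by
  classical
  have hss := hs.sq
  have hr3 : r ^ 3 = 1 := by rw [← hc.r_order, pow_orderOf_eq_one]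
  have hrKs : r ∈ Ks := hs.mem_of_odd hc.sr.symm (by rw [hc.r_order]; decide)
  obtain ⟨U, hUK, hrU, hUcard, hU3, hUab, hUmem⟩ := exists_elementary hKs hrKs hc.r_order
  have hconj_s : ∀ g : G, g * s = s * g → s * g * s = g := fun g hg => by
    rw [← hg, mul_assoc, hss, mul_one]
  have hUW : U ≤ W := fun w hw => hWmem w (hUab w hw r hrU)
    ((by decide : Odd 3).of_dvd_nat (orderOf_dvd_of_pow_eq_one (hU3 w hw)))
  have hWo : ∀ g ∈ W, Odd (orderOf g) := fun g hg =>
    hWodd.of_dvd_nat (by rw [← Subgroup.orderOf_mk (H := W) g hg]; exact orderOf_dvd_natCard _)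
  have hWr : ∀ g ∈ W, g * r = r * g := fun g hg => mem_centralizer_singleton_iff.1 (hWle hg)
  have hsW : ∀ g ∈ W, s * g * s ∈ W := by
    intro g hg
    refine hWmem _ ?_ ?_
    · exact (((show Commute s r from hc.sr).mul_left (hWr g hg)).mul_left hc.sr).eq
    · have := orderOf_injective (MulAut.conj s).toMonoidHom (MulAut.conj s).injective g
      simp only [MulEquiv.coe_toMonoidHom, MulAut.conj_apply,
        inv_eq_of_mul_eq_one_right hss] at this
      rw [this]; exact hWo g hg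
  have hfix : ∀ g ∈ W, s * g * s = g → g ∈ U := by
    intro g hg hgs
    have hcomm : g * s = s * g := by
      calc g * s = s * g * s * s := by rw [hgs]
        _ = s * g := by rw [mul_assoc, hss, mul_one]
    exact hUmem g (hs.mem_of_odd hcomm (hWo g hg)) (hWr g hg)
  obtain ⟨A, hAW, hAnorm, hA3, hAab, hAmem⟩ := exists_complement hss hWodd hsW hUW hU3 hUab
    (fun w hw => hconj_s w (hs.comm (hUK hw))) hfix
    (fun P hP => hthree P (hP.trans hWle))
  -- the torus
  obtain ⟨hCa, O', hO'card, hO'a, hO'ab, hO'mem, hO'C⟩ :=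
    hK.torus ⟨a, hc.a_mem⟩ (by rw [Subgroup.orderOf_mk]; exact hc.a_order)
  obtain ⟨j, hj⟩ : ∃ j, q = 8 * j + 3 := ⟨q / 8, by have := hK.q_mod; omega⟩
  have hOodd : Odd (Nat.card O) := ⟨j, by omega⟩
  have hO3 : ¬ 3 ∣ Nat.card O := fun hdiv => by
    have h1 : 3 ∣ q + 1 := hO ▸ hdiv.mul_right 4
    have h2 := hK.three_dvd
    omega
  have hOord : ∀ x ∈ O, Odd (orderOf x) ∧ (orderOf x).Coprime 3 := fun x hx => by
    have hd : orderOf x ∣ Nat.card O := by
      rw [← Subgroup.orderOf_mk (H := O) x hx]; exact orderOf_dvd_natCard _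
    exact ⟨hOodd.of_dvd_nat hd,
      Nat.Coprime.coprime_dvd_left hd (Nat.prime_three.coprime_iff_not_dvd.2 hO3).symm⟩
  have hOO' : O.subgroupOf K = O' := by
    refine eq_of_le_of_card_ge (fun x hx => hO'mem x (Subtype.ext (hOa _ hx)) ?_) ?_
    · rw [← orderOf_coe]; exact (hOord _ hx).1
    · rw [Nat.card_congr (subgroupOfEquivOfLe hOK).toEquiv]; omega
  have hOab : ∀ x ∈ O, ∀ y ∈ O, x * y = y * x := fun x hx y hy =>
    congrArg Subtype.val (hO'ab ⟨x, hOK hx⟩ (hOO' ▸ hx) ⟨y, hOK hy⟩ (hOO' ▸ hy))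
  have hOA : ∀ x ∈ O, x ∈ A := fun x hx =>
    hAmem x (hWmem x (hcent x hx).symm (hOord x hx).1) (hOord x hx).2
  obtain ⟨x₀, hx₀, hx₀1⟩ : ∃ x₀ ∈ O, x₀ ≠ 1 := by
    by_contra hno
    push Not at hno
    have : O = ⊥ := (Subgroup.eq_bot_iff_forall _).2 hno
    rw [this, Subgroup.card_bot] at hO
    omega
  -- the four-group and the centraliser of `O`
  have hta : t * a = a * t := (h.comm hc.a_mem).symm
  have ht2 := h.sq
  have ha2 : a * a = 1 := by rw [← sq, ← hc.a_order, pow_orderOf_eq_one]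
  let X : Subgroup G := centralizer (O : Set G)
  have memX : ∀ g, g ∈ X ↔ ∀ x ∈ O, x * g = g * x := fun g => mem_centralizer_iff
  have htX : t ∈ X := (memX t).2 fun x hx => h.comm (hOK hx)
  have haX : a ∈ X := (memX a).2 hOa
  have hrX : r ∈ X := (memX r).2 fun x hx => (hcent x hx).symm
  have hOX : O ≤ X := fun y hy => (memX y).2 fun x hx => hOab x hx y hy
  let IsV : G → Prop := fun v => v = 1 ∨ v = t ∨ v = a ∨ v = t * a
  have hVsq : ∀ v, IsV v → v * v = 1 := by
    rintro v (rfl | rfl | rfl | rfl)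
    · exact one_mul 1
    · exact ht2
    · exact ha2
    · calc t * a * (t * a) = t * (a * t) * a := by group
        _ = t * t * (a * a) := by rw [← hta]; group
        _ = 1 := by rw [ht2, ha2, one_mul]
  have hVX : ∀ v, IsV v → v ∈ X := by
    rintro v (rfl | rfl | rfl | rfl)
    exacts [one_mem _, htX, haX, mul_mem htX haX]
  have hCt : ∀ g ∈ X, g * t = t * g → ∃ v o, IsV v ∧ o ∈ O ∧ g = v * o := by
    intro g hg hgt
    have key : ∀ k ∈ K, k * x₀ = x₀ * k → k ∈ O ∨ ∃ o ∈ O, k = a * o := by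
      intro k hk hkx
      rcases ((hO'C ⟨x₀, hOK hx₀⟩ (hOO' ▸ hx₀) fun e => hx₀1 (congrArg Subtype.val e)).1
        ⟨k, hk⟩).1 (Subtype.ext hkx) with h1 | h1
      · rw [← hOO'] at h1; exact Or.inl h1
      · rw [← hOO'] at h1
        have h1' : k * a ∈ O := h1
        refine Or.inr ⟨k * a, h1', ?_⟩
        rw [← hOa _ h1', mul_assoc, ha2, mul_one]
    rcases h.decomp g hgt with hk | hk
    · rcases key g hk ((memX g).1 hg x₀ hx₀).symm with ho | ⟨o, ho, e⟩
      · exact ⟨1, g, Or.inl rfl, ho, (one_mul g).symm⟩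
      · exact ⟨a, o, Or.inr (Or.inr (Or.inl rfl)), ho, e⟩
    · have hg' : t * (t * g) = g := by rw [← mul_assoc, ht2, one_mul]
      rcases key _ hk ((memX _).1 (mul_mem htX hg) x₀ hx₀).symm with ho | ⟨o, ho, e⟩
      · exact ⟨t, t * g, Or.inr (Or.inl rfl), ho, hg'.symm⟩
      · exact ⟨t * a, o, Or.inr (Or.inr (Or.inr rfl)), ho, by rw [mul_assoc, ← e, hg']⟩
  have hrV : ∀ v, IsV v → IsV (r * v * r⁻¹) := by
    rintro v (rfl | rfl | rfl | rfl)
    · exact Or.inl (by group)
    · exact Or.inr (Or.inr (Or.inl hc.rt))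
    · exact Or.inr (Or.inr (Or.inr hc.ra))
    · refine Or.inr (Or.inl ?_)
      rw [show r * (t * a) * r⁻¹ = (r * t * r⁻¹) * (r * a * r⁻¹) by group, hc.rt, hc.ra, hta,
        ← mul_assoc, ha2, one_mul]
  have hstep : ∀ v, (∀ g ∈ X, g * v = v * g → ∃ v' o, IsV v' ∧ o ∈ O ∧ g = v' * o) →
      ∀ g ∈ X, g * (r * v * r⁻¹) = r * v * r⁻¹ * g → ∃ v' o, IsV v' ∧ o ∈ O ∧ g = v' * o := by
    intro v hv g hg hgv
    obtain ⟨v', o, hv', ho, e⟩ := hv (r⁻¹ * g * r) (mul_mem (mul_mem (inv_mem hrX) hg) hrX) (by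
      calc r⁻¹ * g * r * v = r⁻¹ * (g * (r * v * r⁻¹)) * r := by group
        _ = r⁻¹ * (r * v * r⁻¹ * g) * r := by rw [hgv]
        _ = v * (r⁻¹ * g * r) := by group)
    refine ⟨_, o, hrV v' hv', ho, ?_⟩
    calc g = r * (r⁻¹ * g * r) * r⁻¹ := by group
      _ = r * (v' * o) * r⁻¹ := by rw [e]
      _ = r * v' * r⁻¹ * (r * o * r⁻¹) := by group
      _ = r * v' * r⁻¹ * o := by rw [hcent o ho, mul_inv_cancel_right]
  have hCa' : ∀ g ∈ X, g * a = a * g → ∃ v o, IsV v ∧ o ∈ O ∧ g = v * o := fun g hg hga =>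
    hstep t hCt g hg (by rw [hc.rt]; exact hga)
  have hCta : ∀ g ∈ X, g * (t * a) = t * a * g → ∃ v o, IsV v ∧ o ∈ O ∧ g = v * o :=
    fun g hg hgta => hstep a hCa' g hg (by rw [hc.ra]; exact hgta)
  -- the quotient by `O`
  let Z : Subgroup X := O.subgroupOf X
  have hZc : ∀ o ∈ Z, ∀ g : X, g * o = o * g := fun o ho g =>
    Subtype.ext ((memX g).1 g.2 _ ho).symm
  haveI : Z.Normal := ⟨fun o ho g => by rw [hZc o ho g, mul_inv_cancel_right]; exact ho⟩
  let π := QuotientGroup.mk' Z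
  have hπ : ∀ g : X, π g = 1 ↔ (g : G) ∈ O := fun g => QuotientGroup.eq_one_iff g
  have hπsurj : Function.Surjective π := QuotientGroup.mk'_surjective Z
  have hkill : ∀ g : G, ∀ o ∈ O, g * g = 1 → g = o → g = 1 := by
    rintro g o ho hg rfl
    exact eq_one_of_coprime_orders (pow_orderOf_eq_one g) (by rw [sq]; exact hg)
      ((hOord g ho).1.coprime_two_right)
  have hcube : Nat.Coprime (Nat.card O) 3 := (Nat.prime_three.coprime_iff_not_dvd.2 hO3).symm
  have hordne : ∀ v, IsV v → v ≠ 1 → v ∉ O := fun v hv hne ho => hne (hkill v v ho (hVsq v hv) rfl)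
  have ht1 : t ≠ 1 := fun e => by have := h.orderOf_t; simp [e] at this
  have ha1 : a ≠ 1 := fun e => by have := hc.a_order; simp [e] at this
  set tY := π ⟨t, htX⟩ with htY
  set aY := π ⟨a, haX⟩ with haY
  have hord2 : ∀ v (hv : IsV v), v ≠ 1 → orderOf (π ⟨v, hVX v hv⟩) = 2 := by
    intro v hv hne
    haveI : Fact (Nat.Prime 2) := ⟨Nat.prime_two⟩
    refine orderOf_eq_prime ?_ fun e => hordne v hv hne ((hπ _).1 e)
    rw [← map_pow, hπ, SubgroupClass.coe_pow, sq, hVsq v hv]; exact one_mem _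
  have hnotV : t ≠ a := fun e => h.notMem (e ▸ hc.a_mem)
  have hta1 : t * a ≠ 1 := fun e => hnotV (by
    calc t = t * (a * a) := by rw [ha2, mul_one]
      _ = t * a * a := by group
      _ = a := by rw [e, one_mul])
  have himg : ∀ v (hv : IsV v), π ⟨v, hVX v hv⟩ = 1 ∨ π ⟨v, hVX v hv⟩ = tY ∨
      π ⟨v, hVX v hv⟩ = aY ∨ π ⟨v, hVX v hv⟩ = tY * aY := by
    intro v hv
    rcases id hv with rfl | rfl | rfl | rfl
    · exact Or.inl (map_one π)
    · exact Or.inr (Or.inl rfl)
    · exact Or.inr (Or.inr (Or.inl rfl))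
    · exact Or.inr (Or.inr (Or.inr (by rw [htY, haY, ← map_mul]; rfl)))
  have hcY : ∀ v (hv : IsV v), v ≠ 1 →
      (∀ g ∈ X, g * v = v * g → ∃ v' o, IsV v' ∧ o ∈ O ∧ g = v' * o) →
      ∀ y, y * π ⟨v, hVX v hv⟩ = π ⟨v, hVX v hv⟩ * y →
        y = 1 ∨ y = tY ∨ y = aY ∨ y = tY * aY := by
    intro v hv _ hC y hy
    obtain ⟨g, rfl⟩ := hπsurj y
    obtain ⟨g, hg⟩ := g
    have hvi : v⁻¹ = v := inv_eq_of_mul_eq_one_right (hVsq v hv)
    set o := g * v * g⁻¹ * v⁻¹ with ho
    have hoO : o ∈ O := by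
      have e : π (⟨g, hg⟩ * ⟨v, hVX v hv⟩ * ⟨g, hg⟩⁻¹ * ⟨v, hVX v hv⟩⁻¹) = 1 := by
        simp only [map_mul, map_inv]; rw [hy]; group
      exact (hπ _).1 e
    have hsqo : o * o = 1 := by
      have e1 : g * v * g⁻¹ = o * v := by rw [ho]; group
      have e2 : o * v * (o * v) = 1 := by
        rw [← e1, show g * v * g⁻¹ * (g * v * g⁻¹) = g * (v * v) * g⁻¹ by group, hVsq v hv]; group
      rw [show o * v * (o * v) = o * (v * o) * v by group, ← (memX v).1 (hVX v hv) o hoO,
        show o * (o * v) * v = o * o * (v * v) by group, hVsq v hv, mul_one] at e2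
      exact e2
    have ho1 := hkill o o hoO hsqo rfl
    have hcomm : g * v = v * g := by
      calc g * v = o * v * g := by rw [ho]; group
        _ = v * g := by rw [ho1, one_mul]
    obtain ⟨v', o', hv', ho', e⟩ := hC g hg hcomm
    have : π ⟨g, hg⟩ = π ⟨v', hVX v' hv'⟩ := by
      rw [show (⟨g, hg⟩ : X) = ⟨v', hVX v' hv'⟩ * ⟨o', hOX ho'⟩ from Subtype.ext e, map_mul,
        (hπ ⟨o', _⟩).2 ho', mul_one]
    rw [this]
    exact himg v' hv'
  have hniY : NoInvThree (↥X ⧸ Z) := by
    intro t' x' ht' hx' he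
    obtain ⟨g, rfl⟩ := hπsurj t'
    obtain ⟨k, rfl⟩ := hπsurj x'
    set m := Nat.card O with hm
    have hpow : ∀ (g : X) (n : ℕ), π g ^ n = 1 → (g ^ m) ^ n = 1 := by
      intro g n hn
      rw [← pow_mul, mul_comm, pow_mul]
      rw [← map_pow, hπ] at hn
      refine Subtype.ext ?_
      rw [SubgroupClass.coe_pow, OneMemClass.coe_one]
      have := orderOf_dvd_natCard (⟨_, hn⟩ : O)
      rw [Subgroup.orderOf_mk] at this
      exact orderOf_dvd_iff_pow_eq_one.1 this
    haveI : Fact (Nat.Prime 2) := ⟨Nat.prime_two⟩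
    haveI : Fact (Nat.Prime 3) := ⟨Nat.prime_three⟩
    have htt : π g ^ 2 = 1 := by rw [← ht', pow_orderOf_eq_one]
    have hxx : π k ^ 3 = 1 := by rw [← hx', pow_orderOf_eq_one]
    have hgm : π (g ^ m) = π g := by
      obtain ⟨l, hl⟩ := hOodd
      rw [map_pow, hl, pow_succ, pow_mul, htt, one_pow, one_mul]
    set ĝ : X := g ^ m with hĝ
    set k' : X := k ^ m with hk'
    have hĝ2 : ĝ ^ 2 = 1 := hpow g 2 htt
    have hk3 : k' ^ 3 = 1 := hpow k 3 hxx
    have hoĝ : orderOf ĝ = 2 := orderOf_eq_prime hĝ2 fun e => by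
      have := hgm; rw [e, map_one] at this; rw [← this] at ht'; simp at ht'
    have hπk : π k' = π k ^ m := map_pow π k m
    have hok : orderOf k' = 3 := orderOf_eq_prime hk3 fun e => by
      rw [e, map_one] at hπk
      have := eq_one_of_coprime_orders hπk.symm hxx hcube
      rw [this] at hx'; simp at hx'
    have hd : ĝ * k' * ĝ * k' ∈ Z := by
      rw [← QuotientGroup.eq_one_iff, ← QuotientGroup.mk'_apply]
      show π _ = 1
      rw [map_mul, map_mul, map_mul, hgm, hπk]
      have hconj : ∀ n : ℕ, π g * π k ^ n * π g = (π k ^ n)⁻¹ := by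
        intro n
        induction n with
        | zero => rw [pow_zero, mul_one, ← sq, htt, inv_one]
        | succ n ih =>
          rw [show π g * π k ^ (n + 1) * π g = (π g * π k ^ n * π g) * ((π g * π g)⁻¹ *
            (π g * π k * π g)) by rw [pow_succ]; group, ih, ← sq, htt, he, inv_one, one_mul,
            pow_succ']
          group
      rw [hconj, inv_mul_cancel]
    set d := ĝ * k' * ĝ * k' with hd'
    have e : ĝ * k' * ĝ⁻¹ = d * k'⁻¹ := by
      rw [inv_eq_of_mul_eq_one_right (show ĝ * ĝ = 1 by rw [← sq]; exact hĝ2), hd']; group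
    have hd1 : d = 1 := by
      have h3 : d ^ 3 = 1 := by
        have := congrArg (· ^ 3) e
        simp only [conj_pow, hk3, mul_one, mul_inv_cancel] at this
        rw [(show Commute d k'⁻¹ from ((hZc d hd k'⁻¹)).symm).mul_pow, inv_pow, hk3, inv_one,
          mul_one] at this
        exact this.symm
      refine eq_one_of_coprime_orders ?_ h3 hcube
      refine Subtype.ext ?_
      rw [SubgroupClass.coe_pow, OneMemClass.coe_one, ← orderOf_dvd_iff_pow_eq_one,
        ← Subgroup.orderOf_mk (H := O) (d : G) hd]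
      exact orderOf_dvd_natCard _
    refine hni (ĝ : G) (k' : G) (by rw [orderOf_coe]; exact hoĝ) (by rw [orderOf_coe]; exact hok) ?_
    have : ĝ * k' * ĝ = k'⁻¹ := eq_inv_of_mul_eq_one_left hd1
    exact congrArg Subtype.val this
  have hVY := four_cc hniY (hord2 t (Or.inr (Or.inl rfl)) ht1)
    (hord2 a (Or.inr (Or.inr (Or.inl rfl))) ha1)
    (by rw [← map_mul, ← map_mul]; exact congrArg π (Subtype.ext hta))
    (fun e => hordne (t * a) (Or.inr (Or.inr (Or.inr rfl))) hta1 ((hπ (⟨t, htX⟩ * ⟨a, haX⟩)).1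
      (by rw [map_mul, e, ← map_mul, hπ]; show a * a ∈ O; rw [ha2]; exact one_mem _)))
    (hcY t (Or.inr (Or.inl rfl)) ht1 hCt)
    (hcY a (Or.inr (Or.inr (Or.inl rfl))) ha1 hCa')
    (by
      have h3 := hcY (t * a) (Or.inr (Or.inr (Or.inr rfl))) hta1 hCta
      rw [show (⟨t * a, hVX _ (Or.inr (Or.inr (Or.inr rfl)))⟩ : X) = ⟨t, htX⟩ * ⟨a, haX⟩ from rfl,
        map_mul] at h3
      exact h3)
  -- `X` permutes `t, a, t a`
  have hXV : ∀ g ∈ X, ∀ v, IsV v → IsV (g * v * g⁻¹) := by
    intro g hg v hv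
    have hmem : π ⟨v, hVX v hv⟩ ∈ Subgroup.closure ({tY, aY} : Set (↥X ⧸ Z)) := by
      rcases himg v hv with e | e | e | e <;> rw [e]
      exacts [one_mem _, subset_closure (by simp), subset_closure (by simp),
        mul_mem (subset_closure (by simp)) (subset_closure (by simp))]
    have hmem' := hVY.conj_mem _ hmem (π ⟨g, hg⟩)
    rw [← map_inv, ← map_mul, ← map_mul] at hmem'
    -- the image of the four-group
    let VY : Subgroup X := Subgroup.closure {⟨t, htX⟩, ⟨a, haX⟩}
    have hVYmem : ∀ w ∈ VY, IsV (w : G) := by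
      intro w hw
      induction hw using Subgroup.closure_induction with
      | mem w hw =>
        rcases hw with rfl | hw
        · exact Or.inr (Or.inl rfl)
        · rw [Set.mem_singleton_iff] at hw; subst hw; exact Or.inr (Or.inr (Or.inl rfl))
      | one => exact Or.inl rfl
      | mul x y _ _ hx hy =>
        have e1 : a * t = t * a := hta.symm
        have e2 : a * (t * a) = t := by rw [← mul_assoc, e1, mul_assoc, ha2, mul_one]
        have e3 : t * a * t = a := by rw [mul_assoc, e1, ← mul_assoc, ht2, one_mul]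
        have e4 : t * a * a = t := by rw [mul_assoc, ha2, mul_one]
        have e5 : t * (t * a) = a := by rw [← mul_assoc, ht2, one_mul]
        have e6 : t * a * (t * a) = 1 := hVsq _ (Or.inr (Or.inr (Or.inr rfl)))
        rcases hx with hx | hx | hx | hx <;> rcases hy with hy | hy | hy | hy <;>
          simp only [Subgroup.coe_mul, IsV, hx, hy, one_mul, mul_one, ht2, ha2, e1, e2, e3, e4,
            e5, e6, true_or, or_true]
      | inv x _ hx =>
        rw [InvMemClass.coe_inv, inv_eq_of_mul_eq_one_right (hVsq _ hx)]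
        exact hx
    have hmem'' : π (⟨g, hg⟩ * ⟨v, hVX v hv⟩ * ⟨g, hg⟩⁻¹) ∈ VY.map π := by
      rw [show VY.map π = Subgroup.closure ({tY, aY} : Set (↥X ⧸ Z)) by
        rw [MonoidHom.map_closure, Set.image_pair]]
      exact hmem'
    obtain ⟨w, hw, ew⟩ := hmem''
    have hwV := hVYmem w hw
    have hoO : (w : G)⁻¹ * (g * v * g⁻¹) ∈ O := by
      refine (hπ (w⁻¹ * (⟨g, hg⟩ * ⟨v, hVX v hv⟩ * ⟨g, hg⟩⁻¹))).1 ?_
      rw [map_mul, ← ew, map_inv, inv_mul_cancel]
    set o := (w : G)⁻¹ * (g * v * g⁻¹) with ho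
    have e : g * v * g⁻¹ = (w : G) * o := by rw [ho]; group
    have hsq : o * o = 1 := by
      have e2 : (w : G) * o * ((w : G) * o) = 1 := by
        rw [← e, show g * v * g⁻¹ * (g * v * g⁻¹) = g * (v * v) * g⁻¹ by group, hVsq v hv]; group
      rw [show (w : G) * o * ((w : G) * o) = (w : G) * (o * w) * o by group,
        (memX _).1 w.2 o hoO, show (w : G) * (w * o) * o = (w * w) * (o * o) by group,
        hVsq _ hwV, one_mul] at e2
      exact e2
    rw [e, hkill o o hoO hsq rfl, mul_one]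
    exact hwV
  -- `O` is all of `A`
  have hAX : ∀ g ∈ A, g ∈ X := fun g hg => (memX g).2 fun x hx => hAab x (hOA x hx) g hg
  have hA : ∀ g ∈ A, g ∈ O := by
    intro g hg
    have hgo : (orderOf g).Coprime 6 := by
      have hd : orderOf g ∣ Nat.card A := by
        rw [← Subgroup.orderOf_mk (H := A) g hg]; exact orderOf_dvd_natCard _
      rw [show (6 : ℕ) = 2 * 3 from rfl]
      exact ((hWo g (hAW hg)).coprime_two_right).mul_right
        (Nat.Coprime.coprime_dvd_left hd (Nat.prime_three.coprime_iff_not_dvd.2 hA3).symm)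
    -- `g` centralises `t` and `a`
    let σ : Equiv.Perm {v : G // IsV v} :=
      { toFun := fun v => ⟨g * v * g⁻¹, hXV g (hAX g hg) v v.2⟩
        invFun := fun v => ⟨g⁻¹ * v * g, by simpa using hXV g⁻¹ (inv_mem (hAX g hg)) v v.2⟩
        left_inv := fun v => Subtype.ext (by simp only; group)
        right_inv := fun v => Subtype.ext (by simp only; group) }
    have hσpow : ∀ (n : ℕ) (v : {v : G // IsV v}), ((σ ^ n) v : G) = g ^ n * v * (g ^ n)⁻¹ := by
      intro n
      induction n with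
      | zero => intro v; simp
      | succ n ih =>
        intro v
        rw [pow_succ', Equiv.Perm.mul_apply]
        show g * ((σ ^ n) v : G) * g⁻¹ = _
        rw [ih, pow_succ']; group
    have hσg : σ ^ orderOf g = 1 := Equiv.ext fun v => Subtype.ext (by
      rw [hσpow, pow_orderOf_eq_one]; simp)
    haveI : Fintype {v : G // IsV v} := Fintype.ofFinite _
    have hcard4 : Fintype.card {v : G // IsV v} ≤ 4 := by
      refine le_trans ?_ (Finset.card_le_four (a := (1 : G)) (b := t) (c := a) (d := t * a))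
      rw [← Fintype.card_coe]
      refine Fintype.card_le_of_injective
        (fun v => ⟨v.1, by simpa [IsV] using v.2⟩) fun v w e => ?_
      exact Subtype.ext (by simpa using congrArg Subtype.val e)
    have hσfac : σ ^ (24 : ℕ) = 1 := by
      rw [← orderOf_dvd_iff_pow_eq_one]
      refine orderOf_dvd_natCard σ |>.trans ?_
      rw [Nat.card_eq_fintype_card, Fintype.card_perm]
      exact Nat.factorial_dvd_factorial hcard4
    have hco : (orderOf g).Coprime 24 := by
      rw [show (24 : ℕ) = 2 ^ 3 * 3 from rfl]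
      exact ((hWo g (hAW hg)).coprime_two_right.pow_right 3).mul_right
        (hgo.coprime_dvd_right (by norm_num))
    have hσ1 : σ = 1 := eq_one_of_coprime_orders hσg hσfac hco
    have hgt : g * t = t * g := by
      have := congrArg Subtype.val (DFunLike.congr_fun hσ1 (⟨t, Or.inr (Or.inl rfl)⟩ : {v : G // IsV v}))
      exact mul_inv_eq_iff_eq_mul.1 this
    obtain ⟨v, o, hv, ho, e⟩ := hCt g (hAX g hg) hgt
    have hvA : v = 1 := by
      have hveq : v = g * o⁻¹ := by rw [e, mul_inv_cancel_right]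
      have hvW : v ∈ W := hveq ▸ mul_mem (hAW hg) (inv_mem (hAW (hOA o ho)))
      exact eq_one_of_coprime_orders (pow_orderOf_eq_one v) (by rw [sq]; exact hVsq v hv)
        (hWo v hvW).coprime_two_right
    rw [e, hvA, one_mul]; exact ho
  -- `U` permutes the three involutions
  have hUO : ∀ w ∈ U, ∀ x ∈ O, w * x * w⁻¹ ∈ O := fun w hw x hx =>
    hA _ (hAnorm w (hUW hw) x (hOA x hx))
  have hinvol : ∀ j ∈ X, j * j = 1 → IsV j := by
    intro j hj hjj
    have key : ∀ v, IsV v → (∀ g ∈ X, g * v = v * g → ∃ v' o, IsV v' ∧ o ∈ O ∧ g = v' * o) →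
        j * v = v * j → IsV j := by
      intro v _ hC hjv
      obtain ⟨v', o, hv', ho, e⟩ := hC j hj hjv
      have : o * o = 1 := by
        rw [e, show v' * o * (v' * o) = v' * (o * v') * o by group,
          (memX v').1 (hVX v' hv') o ho,
          show v' * (v' * o) * o = v' * v' * (o * o) by group, hVsq v' hv', one_mul] at hjj
        exact hjj
      rw [e, hkill o o ho this rfl, mul_one]; exact hv'
    have hji : j⁻¹ = j := inv_eq_of_mul_eq_one_right hjj
    have hcomm : ∀ v, j * v * j⁻¹ = v → j * v = v * j := fun v e => mul_inv_eq_iff_eq_mul.1 e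
    by_cases h1 : j * t * j⁻¹ = t
    · exact key t (Or.inr (Or.inl rfl)) hCt (hcomm t h1)
    by_cases h2 : j * a * j⁻¹ = a
    · exact key a (Or.inr (Or.inr (Or.inl rfl))) hCa' (hcomm a h2)
    refine key (t * a) (Or.inr (Or.inr (Or.inr rfl))) hCta (hcomm _ ?_)
    have back : ∀ v, j * (j * v * j⁻¹) * j⁻¹ = v := fun v => by
      rw [show j * (j * v * j⁻¹) * j⁻¹ = (j * j) * v * (j * j)⁻¹ by group, hjj]; group
    rcases hXV j hj t (Or.inr (Or.inl rfl)) with e | e | e | e
    · exact absurd (conj_eq_one_iff.1 e) ht1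
    · exact absurd e h1
    · have e' : j * a * j⁻¹ = t := by rw [← e]; exact back t
      rw [show j * (t * a) * j⁻¹ = (j * t * j⁻¹) * (j * a * j⁻¹) by group, e, e', ← hta]
    · rcases hXV j hj a (Or.inr (Or.inr (Or.inl rfl))) with f | f | f | f
      · exact absurd (conj_eq_one_iff.1 f) ha1
      · have := back a; rw [f, e] at this
        exact absurd (by
          calc t = t * (a * a) := by rw [ha2, mul_one]
            _ = t * a * a := by group
            _ = a * a := by rw [this]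
            _ = 1 := ha2) ht1
      · exact absurd f h2
      · exact absurd (mul_left_cancel (mul_right_cancel (e.trans f.symm))) hnotV
  have hUX : ∀ w ∈ U, ∀ v, IsV v → IsV (w * v * w⁻¹) := by
    intro w hw v hv
    refine hinvol _ ((memX _).2 fun x hx => ?_) (by
      rw [show w * v * w⁻¹ * (w * v * w⁻¹) = w * (v * v) * w⁻¹ by group, hVsq v hv]; group)
    have hx' := hUO w⁻¹ (inv_mem hw) x hx
    rw [inv_inv] at hx'
    calc x * (w * v * w⁻¹) = w * ((w⁻¹ * x * w) * v) * w⁻¹ := by group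
      _ = w * (v * (w⁻¹ * x * w)) * w⁻¹ := by rw [(memX v).1 (hVX v hv) _ hx']
      _ = w * v * w⁻¹ * x := by group
  have hker : ∀ w ∈ U, w * t = t * w → w * a = a * w → w = 1 := by
    intro w hw hwt hwa
    have hwK : w ∈ K := h.mem_of_odd hwt (hWo w (hUW hw))
    refine eq_one_of_coprime_orders (m := 3) (n := q + 1) (hU3 w hw) ?_ ?_
    · have hmem : (⟨w, hwK⟩ : K) ∈ centralizer ({(⟨a, hc.a_mem⟩ : K)} : Set K) :=
        mem_centralizer_singleton_iff.2 (Subtype.ext hwa)
      have := pow_card_eq_one' (x := (⟨_, hmem⟩ : centralizer ({(⟨a, hc.a_mem⟩ : K)} : Set K)))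
      rw [hCa] at this
      have h2 := congrArg Subtype.val (congrArg Subtype.val this)
      simpa using h2
    · rw [Nat.prime_three.coprime_iff_not_dvd]
      have := hK.three_dvd; omega
  let f : U → {v : G // IsV v} × {v : G // IsV v} := fun w =>
    (⟨_, hUX w w.2 t (Or.inr (Or.inl rfl))⟩, ⟨_, hUX w w.2 a (Or.inr (Or.inr (Or.inl rfl)))⟩)
  have hf : Function.Injective f := by
    intro w w' e
    have e1 : (w : G) * t * (w : G)⁻¹ = (w' : G) * t * (w' : G)⁻¹ :=
      congrArg (fun z => (z.1 : G)) e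
    have e2 : (w : G) * a * (w : G)⁻¹ = (w' : G) * a * (w' : G)⁻¹ :=
      congrArg (fun z => (z.2 : G)) e
    have comm : ∀ v : G, (w : G) * v * (w : G)⁻¹ = (w' : G) * v * (w' : G)⁻¹ →
        ((w' : G)⁻¹ * w) * v = v * ((w' : G)⁻¹ * w) := fun v e => by
      calc (w' : G)⁻¹ * w * v = (w' : G)⁻¹ * ((w : G) * v * (w : G)⁻¹) * w := by group
        _ = (w' : G)⁻¹ * ((w' : G) * v * (w' : G)⁻¹) * w := by rw [e]
        _ = v * ((w' : G)⁻¹ * w) := by group
    exact Subtype.ext (inv_mul_eq_one.1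
      (hker _ (mul_mem (inv_mem w'.2) w.2) (comm t e1) (comm a e2))).symm
  haveI : Fintype {v : G // IsV v} := Fintype.ofFinite _
  have hle := Nat.card_le_card_of_injective f hf
  rw [hUcard, Nat.card_prod, Nat.card_eq_fintype_card] at hle
  have hcard4 : Fintype.card {v : G // IsV v} ≤ 4 := by
    refine le_trans ?_ (Finset.card_le_four (a := (1 : G)) (b := t) (c := a) (d := t * a))
    rw [← Fintype.card_coe]
    refine Fintype.card_le_of_injective
      (fun v => ⟨v.1, by simpa [IsV] using v.2⟩) fun v w e => ?_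
    exact Subtype.ext (by simpa using congrArg Subtype.val e)
  have := Nat.mul_le_mul hcard4 hcard4
  omega

/-- The second case cannot occur. -/
theorem case_b {G : Type*} [Group G] [Finite G] {t r a s : G} {K : Subgroup G} {q : ℕ}
    (hni : NoInvThree G) (hall : AllCtr G q) (h : Ctr t K) (hK : PslFacts K q) (hq : 27 ≤ q)
    (hc : Cycle t K r a s) (O : Subgroup G) (hOK : O ≤ K) (hOa : ∀ x ∈ O, x * a = a * x)
    (hO : Nat.card O * 4 = q + 1) (hcent : ∀ x ∈ O, r * x = x * r) : False := by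
  obtain ⟨Ks, hs, hKs⟩ := hall s hc.s_order
  have hrKs : r ∈ Ks := hs.mem_of_odd hc.sr.symm (by rw [hc.r_order]; decide)
  obtain ⟨W, hW⟩ := local_three hs hKs hni hrKs hc.r_order
  exact case_b_core hni h hK hs hKs hq hc O hOK hOa hO hcent hW.le hW.odd hW.mem_of_odd
    fun P hP hp hi x hx => by rw [hW.three P hP hp hi x hx, mul_assoc, hs.sq, mul_one]

end Cfsg.Agent.ReeSThree
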