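import Cfsg.Agent.ReeSThree.Basic
import Cfsg.Agent.AbSyl.Basic
import Cfsg.Agent.Known.Section
import Cfsg.Agent.Linear.GLTwo
import Cfsg.Agent.Linear.SmallIso
import Cfsg.Agent.Suzuki.LieModel
import Cfsg.Agent.TwoAut.UnitarySylow
import Cfsg.Agent.SporB.J1Group
import Cfsg.Agent.S2131

/-!
# Goldschmidt groups are `S₄`-free

Abelian Sylow 2-subgroups exclude the section `S₄`, as does an order prime to three; in `SU₃(2^n)` the
2-elements normalising a nontrivial 2-subgroup fix its isotropic point, hence generate a group of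
exponent four.
-/

set_option autoImplicit false
set_option linter.style.haveILetI false
set_option linter.unusedSectionVars false

namespace Cfsg.Agent.ReeSThree

open Subgroup
open Cfsg.Agent.AbSyl (AbTwo)

universe u v

abbrev S4 := Equiv.Perm (Fin 4)

section General

variable {G : Type*} [Group G] [Finite G]

/-- The centraliser of a double transposition in `S₄`, of order eight. -/
def octic : Subgroup S4 := centralizer {Equiv.swap 0 2 * Equiv.swap 1 3}

theorem octic_isPGroup : IsPGroup 2 octic := by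
  intro g
  refine ⟨2, Subtype.ext ?_⟩
  have h := mem_centralizer_singleton_iff.1 g.2
  rw [Subgroup.coe_pow, Subgroup.coe_one]
  revert h
  generalize (g : S4) = a
  revert a
  decide +kernel

theorem not_four_of_abTwo (h : AbTwo G) : ¬ Cfsg.Involves S4 G := by
  haveI : Fact (Nat.Prime 2) := ⟨Nat.prime_two⟩
  intro hi
  have hc := Known.forall_pSubgroup_comm_of_involves hi (p := 2)
    (fun P hP x hx y hy => (h P hP x hx y hy).eq) octic octic_isPGroup
    (Equiv.swap 0 2) (mem_centralizer_singleton_iff.2 (by decide))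
    (Equiv.swap 0 1 * Equiv.swap 2 3) (mem_centralizer_singleton_iff.2 (by decide))
  exact absurd hc (by decide)

theorem not_four_of_three (h : ¬ 3 ∣ Nat.card G) : ¬ Cfsg.Involves S4 G := by
  intro hi
  obtain ⟨A, f, hf⟩ := EvenLocal.exists_surjective_of_involves hi
  refine h ((?_ : 3 ∣ Nat.card A).trans (card_subgroup_dvd_card A))
  refine dvd_trans ?_ (card_dvd_of_surjective f hf)
  simp [S4, Nat.card_eq_fintype_card, Fintype.card_perm, Fintype.card_fin, Nat.factorial]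

theorem abTwo_of_not_eight (h : ¬ 8 ∣ Nat.card G) : AbTwo G := by
  haveI : Fact (Nat.Prime 2) := ⟨Nat.prime_two⟩
  intro P hP x hx y hy
  obtain ⟨k, hk⟩ := hP.exists_card_eq
  have hk2 : k ≤ 2 := by
    by_contra hlt
    exact h (((pow_dvd_pow 2 (show 3 ≤ k by omega)).trans (hk ▸ dvd_rfl)).trans
      (card_subgroup_dvd_card P))
  have hcomm : ∀ a b : P, a * b = b * a := by
    interval_cases k
    · haveI : Subsingleton P := (Nat.card_eq_one_iff_unique.1 (by simpa using hk)).1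
      exact fun a b => Subsingleton.elim _ _
    · haveI : IsCyclic P := isCyclic_of_prime_card (p := 2) (by simpa using hk)
      exact fun a b => (IsCyclic.isMulCommutative (α := P)).is_comm.comm a b
    · exact fun a b => (IsPGroup.isMulCommutative_of_card_eq_prime_sq (p := 2) hk).is_comm.comm a b
  exact congrArg Subtype.val (hcomm ⟨x, hx⟩ ⟨y, hy⟩)

theorem abTwo_of_odd_index (H : Subgroup G) (hodd : Odd H.index) (h : AbTwo H) : AbTwo G := by
  haveI : Fact (Nat.Prime 2) := ⟨Nat.prime_two⟩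
  intro P hP x hx y hy
  obtain ⟨S, hS⟩ := hP.exists_le_sylow
  obtain ⟨Q⟩ : Nonempty (Sylow 2 H) := inferInstance
  have hQ : IsPGroup 2 ((Q : Subgroup H).map H.subtype) := Q.2.map _
  obtain ⟨T, hT⟩ := hQ.exists_le_sylow
  have hTH : (T : Subgroup G) = (Q : Subgroup H).map H.subtype := by
    refine (eq_of_le_of_card_ge hT ?_).symm
    rw [card_map_of_injective H.subtype_injective, Sylow.card_eq_multiplicity,
      Sylow.card_eq_multiplicity]
    refine Nat.pow_le_pow_right two_pos (le_of_eq ?_)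
    rw [← H.card_mul_index, Nat.factorization_mul Nat.card_pos.ne' index_ne_zero_of_finite,
      Finsupp.add_apply, Nat.factorization_eq_zero_of_not_dvd (n := H.index), add_zero]
    rwa [← even_iff_two_dvd, Nat.not_even_iff_odd]
  obtain ⟨g, hg⟩ := MulAction.exists_smul_eq G S T
  have hmem : ∀ z ∈ (S : Subgroup G), g * z * g⁻¹ ∈ (Q : Subgroup H).map H.subtype := fun z hz => by
    rw [← hTH, ← hg]
    exact smul_mem_pointwise_smul _ _ _ hz
  obtain ⟨a, ha, hax⟩ := hmem x (hS hx)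
  obtain ⟨b, hb, hby⟩ := hmem y (hS hy)
  have hab : Commute (g * x * g⁻¹) (g * y * g⁻¹) := by
    rw [← hax, ← hby]
    exact (h _ Q.2 a ha b hb).map H.subtype
  have := hab.map (MulAut.conj g⁻¹).toMonoidHom
  simpa [mul_assoc] using this

theorem abTwo_prod {H : Type*} [Group H] [Finite H] {C : Type*} [CommGroup C] (h : AbTwo H) :
    AbTwo (C × H) := fun P hP x hx y hy =>
  Prod.ext (mul_comm _ _) (h (P.map (MonoidHom.snd C H)) (hP.map _) _ ⟨x, hx, rfl⟩ _ ⟨y, hy, rfl⟩).eq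

end General

section PSL

variable {F : Type} [Field F] [Fintype F]

open Matrix
open scoped MatrixGroups

theorem abTwo_psl_even [CharP F 2] : AbTwo (ProjectiveSpecialLinearGroup (Fin 2) F) := by
  haveI : Fact (Nat.Prime 2) := ⟨Nat.prime_two⟩
  intro P hP x hx y hy
  obtain ⟨Q, hQ, rfl⟩ := Known.exists_isPGroup_map_eq (QuotientGroup.mk' _)
    (QuotientGroup.mk'_surjective _) hP
  obtain ⟨a, ha, rfl⟩ := hx
  obtain ⟨b, hb, rfl⟩ := hy
  obtain ⟨S, hS⟩ := (hQ.map (SpecialLinearGroup.toGL (n := Fin 2) (R := F))).exists_le_sylow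
  have h : SpecialLinearGroup.toGL a * SpecialLinearGroup.toGL b =
      SpecialLinearGroup.toGL b * SpecialLinearGroup.toGL a :=
    Linear.sylow_GL_two_mul_comm 2 S (hS ⟨a, ha, rfl⟩) (hS ⟨b, hb, rfl⟩)
  rw [← map_mul, ← map_mul] at h
  show QuotientGroup.mk' _ a * QuotientGroup.mk' _ b = _
  rw [← map_mul, ← map_mul, SpecialLinearGroup.toGL_injective h]

theorem not_eight_psl {q : ℕ} (hq : Fintype.card F = q) (h : q % 8 = 3 ∨ q % 8 = 5) :
    ¬ 8 ∣ Nat.card (ProjectiveSpecialLinearGroup (Fin 2) F) := by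
  intro hd
  have hodd : Odd (Fintype.card F) := hq ▸ Nat.odd_iff.2 (by omega)
  have h16 : 16 ∣ q * (q - 1) * (q + 1) := by
    rw [← hq, ← Linear.card_PSL_two_of_odd hodd]
    exact mul_dvd_mul_left 2 hd
  have h4 : (q * (q - 1) * (q + 1)) % 16 = 8 := by
    have hr : q % 16 = 3 ∨ q % 16 = 5 ∨ q % 16 = 11 ∨ q % 16 = 13 := by omega
    have h1 : (q - 1) % 16 = q % 16 - 1 := by omega
    rw [Nat.mul_mod, Nat.mul_mod q (q - 1), Nat.add_mod q 1, h1]
    rcases hr with e | e | e | e <;> rw [e]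
  omega

end PSL

section SU

open Matrix
open Cfsg.Agent.Classical.U Cfsg.Agent.TwoAut

variable {F : Type} [Field F] [Fintype F] [CharP F 2] {q : ℕ}

/-- The isotropic vector fixed by the root group. -/
def ev (F : Type) [Field F] : Fin 3 → F := ![1, 1, 0]

/-- The matrix of an element of `SU₃`. -/
abbrev mat (g : ↥(Cfsg.SU 3 F q)) : Matrix (Fin 3) (Fin 3) F :=
  ((g : Matrix.SpecialLinearGroup (Fin 3) F) : Matrix (Fin 3) (Fin 3) F)

theorem form (g : ↥(Cfsg.SU 3 F q)) (u v : Fin 3 → F) :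
    Cfsg.hermForm 3 F q (mat g *ᵥ u) (mat g *ᵥ v) = Cfsg.hermForm 3 F q u v := g.2 u v

theorem shape (hF : SqField F q) {g : ↥(Cfsg.SU 3 F q)} (hg : mat g *ᵥ ev F = ev F) :
    ∃ s a : F, mat g = !![1 + s, s, a ^ q; s, 1 + s, a ^ q; a, a, 1] := by
  set M := mat g with hM
  have h0 := congrFun hg 0
  have h1 := congrFun hg 1
  have h2 := congrFun hg 2
  have h0' := form g (Pi.single 0 1) (ev F)
  have h1' := form g (Pi.single 1 1) (ev F)
  have h2' := form g (Pi.single 2 1) (ev F)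
  have h20 := form g (Pi.single 2 1) (Pi.single 0 1)
  rw [hg] at h0' h1' h2'
  have hd : M.det = 1 := (g : Matrix.SpecialLinearGroup (Fin 3) F).2
  simp only [← hM, ev, hermForm, Matrix.mulVec, dotProduct, Fin.sum_univ_three, Pi.single_apply,
    Fin.isValue, zero_pow hF.q_ne_zero, one_pow, mul_zero, mul_one, add_zero, Matrix.cons_val_zero,
    Matrix.cons_val_one, Matrix.cons_val] at h0 h1 h2 h0' h1' h2' h20
  simp [zero_pow hF.q_ne_zero] at h0' h1' h2' h20
  have e00 : M 0 0 = 1 + M 1 0 := by linear_combination h0' - (CharTwo.add_self_eq_zero (M 1 0))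
  have e01 : M 0 1 = M 1 0 := by
    linear_combination h0 - h0' + (CharTwo.add_self_eq_zero (M 1 0)) - (CharTwo.add_self_eq_zero (M 1 0))
  have e11 : M 1 1 = 1 + M 1 0 := by linear_combination h1 - (CharTwo.add_self_eq_zero (M 1 0))
  have e12 : M 1 2 = M 0 2 := (CharTwo.add_eq_zero.1 h2').symm
  have e21 : M 2 1 = M 2 0 := (CharTwo.add_eq_zero.1 h2).symm
  have e22 : M 2 2 = 1 := by
    rw [Matrix.det_fin_three, e00, e01, e11, e12, e21] at hd
    linear_combination hd - (M 1 0 * M 2 2 - M 0 2 * M 2 0) * (CharTwo.two_eq_zero (R := F))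
  have e02 : M 0 2 = M 2 0 ^ q := by
    rw [e00, e12, e22, hF.add_pow, one_pow] at h20
    refine CharTwo.add_eq_zero.1 ?_
    linear_combination h20 - (M 0 2 * M 1 0 ^ q) * (CharTwo.two_eq_zero (R := F))
  refine ⟨M 1 0, M 2 0, Matrix.ext fun i j => ?_⟩
  fin_cases i <;> fin_cases j <;> simp [e00, e01, e02, e11, e12, e21, e22]

theorem pow_four_eq_one (hF : SqField F q) {g : ↥(Cfsg.SU 3 F q)} (hg : mat g *ᵥ ev F = ev F) :
    g ^ 4 = 1 := by
  obtain ⟨s, a, hM⟩ := shape hF hg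
  have h2 : mat g * mat g =
      !![1 + a * a ^ q, a * a ^ q, 0; a * a ^ q, 1 + a * a ^ q, 0; 0, 0, 1] := by
    rw [hM]
    ext i j
    fin_cases i <;> fin_cases j <;>
      simp [Matrix.mul_apply, Fin.sum_univ_three] <;>
      (ring_nf <;> simp [Uni.numerals, CharTwo.neg_eq])
  refine Subtype.ext (Subtype.ext ?_)
  show mat (g ^ 4) = 1
  have h4 : mat (g ^ 4) = (mat g * mat g) * (mat g * mat g) := by
    rw [show g ^ 4 = g ^ 2 * g ^ 2 from pow_add g 2 2, sq]; rfl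
  rw [h4, h2]
  ext i j
  fin_cases i <;> fin_cases j <;>
    simp [Matrix.mul_apply, Fin.sum_univ_three] <;>
    (ring_nf <;> simp [Uni.numerals, CharTwo.neg_eq])

theorem eq_one_of_two_pow {c : F} {k : ℕ} (h : c ^ 2 ^ k = 1) : c = 1 := by
  haveI : Fact (Nat.Prime 2) := ⟨Nat.prime_two⟩
  exact iterateFrobenius_inj F 2 k (by simpa [iterateFrobenius_def] using h)

theorem pow_mulVec {g : ↥(Cfsg.SU 3 F q)} {c : F} {v : Fin 3 → F} (h : mat g *ᵥ v = c • v) (n : ℕ) :
    mat (g ^ n) *ᵥ v = c ^ n • v := by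
  induction n with
  | zero => rw [pow_zero, pow_zero, one_smul]; exact Matrix.one_mulVec v
  | succ n ih =>
    rw [pow_succ, show mat (g ^ n * g) = mat (g ^ n) * mat g from rfl, ← Matrix.mulVec_mulVec, h,
      Matrix.mulVec_smul, ih, smul_smul, pow_succ, mul_comm]

/-- A nontrivial element fixing `ev` fixes no other isotropic point. -/
theorem fixed_point (hF : SqField F q) {g : ↥(Cfsg.SU 3 F q)} (hg : mat g *ᵥ ev F = ev F)
    (hg1 : g ≠ 1) {v : Fin 3 → F} (hv : Cfsg.hermForm 3 F q v v = 0) (hgv : mat g *ᵥ v = v) :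
    ∃ x : F, v = x • ev F := by
  obtain ⟨s, a, hM⟩ := shape hF hg
  rw [hM] at hgv
  have r0 := congrFun hgv 0
  have r2 := congrFun hgv 2
  simp [Matrix.mulVec, dotProduct, Fin.sum_univ_three] at r0 r2
  have hxy : v 0 = v 1 := by
    by_contra hne
    have hs : v 0 + v 1 ≠ 0 := fun e => hne (CharTwo.add_eq_zero.1 e)
    have ha : a = 0 := (mul_eq_zero.1 (show a * (v 0 + v 1) = 0 by linear_combination r2)).resolve_right hs
    have hs0 : s = 0 := by
      rw [ha, zero_pow hF.q_ne_zero] at r0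
      exact (mul_eq_zero.1 (show s * (v 0 + v 1) = 0 by linear_combination r0)).resolve_right hs
    refine hg1 (Subtype.ext (Subtype.ext ?_))
    show mat g = 1
    rw [hM, ha, hs0, zero_pow hF.q_ne_zero, Matrix.one_fin_three]
    simp
  have hz : v 2 = 0 := by
    have h : v 2 * v 2 ^ q = 0 := by
      simp [hermForm, Fin.sum_univ_three, hxy, CharTwo.add_self_eq_zero] at hv
      simpa using hv
    rcases mul_eq_zero.1 h with h | h
    exacts [h, eq_zero_of_pow_eq_zero h]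
  refine ⟨v 0, funext fun i => ?_⟩
  fin_cases i <;> simp [ev, hxy, hz]

theorem uGroup_fix (hF : SqField F q) {g : ↥(Cfsg.SU 3 F q)} (hg : g ∈ Uni.uGroup (F := F) hF) :
    mat g *ᵥ ev F = ev F := by
  obtain ⟨⟨⟨a, b⟩, hp⟩, rfl⟩ := hg
  show Uni.uMatrix q (a, b) *ᵥ ev F = ev F
  funext i
  fin_cases i <;> simp [Uni.uMatrix, ev, Matrix.mulVec, dotProduct, Fin.sum_univ_three,
    CharTwo.add_self_eq_zero, add_assoc] <;>
    (try linear_combination (a + a ^ q + b) * (CharTwo.two_eq_zero (R := F)))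

/-- The 2-elements normalising a nontrivial 2-subgroup generate a group of exponent four. -/
theorem su_mul_pow_four {n : ℕ} (hn : n ≠ 0) (hF : Fintype.card F = (2 ^ n) ^ 2)
    {V : Subgroup ↥(Cfsg.SU 3 F (2 ^ n))} (hV : IsPGroup 2 V) (hV1 : V ≠ ⊥)
    {t₁ t₂ : ↥(Cfsg.SU 3 F (2 ^ n))} (h₁ : ∀ x ∈ V, t₁ * x * t₁⁻¹ ∈ V)
    (h₂ : ∀ x ∈ V, t₂ * x * t₂⁻¹ ∈ V) {k₁ k₂ : ℕ} (o₁ : t₁ ^ 2 ^ k₁ = 1) (o₂ : t₂ ^ 2 ^ k₂ = 1) :
    (t₁ * t₂) ^ 4 = 1 := by
  haveI : Fact (Nat.Prime 2) := ⟨Nat.prime_two⟩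
  have hS := sqField_of_fintype hF
  obtain ⟨S, hSR⟩ := Uni.eq_sylow_of_card (m := n * 3) (Uni.uGroup (F := F) hS)
    (by rw [Uni.card_uGroup hS, ← pow_mul])
    (by rw [pow_succ', pow_mul]; exact Uni.not_dvd_card_SU hn hF)
  obtain ⟨T, hT⟩ := hV.exists_le_sylow
  obtain ⟨c, hc⟩ := MulAction.exists_smul_eq ↥(Cfsg.SU 3 F (2 ^ n)) T S
  set σ := MulAut.conj c with hσ
  have hfix : ∀ x ∈ V, mat (σ x) *ᵥ ev F = ev F := fun x hx => uGroup_fix hS (by
    rw [← hSR, ← hc]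
    exact smul_mem_pointwise_smul _ _ _ (hT hx))
  have key : ∀ t : ↥(Cfsg.SU 3 F (2 ^ n)), (∀ x ∈ V, t * x * t⁻¹ ∈ V) → ∀ k : ℕ, t ^ 2 ^ k = 1 →
      mat (σ t) *ᵥ ev F = ev F := by
    intro t ht k ok
    obtain ⟨v, hv, hv1⟩ := (Subgroup.bot_or_exists_ne_one V).resolve_left hV1
    have hiso : Cfsg.hermForm 3 F (2 ^ n) (mat (σ t) *ᵥ ev F) (mat (σ t) *ᵥ ev F) = 0 := by
      rw [form]
      simp [hermForm, ev, Fin.sum_univ_three, zero_pow hS.q_ne_zero, CharTwo.add_self_eq_zero]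
    have hmove : mat (σ (t * v * t⁻¹)) *ᵥ (mat (σ t) *ᵥ ev F) = mat (σ t) *ᵥ ev F := by
      rw [Matrix.mulVec_mulVec,
        show mat (σ (t * v * t⁻¹)) * mat (σ t) = mat (σ (t * v * t⁻¹) * σ t) from rfl, ← map_mul,
        inv_mul_cancel_right, map_mul,
        show mat (σ t * σ v) = mat (σ t) * mat (σ v) from rfl, ← Matrix.mulVec_mulVec, hfix v hv]
    obtain ⟨x, hx⟩ := fixed_point hS (hfix _ (ht v hv))
      (fun e => hv1 (conj_eq_one_iff.1 ((map_eq_one_iff σ σ.injective).1 e))) hiso hmove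
    have hp := pow_mulVec hx (2 ^ k)
    rw [← map_pow, ok, map_one, show mat (1 : ↥(Cfsg.SU 3 F (2 ^ n))) = 1 from rfl,
      Matrix.one_mulVec] at hp
    have hx1 : x ^ 2 ^ k = 1 := by
      have := congrFun hp 0
      simpa [ev] using this.symm
    rw [hx, eq_one_of_two_pow hx1, one_smul]
  have h : mat (σ (t₁ * t₂)) *ᵥ ev F = ev F := by
    rw [map_mul, show mat (σ t₁ * σ t₂) = mat (σ t₁) * mat (σ t₂) from rfl, ← Matrix.mulVec_mulVec,
      key t₂ h₂ k₂ o₂, key t₁ h₁ k₁ o₁]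
  have h4 := pow_four_eq_one hS h
  rw [← map_pow] at h4
  exact (map_eq_one_iff σ σ.injective).1 h4

end SU

/-- The Klein subgroup of `S₄`. -/
def klein : Subgroup S4 where
  carrier := {g | g * g = 1 ∧ Equiv.Perm.sign g = 1}
  one_mem' := by simp
  mul_mem' := @fun a b => by revert a b; decide +kernel
  inv_mem' := @fun a => by revert a; decide +kernel

theorem klein_normal : klein.Normal :=
  ⟨fun a (ha : a * a = 1 ∧ Equiv.Perm.sign a = 1) g => by
    show _ ∧ _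
    revert a g; decide +kernel⟩

/-- No section `S₄` when 2-elements normalising a 2-subgroup generate exponent four. -/
theorem not_four_of_exp {G : Type*} [Group G] [Finite G]
    (h : ∀ V : Subgroup G, IsPGroup 2 V → V ≠ ⊥ → ∀ t₁ t₂ : G, (∀ x ∈ V, t₁ * x * t₁⁻¹ ∈ V) →
      (∀ x ∈ V, t₂ * x * t₂⁻¹ ∈ V) → ∀ k₁ k₂ : ℕ, t₁ ^ 2 ^ k₁ = 1 → t₂ ^ 2 ^ k₂ = 1 →
      (t₁ * t₂) ^ 4 = 1) : ¬ Cfsg.Involves S4 G := by
  haveI : Fact (Nat.Prime 2) := ⟨Nat.prime_two⟩
  intro hi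
  obtain ⟨A, f, hf⟩ := EvenLocal.exists_surjective_of_involves hi
  set M := klein.comap f with hM
  haveI : M.Normal := klein_normal.comap f
  obtain ⟨P⟩ : Nonempty (Sylow 2 M) := inferInstance
  set W := (P : Subgroup M).map M.subtype with hW
  set V := W.map A.subtype with hV
  have hVp : IsPGroup 2 V := (P.2.map _).map _
  have hVne : V ≠ ⊥ := by
    rw [hV, Ne, map_eq_bot_iff_of_injective _ A.subtype_injective, hW,
      map_eq_bot_iff_of_injective _ M.subtype_injective]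
    refine P.ne_bot_of_dvd_card (dvd_trans ?_ (card_dvd_of_surjective (f.subgroupComap klein)
      (f.subgroupComap_surjective_of_surjective klein hf)))
    show 2 ∣ Nat.card {g : S4 // g * g = 1 ∧ Equiv.Perm.sign g = 1}
    rw [Nat.card_eq_fintype_card]
    decide +kernel
  have frat : ∀ σ : S4, ∃ t ∈ normalizer (W : Set A), σ⁻¹ * f t ∈ klein := by
    intro σ
    obtain ⟨a, rfl⟩ := hf σ
    obtain ⟨t, ht, m, hm, rfl⟩ : ∃ t ∈ normalizer (W : Set A), ∃ m ∈ M, t * m = a :=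
      Subgroup.mem_sup_of_normal_right.1 ((Sylow.normalizer_sup_eq_top P).ge (mem_top a))
    refine ⟨t, ht, ?_⟩
    rw [map_mul, mul_inv_rev, mul_assoc, inv_mul_cancel, mul_one]
    exact klein.inv_mem hm
  have two : ∀ σ : S4, (∀ a : S4, σ⁻¹ * a ∈ klein → a ^ 4 = 1 ∧ σ⁻¹ * a ^ 3 ∈ klein) →
      ∃ (t : A) (k : ℕ), t ^ 2 ^ k = 1 ∧ σ⁻¹ * f t ∈ klein ∧ ∀ x ∈ V, (t : G) * x * (t : G)⁻¹ ∈ V := by
    intro σ hσ
    obtain ⟨t, ht, htσ⟩ := frat σ
    obtain ⟨m, hm, k, hk⟩ := EvenLocal.exists_odd_mul_two_pow t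
    refine ⟨t ^ m, k, by rw [← hk, pow_orderOf_eq_one], ?_, ?_⟩
    · obtain ⟨h4, h3⟩ := hσ _ htσ
      rw [map_pow, ← Nat.div_add_mod m 4, pow_add, pow_mul, h4, one_pow, one_mul]
      rcases (show m % 4 = 1 ∨ m % 4 = 3 by rcases hm with ⟨j, rfl⟩; omega) with e | e <;> rw [e]
      · rwa [pow_one]
      · exact h3
    · rintro _ ⟨w, hw, rfl⟩
      exact ⟨t ^ m * w * (t ^ m)⁻¹, (mem_normalizer_iff.1 (pow_mem ht m) w).1 hw, by simp⟩
  obtain ⟨t₁, k₁, o₁, c₁, n₁⟩ := two (Equiv.swap 0 1) (fun a (ha : _ ∧ _) => by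
    show _ ∧ (_ ∧ _)
    revert a; decide +kernel)
  obtain ⟨t₂, k₂, o₂, c₂, n₂⟩ := two (Equiv.swap 0 2) (fun a (ha : _ ∧ _) => by
    show _ ∧ (_ ∧ _)
    revert a; decide +kernel)
  have h4 := h V hVp hVne t₁ t₂ n₁ n₂ k₁ k₂
    (by rw [← Subgroup.coe_pow, o₁, Subgroup.coe_one]) (by rw [← Subgroup.coe_pow, o₂, Subgroup.coe_one])
  have h4' : (t₁ * t₂) ^ 4 = 1 := Subtype.ext h4
  have hf4 := congrArg f h4'
  rw [map_pow, map_mul, map_one] at hf4
  revert c₁ c₂ hf4
  generalize f t₁ = a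
  generalize f t₂ = b
  show (_ ∧ _) → (_ ∧ _) → _ → False
  revert a b
  decide +kernel

theorem not_four_psu {F : Type} [Field F] [Fintype F] {n : ℕ} (hn : n ≠ 0)
    (hF : Fintype.card F = (2 ^ n) ^ 2) : ¬ Cfsg.Involves S4 (Cfsg.PSU 3 F (2 ^ n)) := by
  haveI := TwoAut.Uni.charP_two hn hF
  intro hi
  refine not_four_of_exp (G := ↥(Cfsg.SU 3 F (2 ^ n))) (fun V hV hV1 t₁ t₂ h₁ h₂ k₁ k₂ o₁ o₂ =>
    su_mul_pow_four hn hF hV hV1 h₁ h₂ o₁ o₂) ?_
  exact EvenLocal.involves_of_involves_image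
    ((QuotientGroup.mk' (center ↥(Cfsg.SU 3 F (2 ^ n)))).comp
      (⊤ : Subgroup ↥(Cfsg.SU 3 F (2 ^ n))).subtype)
    (fun x => by obtain ⟨y, rfl⟩ := QuotientGroup.mk'_surjective _ x; exact ⟨⟨y, mem_top y⟩, rfl⟩) hi

theorem abTwo_j1 : AbTwo ↥Cfsg.Spor.J1 := by
  haveI hfin : Finite ↥Cfsg.Spor.J1 :=
    Nat.finite_of_card_ne_zero (by rw [SporB.J1.card_J1]; norm_num)
  obtain ⟨t, -, ⟨e⟩⟩ := S2131.result
  set C := centralizer ({t} : Set ↥Cfsg.Spor.J1) with hC
  have hcard : Nat.card C = 120 := by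
    rw [Nat.card_congr e.toEquiv, Nat.card_prod, Nat.card_eq_fintype_card, Nat.card_eq_fintype_card]
    decide +kernel
  refine abTwo_of_odd_index C ?_ ((abTwo_prod (abTwo_of_not_eight ?_)).congr e)
  · have h := C.card_mul_index
    rw [hcard, SporB.J1.card_J1] at h
    exact Nat.odd_iff.2 (by omega)
  · rw [Nat.card_eq_fintype_card]
    decide +kernel

theorem abTwo_ree {G : Type*} [Group G] [Finite G] (hG : Cfsg.IsReeType G) : AbTwo G := by
  obtain ⟨-, -, t, K, n, hn, ht, hodd, hprod, F, _, _, hF, ⟨e⟩⟩ := hG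
  obtain ⟨h₁, h₂, hcomm, hinf, hgen⟩ := hprod
  have hK : AbTwo K :=
    (abTwo_of_not_eight (not_eight_psl hF (Or.inl (by
      rw [pow_succ, pow_mul, Nat.mul_mod, Nat.pow_mod]; norm_num)))).congr e
  refine abTwo_of_odd_index _ hodd ?_
  set C := centralizer ({t} : Set G)
  letI : CommGroup ↥(zpowers t) := IsCyclic.commGroup
  let φ : ↥(zpowers t) × K →* C :=
    MonoidHom.mk' (fun p => ⟨(p.1 : G) * p.2, C.mul_mem (h₁ p.1.2) (h₂ p.2.2)⟩) fun p r => by
      apply Subtype.ext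
      show (p.1 : G) * r.1 * ((p.2 : G) * r.2) = (p.1 : G) * p.2 * ((r.1 : G) * r.2)
      rw [mul_assoc, ← mul_assoc (r.1 : G), hcomm _ r.1.2 _ p.2.2, mul_assoc (p.2 : G), ← mul_assoc]
  have hφ : Function.Bijective φ := by
    constructor
    · refine (injective_iff_map_eq_one φ).2 fun p hp => ?_
      have h : (p.1 : G) * p.2 = 1 := congrArg Subtype.val hp
      have h1 : (p.1 : G) = 1 := Subgroup.mem_bot.1 (hinf.le
        ⟨p.1.2, by rw [eq_inv_of_mul_eq_one_left h]; exact K.inv_mem p.2.2⟩)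
      rw [h1, one_mul] at h
      exact Prod.ext (Subtype.ext h1) (Subtype.ext h)
    · rintro ⟨x, hx⟩
      have hsup : x ∈ zpowers t ⊔ K := hgen.ge hx
      rw [← SetLike.mem_coe, Subgroup.coe_mul_of_left_le_normalizer_right] at hsup
      · obtain ⟨a, ha, b, hb, rfl⟩ := hsup
        exact ⟨(⟨a, ha⟩, ⟨b, hb⟩), rfl⟩
      · intro a ha
        rw [mem_normalizer_iff]
        intro b
        constructor
        · intro hb
          rw [hcomm a ha b hb, mul_inv_cancel_right]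
          exact hb
        · intro hb
          have := hcomm a ha _ hb
          have e : a * (a * b * a⁻¹) * a⁻¹ = a * b * a⁻¹ := by rw [this, mul_inv_cancel_right]
          rw [mul_right_cancel_iff, mul_right_inj] at e
          rwa [e] at hb
  exact (abTwo_prod hK).congr (MulEquiv.ofBijective φ hφ).symm

/-- Goldschmidt groups are `S₄`-free. -/
theorem not_involves_four {G : Type*} [Group G] [Finite G] (hG : Cfsg.IsGoldschmidtGroup G) :
    ¬ Cfsg.Involves (Equiv.Perm (Fin 4)) G := by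
  rcases hG with h | ⟨F, _, _, n, hn, hF, ⟨e⟩⟩ | ⟨F, _, _, m, hm, hF, ⟨e⟩⟩ |
    ⟨F, _, _, n, hn, hF, ⟨e⟩⟩ | ⟨F, _, _, q, hF, -, hq, ⟨e⟩⟩ | ⟨⟨e⟩⟩
  · exact not_four_of_abTwo (abTwo_ree h)
  · haveI : Fact (Nat.Prime 2) := ⟨Nat.prime_two⟩
    haveI : CharP F 2 := charP_of_card_eq_prime_pow hF
    exact not_four_of_abTwo (abTwo_psl_even.congr e)
  · haveI : Suzuki.SuzukiField F m := ⟨hm, hF⟩
    refine not_four_of_three ?_
    rw [Nat.card_congr e.toEquiv, Suzuki.card_lieSz, mul_assoc]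
    intro h3
    rcases (by norm_num : Nat.Prime 3).dvd_mul.1 h3 with h | h
    · have := Nat.Prime.dvd_of_dvd_pow (by norm_num : Nat.Prime 3) h
      have := Nat.Prime.dvd_of_dvd_pow (by norm_num : Nat.Prime 3) this
      omega
    · rcases (by norm_num : Nat.Prime 3).dvd_mul.1 h with h | h
      · have hmod : (2 ^ (2 * m + 1)) % 3 = 2 := by
          rw [pow_succ, pow_mul, Nat.mul_mod, Nat.pow_mod]; norm_num
        have : ((2 ^ (2 * m + 1)) ^ 2 + 1) % 3 = 2 := by rw [Nat.add_mod, Nat.pow_mod, hmod]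
        omega
      · have hmod : (2 ^ (2 * m + 1)) % 3 = 2 := by
          rw [pow_succ, pow_mul, Nat.mul_mod, Nat.pow_mod]; norm_num
        omega
  · intro hi
    have hF' : Fintype.card F = (2 ^ n) ^ 2 := by
      rw [hF, ← pow_mul, mul_comm, pow_mul]; norm_num
    exact not_four_psu (by omega) hF' (EvenLocal.involves_of_involves_image
      (e.symm.toMonoidHom.comp (⊤ : Subgroup _).subtype)
      (fun x => ⟨⟨e x, mem_top _⟩, e.symm_apply_apply x⟩) hi)
  · exact not_four_of_abTwo ((abTwo_of_not_eight (not_eight_psl hF hq)).congr e)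
  · exact not_four_of_abTwo (abTwo_j1.congr e)

end Cfsg.Agent.ReeSThree
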