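import Cfsg.Agent.ReeSThree.SetupDef
import Cfsg.Agent.S0215
import Cfsg.Agent.Transfer.Fusion

/-!
# Fusion of involutions when a centraliser is `⟨t⟩ × PSL₂(q)`
-/

set_option autoImplicit false
set_option linter.style.haveILetI false
set_option linter.unusedSimpArgs false

namespace Cfsg.Agent.ReeSThree

open Subgroup

universe u v

/-- Transport of the interface along an isomorphism. -/
theorem pslFacts_transport {A : Type u} [Group A] {B : Type v} [Group B] {q : ℕ} (e : A ≃* B)
    (h : PslFacts A q) : PslFacts B q where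
  q_mod := h.q_mod
  three_dvd := h.three_dvd
  q_pow := h.q_pow
  card_K := by rw [← Nat.card_congr e.toEquiv]; exact h.card_K
  invol_conj a b ha hb := by
    have := e.toMonoidHom.map_isConj (h.invol_conj (e.symm a) (e.symm b)
      (by rw [MulEquiv.orderOf_eq, ha]) (by rw [MulEquiv.orderOf_eq, hb]))
    simpa using this
  four a ha := by
    obtain ⟨b, σ, hb, hσ, h1, h2, h3, h4, h5⟩ :=
      h.four (e.symm a) (by rw [MulEquiv.orderOf_eq, ha])
    refine ⟨e b, e σ, by rw [MulEquiv.orderOf_eq, hb], by rw [MulEquiv.orderOf_eq, hσ],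
      e.symm.injective (by simpa using h1), fun h => h2 (by simp [← h]),
      e.symm.injective (by simpa using h3), e.symm.injective (by simpa using h4), fun c hc hc' => ?_⟩
    rcases h5 (e.symm c) (by rw [← map_mul, ← map_mul, hc])
      (e.injective (by simpa using hc')) with h | h | h | h
    · exact Or.inl (e.symm.injective (by simpa using h))
    · exact Or.inr (Or.inl (e.symm.injective h))
    · exact Or.inr (Or.inr (Or.inl (e.symm.injective (by simpa using h))))
    · exact Or.inr (Or.inr (Or.inr (e.symm.injective (by simpa using h))))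
  torus a ha := by
    obtain ⟨hC, O, hO, h1, h2, h3, h4⟩ := h.torus (e.symm a) (by rw [MulEquiv.orderOf_eq, ha])
    have hm : ∀ {x : B}, x ∈ O.map e.toMonoidHom ↔ e.symm x ∈ O := fun {x} =>
      Subgroup.mem_map_equiv
    refine ⟨?_, O.map e.toMonoidHom, ?_, fun x hx => ?_, fun x hx y hy => ?_, fun c hc hodd => ?_,
      fun x hx hx1 => ?_⟩
    · rw [← hC]
      refine Nat.card_congr (e.symm.toEquiv.subtypeEquiv fun x => ?_)
      rw [mem_centralizer_singleton_iff, mem_centralizer_singleton_iff]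
      show _ ↔ e.symm x * e.symm a = e.symm a * e.symm x
      rw [← map_mul, ← map_mul, e.symm.injective.eq_iff]
    · rw [← hO, Subgroup.card_map_of_injective e.injective]
    · exact e.symm.injective (by simpa using h1 _ (hm.1 hx))
    · exact e.symm.injective (by simpa using h2 _ (hm.1 hx) _ (hm.1 hy))
    · exact hm.2 (h3 _ (by rw [← map_mul, ← map_mul, hc]) (by rwa [MulEquiv.orderOf_eq]))
    · obtain ⟨k1, k2, g, k3⟩ := h4 _ (hm.1 hx) (fun h => hx1 (e.symm.injective (by simpa using h)))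
      refine ⟨fun c => ?_, fun g hg => ?_, e g, e.symm.injective (by simpa using k3)⟩
      · rw [hm, hm, map_mul, ← k1, ← map_mul, ← map_mul, e.symm.injective.eq_iff]
      · rw [hm, map_mul, map_mul, map_inv] at hg
        rcases k2 _ hg with h | h
        · exact Or.inl (e.symm.injective (by simpa using h))
        · exact Or.inr (e.symm.injective (by simpa using h))
  three u hu := by
    obtain ⟨U, h1, h2, h3, h4, h5, h6⟩ := h.three (e.symm u) (by rw [MulEquiv.orderOf_eq, hu])
    have hm : ∀ {x : B}, x ∈ U.map e.toMonoidHom ↔ e.symm x ∈ U := fun {x} =>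
      Subgroup.mem_map_equiv
    refine ⟨U.map e.toMonoidHom, hm.2 h1, ?_, fun w hw => ?_, fun x hx y hy => ?_,
      fun w hw hw1 => ?_, ?_⟩
    · rw [Subgroup.card_map_of_injective e.injective, h2]
    · exact e.symm.injective (by simpa using h3 _ (hm.1 hw))
    · exact e.symm.injective (by simpa using h4 _ (hm.1 hx) _ (hm.1 hy))
    · ext x
      rw [hm, ← h5 _ (hm.1 hw) (fun h => hw1 (e.symm.injective (by simpa using h))),
        mem_centralizer_singleton_iff, mem_centralizer_singleton_iff, ← map_mul, ← map_mul,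
        e.symm.injective.eq_iff]
    · rw [← h6, ← Subgroup.map_equiv_normalizer_eq U e, Subgroup.card_map_of_injective e.injective]

/-- Fusion of involutions. -/
theorem fusion_data {G : Type*} [Group G] [Finite G] [IsSimpleGroup G] (hna : ¬ IsMulCommutative G)
    {t : G} {K : Subgroup G} {q : ℕ} (h : Ctr t K) (hK : PslFacts K q) (_hq : 27 ≤ q)
    (hidx : Odd (Subgroup.centralizer ({t} : Set G)).index) :
    AllCtr G q ∧ ∃ r a s : G, Cycle t K r a s := by
  classical
  haveI : Fintype G := Fintype.ofFinite G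
  haveI : Fact (Nat.Prime 2) := ⟨Nat.prime_two⟩
  -- orders
  obtain ⟨m, hm, hKm⟩ : ∃ m, Odd m ∧ Nat.card K = 4 * m := by
    obtain ⟨j, hj⟩ : ∃ j, q = 8 * j + 3 := ⟨q / 8, by have := hK.q_mod; omega⟩
    refine ⟨q * (8 * j ^ 2 + 6 * j + 1), Nat.odd_mul.2 ⟨⟨4 * j + 1, by omega⟩,
      ⟨4 * j ^ 2 + 3 * j, by ring⟩⟩, ?_⟩
    have h1 : q ^ 2 - 1 = 8 * (8 * j ^ 2 + 6 * j + 1) := by
      rw [hj, Nat.sub_eq_iff_eq_add (Nat.one_le_pow _ _ (by omega))]; ring
    have h2 := hK.card_K
    rw [h1] at h2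
    nlinarith [h2]
  obtain ⟨a₀, ha₀⟩ := exists_prime_orderOf_dvd_card' (G := K) 2 (by omega)
  obtain ⟨b₀, σ₀, hb₀, hσ₀, hab, hba, hσa, hσb, hCE⟩ := hK.four a₀ ha₀
  set a : G := (a₀ : G) with hadef
  set b : G := (b₀ : G) with hbdef
  set σ : G := (σ₀ : G) with hσdef
  have cK : ∀ {x y : K}, x = y → (x : G) = (y : G) := fun e => congrArg Subtype.val e
  have hao : orderOf a = 2 := by rw [hadef, orderOf_coe, ha₀]
  have hbo : orderOf b = 2 := by rw [hbdef, orderOf_coe, hb₀]
  have haa : a * a = 1 := by rw [← sq, ← hao, pow_orderOf_eq_one]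
  have hbb : b * b = 1 := by rw [← sq, ← hbo, pow_orderOf_eq_one]
  have hab' : a * b = b * a := cK hab
  have hat : a * t = t * a := h.comm a₀.2
  have hbt : b * t = t * b := h.comm b₀.2
  have hσt : σ * t = t * σ := h.comm σ₀.2
  have hσa' : σ * a * σ⁻¹ = b := cK hσa
  have hσb' : σ * b * σ⁻¹ = a * b := cK hσb
  have hσt' : σ * t * σ⁻¹ = t := by rw [hσt, mul_inv_cancel_right]
  have ha1 : a ≠ 1 := by intro e; rw [e, orderOf_one] at hao; omega
  have hb1 : b ≠ 1 := by intro e; rw [e, orderOf_one] at hbo; omega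
  have ht1 : t ≠ 1 := by intro e; have := h.orderOf_t; rw [e, orderOf_one] at this; omega
  have hba' : b ≠ a := fun e => hba (Subtype.ext e)
  have hab1 : a * b ≠ 1 := fun e => hba' (by
    rw [← inv_eq_of_mul_eq_one_right e, inv_eq_of_mul_eq_one_right haa])
  have haba : a * b ≠ a := fun e => hb1 (mul_left_cancel (e.trans (mul_one a).symm))
  have habb : a * b ≠ b := fun e => ha1 (mul_right_cancel (e.trans (one_mul b).symm))
  -- the elementary group of order eight
  set T : Subgroup G := centralizer ({t, a, b} : Set G) with hT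
  have hTmem : ∀ {g : G}, g ∈ T ↔ g * t = t * g ∧ g * a = a * g ∧ g * b = b * g := by
    intro g
    simp only [hT, mem_centralizer_iff, Set.mem_insert_iff, Set.mem_singleton_iff, forall_eq_or_imp,
      forall_eq]
    exact ⟨fun ⟨p, r, s⟩ => ⟨p.symm, r.symm, s.symm⟩, fun ⟨p, r, s⟩ => ⟨p.symm, r.symm, s.symm⟩⟩
  let F : Finset G := {1, a, b, a * b, t, t * a, t * b, t * (a * b)}
  have htT : t ∈ T := hTmem.2 ⟨rfl, hat.symm, hbt.symm⟩
  have haT : a ∈ T := hTmem.2 ⟨hat, rfl, hab'⟩
  have hbT : b ∈ T := hTmem.2 ⟨hbt, hab'.symm, rfl⟩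
  have hF : ∀ g, g ∈ T ↔ g ∈ F := by
    intro g
    constructor
    · intro hg
      obtain ⟨h1, h2, h3⟩ := hTmem.1 hg
      rcases h.decomp g h1 with hk | hk
      · rcases hCE ⟨g, hk⟩ (Subtype.ext h2) (Subtype.ext h3) with e | e | e | e <;>
          replace e := cK e <;> simp only [Subgroup.coe_one, Subgroup.coe_mul] at e <;>
          simp [F, e, ← hadef, ← hbdef]
      · have hg' : g = t * (t * g) := by rw [← mul_assoc, h.sq, one_mul]
        rcases hCE ⟨t * g, hk⟩ (Subtype.ext (show t * g * a = a * (t * g) by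
            rw [mul_assoc, h2, ← mul_assoc, ← hat, mul_assoc]))
          (Subtype.ext (show t * g * b = b * (t * g) by
            rw [mul_assoc, h3, ← mul_assoc, ← hbt, mul_assoc])) with e | e | e | e <;>
          replace e := cK e <;> simp only [Subgroup.coe_one, Subgroup.coe_mul] at e <;>
          rw [hg', e] <;> simp [F, ← hadef, ← hbdef]
    · intro hg
      simp only [F, Finset.mem_insert, Finset.mem_singleton] at hg
      rcases hg with rfl | rfl | rfl | rfl | rfl | rfl | rfl | rfl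
      · exact T.one_mem
      all_goals first
        | assumption
        | exact T.mul_mem haT hbT
        | exact T.mul_mem htT haT
        | exact T.mul_mem htT hbT
        | exact T.mul_mem htT (T.mul_mem haT hbT)
  have hKne : ∀ {k k' : G}, k ∈ K → k' ∈ K → t * k ≠ k' := fun hk hk' e =>
    h.t_mul_notMem hk (e ▸ hk')
  have hcardF : F.card = 8 := by
    have aK : a ∈ K := a₀.2
    have bK : b ∈ K := b₀.2
    have abK : a * b ∈ K := K.mul_mem aK bK
    have oK : (1 : G) ∈ K := K.one_mem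
    have tne : ∀ {k : G}, k ∈ K → t ≠ k := fun hk e => h.notMem (e ▸ hk)
    have l : ∀ {x y : G}, x ≠ y → t * x ≠ t * y := fun hxy e => hxy (mul_left_cancel e)
    have l1 : ∀ {x : G}, x ≠ 1 → t * x ≠ t := fun hx e => hx (mul_left_cancel (e.trans (mul_one t).symm))
    simp [F, Finset.card_insert_of_notMem, ha1.symm, hb1.symm, hab1.symm, hba'.symm, haba.symm,
      habb.symm, ht1.symm, (tne aK).symm, (tne bK).symm, (tne abK).symm, (hKne aK oK).symm,
      (hKne bK oK).symm, (hKne abK oK).symm, (hKne aK aK).symm, (hKne bK aK).symm,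
      (hKne abK aK).symm, (hKne aK bK).symm, (hKne bK bK).symm, (hKne abK bK).symm,
      (hKne aK abK).symm, (hKne bK abK).symm, (hKne abK abK).symm, (l1 ha1).symm, (l1 hb1).symm,
      (l1 hab1).symm, l hba'.symm, l haba.symm, l habb.symm]
  have hcardT : Nat.card T = 8 := by
    rw [Nat.card_congr (Equiv.subtypeEquivRight hF), Nat.card_eq_fintype_card, Fintype.card_coe,
      hcardF]
  have hfac : Nat.card T = 2 ^ (Nat.card G).factorization 2 := by
    have hG : Nat.card G = 2 ^ 3 * (m * (centralizer ({t} : Set G)).index) := by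
      rw [← card_mul_index (centralizer ({t} : Set G)), h.card_C, hKm]; ring
    have hodd : ¬ 2 ∣ m * (centralizer ({t} : Set G)).index :=
      fun hd => Nat.not_even_iff_odd.2 (hm.mul hidx) (even_iff_two_dvd.2 hd)
    rw [hcardT, hG, Nat.factorization_mul (by norm_num) (fun e => hodd (by rw [e]; exact dvd_zero 2)),
      Finsupp.add_apply, Nat.factorization_eq_zero_of_not_dvd hodd,
      Nat.Prime.factorization_pow Nat.prime_two, Finsupp.single_eq_same]
    norm_num
  let S : Sylow 2 G := Sylow.ofCard T hfac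
  have hS : (S : Subgroup G) = T := Sylow.coe_ofCard T hfac
  have hcomm : ∀ x ∈ T, ∀ y ∈ T, x * y = y * x := by
    intro x hx y hy
    obtain ⟨h1, h2, h3⟩ := hTmem.1 hx
    have gen : ∀ z ∈ ({1, a, b, a * b, t, t * a, t * b, t * (a * b)} : Finset G),
        Commute x z := by
      have c1 : Commute x t := h1
      have c2 : Commute x a := h2
      have c3 : Commute x b := h3
      simp only [Finset.mem_insert, Finset.mem_singleton, forall_eq_or_imp, forall_eq]
      exact ⟨Commute.one_right x, c2, c3, c2.mul_right c3, c1, c1.mul_right c2, c1.mul_right c3,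
        c1.mul_right (c2.mul_right c3)⟩
    exact gen y ((hF y).1 hy)
  have hburn : ∀ x ∈ T, ∀ g : G, g * x * g⁻¹ ∈ T →
      ∃ n ∈ normalizer (T : Set G), n * x * n⁻¹ = g * x * g⁻¹ := by
    intro x hx g hg
    obtain ⟨n, hn, e⟩ := Transfer.controlsFusion_normalizer_of_abelian S
      ⟨⟨fun u v => Subtype.ext (hcomm _ (hS ▸ u.2) _ (hS ▸ v.2))⟩⟩ x (hS.symm ▸ hx) g (hS.symm ▸ hg)
    rw [hS] at hn
    exact ⟨n, hn, e⟩
  -- t moves
  obtain ⟨n₀, hn₀, hn₀t⟩ : ∃ n ∈ normalizer (T : Set G), n * t * n⁻¹ ≠ t := by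
    by_contra hno
    push Not at hno
    obtain ⟨N, hN, hNodd, hNc⟩ := S0215.result S t h.orderOf_t (hS.symm ▸ htT : t ∈ (S : Subgroup G))
      (fun g hg => by
        obtain ⟨n, hn, e⟩ := hburn t htT g (hS ▸ hg)
        rw [← e]; exact hno n hn)
    rcases IsSimpleGroup.eq_bot_or_eq_top_of_normal N hN with rfl | rfl
    · have htc : t ∈ center G := Subgroup.mem_center_iff.2 fun g => by
        have hg := Subgroup.mem_bot.1 (hNc g)
        rw [mul_inv_eq_one, mul_inv_eq_iff_eq_mul] at hg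
        exact hg.symm
      rcases IsSimpleGroup.eq_bot_or_eq_top_of_normal (center G) inferInstance with hc | hc
      · exact ht1 (Subgroup.mem_bot.1 (hc ▸ htc))
      · exact hna (Subgroup.center_eq_top_iff.1 hc)
    · rw [Subgroup.card_top] at hNodd
      exact Nat.not_even_iff_odd.2 hNodd (even_iff_two_dvd.2
        (h.orderOf_t ▸ orderOf_dvd_natCard t))
  -- the orbit of t
  letI : MulAction (normalizer (T : Set G)) G :=
    MulAction.compHom G ((MulAut.conj (G := G)).comp (normalizer (T : Set G)).subtype)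
  have hsm : ∀ (n : normalizer (T : Set G)) (x : G), n • x = (n : G) * x * (n : G)⁻¹ :=
    fun n x => rfl
  set Ω : Set G := MulAction.orbit (normalizer (T : Set G)) t with hΩ
  have hΩmem : ∀ {x}, x ∈ Ω ↔ ∃ n ∈ normalizer (T : Set G), n * t * n⁻¹ = x :=
    ⟨fun ⟨n, hn⟩ => ⟨n, n.2, hn⟩, fun ⟨n, hn, e⟩ => ⟨⟨n, hn⟩, e⟩⟩
  have hΩodd : Odd Ω.ncard := by
    rw [← MulAction.index_stabilizer]
    have hle : T.subgroupOf (normalizer (T : Set G)) ≤
        MulAction.stabilizer (normalizer (T : Set G)) t := fun n hn => by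
      rw [MulAction.mem_stabilizer_iff, hsm]
      show (n : G) * t * (n : G)⁻¹ = t
      rw [hcomm (n : G) hn t htT, mul_inv_cancel_right]
    have hTodd : ¬ 2 ∣ T.index := hS ▸ S.not_dvd_index
    refine Nat.not_even_iff_odd.1 fun he => hTodd ?_
    exact ((even_iff_two_dvd.1 he).trans (index_dvd_of_le hle)).trans
      (relIndex_dvd_index_of_le le_normalizer)
  have hΩT : ∀ x ∈ Ω, x ∈ T := fun x hx => by
    obtain ⟨n, hn, rfl⟩ := hΩmem.1 hx
    exact (Subgroup.mem_normalizer_iff.1 hn t).1 htT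
  have hσN : σ ∈ normalizer (T : Set G) := by
    refine mem_normalizer_iff.2 ?_
    have hmap : T.map (MulAut.conj σ).toMonoidHom = T := by
      refine Subgroup.eq_of_le_of_card_ge ?_
        (le_of_eq (Subgroup.card_map_of_injective (MulAut.conj σ).injective).symm)
      rintro _ ⟨x, hx, rfl⟩
      have hx' := (hF x).1 hx
      simp only [F, Finset.mem_insert, Finset.mem_singleton] at hx'
      show σ * x * σ⁻¹ ∈ T
      have e : ∀ y z : G, σ * (y * z) * σ⁻¹ = (σ * y * σ⁻¹) * (σ * z * σ⁻¹) := fun y z => by group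
      rcases hx' with rfl | rfl | rfl | rfl | rfl | rfl | rfl | rfl
      · rw [mul_one, mul_inv_cancel]; exact T.one_mem
      all_goals simp only [e, hσa', hσb', hσt']
      all_goals simp [T.mul_mem_cancel_left htT, htT, haT, hbT, T.mul_mem haT hbT,
        T.mul_mem hbT (T.mul_mem haT hbT)]
    intro x
    constructor
    · intro hx
      rw [← hmap]
      exact ⟨x, hx, rfl⟩
    · intro hx
      rw [← hmap] at hx
      obtain ⟨y, hy, e⟩ := hx
      simp only [MulEquiv.coe_toMonoidHom, MulAut.conj_apply] at e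
      rwa [← mul_left_cancel (mul_right_cancel e)]
  have hstep : ∀ x ∈ Ω, σ * x * σ⁻¹ ∈ Ω := fun x hx => by
    obtain ⟨n, hn, rfl⟩ := hΩmem.1 hx
    exact hΩmem.2 ⟨σ * n, mul_mem hσN hn, by group⟩
  have hσab : σ * (a * b) * σ⁻¹ = a := by
    rw [show σ * (a * b) * σ⁻¹ = (σ * a * σ⁻¹) * (σ * b * σ⁻¹) by group, hσa', hσb', ← mul_assoc,
      ← hab', mul_assoc, hbb, mul_one]
  have cyc : ∀ k : G, k * σ = σ * k → (k * a ∈ Ω ∨ k * b ∈ Ω ∨ k * (a * b) ∈ Ω) →
      k * a ∈ Ω ∧ k * b ∈ Ω ∧ k * (a * b) ∈ Ω := by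
    intro k hk
    have e : ∀ y, σ * (k * y) * σ⁻¹ = k * (σ * y * σ⁻¹) := fun y => by
      rw [← mul_assoc σ k y, ← hk]; simp only [mul_assoc]
    have s1 : k * a ∈ Ω → k * b ∈ Ω := fun hx => by have := hstep _ hx; rwa [e, hσa'] at this
    have s2 : k * b ∈ Ω → k * (a * b) ∈ Ω := fun hx => by
      have := hstep _ hx; rwa [e, hσb'] at this
    have s3 : k * (a * b) ∈ Ω → k * a ∈ Ω := fun hx => by
      have := hstep _ hx; rwa [e, hσab] at this
    rintro (hx | hx | hx)
    · exact ⟨hx, s1 hx, s2 (s1 hx)⟩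
    · exact ⟨s3 (s2 hx), hx, s2 hx⟩
    · exact ⟨s3 hx, s1 (s3 hx), hx⟩
  have htΩ : t ∈ Ω := MulAction.mem_orbit_self t
  have h1Ω : (1 : G) ∉ Ω := fun h1 => by
    obtain ⟨n, -, e⟩ := hΩmem.1 h1
    exact ht1 (conj_eq_one_iff.1 e)
  have hall : (a ∈ Ω ∧ b ∈ Ω ∧ a * b ∈ Ω) ∧ (t * a ∈ Ω ∧ t * b ∈ Ω ∧ t * (a * b) ∈ Ω) := by
    have cA := fun hx => cyc 1 (by rw [one_mul, mul_one]) hx
    simp only [one_mul] at cA
    have cT := fun hx => cyc t hσt.symm hx
    have hlist : ∀ x ∈ Ω, x = t ∨ x = a ∨ x = b ∨ x = a * b ∨ x = t * a ∨ x = t * b ∨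
        x = t * (a * b) := fun x hx => by
      have := (hF x).1 (hΩT x hx)
      simp only [F, Finset.mem_insert, Finset.mem_singleton] at this
      rcases this with e | e | e | e | e | e | e | e
      · exact absurd (e ▸ hx) h1Ω
      all_goals simp [e]
    have aK : a ∈ K := a₀.2
    have bK : b ∈ K := b₀.2
    have abK : a * b ∈ K := K.mul_mem aK bK
    have tne : ∀ {k : G}, k ∈ K → t ≠ k := fun hk e => h.notMem (e ▸ hk)
    by_cases hA : a ∈ Ω ∨ b ∈ Ω ∨ a * b ∈ Ω
    · by_cases hB : t * a ∈ Ω ∨ t * b ∈ Ω ∨ t * (a * b) ∈ Ω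
      · exact ⟨cA hA, cT hB⟩
      exfalso
      obtain ⟨p1, p2, p3⟩ := cA hA
      push Not at hB
      have e : Ω = (({t, a, b, a * b} : Finset G) : Set G) := Set.ext fun x => by
        simp only [Finset.coe_insert, Finset.coe_singleton, Set.mem_insert_iff,
          Set.mem_singleton_iff]
        refine ⟨fun hx => ?_, ?_⟩
        · rcases hlist x hx with e | e | e | e | e | e | e
          exacts [Or.inl e, Or.inr (Or.inl e), Or.inr (Or.inr (Or.inl e)),
            Or.inr (Or.inr (Or.inr e)), absurd (e ▸ hx) hB.1, absurd (e ▸ hx) hB.2.1,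
            absurd (e ▸ hx) hB.2.2]
        · rintro (rfl | rfl | rfl | rfl) <;> assumption
      rw [e, Set.ncard_coe_finset] at hΩodd
      simp [Finset.card_insert_of_notMem, tne aK, tne bK, tne abK, hba'.symm, haba.symm,
        habb.symm] at hΩodd
      exact absurd hΩodd (by decide)
    · exfalso
      obtain ⟨x, hx, hxt⟩ : ∃ x ∈ Ω, x ≠ t := ⟨_, hΩmem.2 ⟨n₀, hn₀, rfl⟩, hn₀t⟩
      push Not at hA
      have hB : t * a ∈ Ω ∨ t * b ∈ Ω ∨ t * (a * b) ∈ Ω := by
        rcases hlist x hx with e | e | e | e | e | e | e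
        exacts [absurd e hxt, absurd (e ▸ hx) hA.1, absurd (e ▸ hx) hA.2.1,
          absurd (e ▸ hx) hA.2.2, Or.inl (e ▸ hx), Or.inr (Or.inl (e ▸ hx)),
          Or.inr (Or.inr (e ▸ hx))]
      obtain ⟨p1, p2, p3⟩ := cT hB
      have l : ∀ {x y : G}, x ≠ y → t * x ≠ t * y := fun hxy e => hxy (mul_left_cancel e)
      have l1 : ∀ {x : G}, x ≠ 1 → t ≠ t * x := fun hx e =>
        hx (mul_left_cancel (e.symm.trans (mul_one t).symm))
      have e : Ω = (({t, t * a, t * b, t * (a * b)} : Finset G) : Set G) := Set.ext fun x => by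
        simp only [Finset.coe_insert, Finset.coe_singleton, Set.mem_insert_iff,
          Set.mem_singleton_iff]
        refine ⟨fun hx => ?_, ?_⟩
        · rcases hlist x hx with e | e | e | e | e | e | e
          exacts [Or.inl e, absurd (e ▸ hx) hA.1, absurd (e ▸ hx) hA.2.1,
            absurd (e ▸ hx) hA.2.2, Or.inr (Or.inl e), Or.inr (Or.inr (Or.inl e)),
            Or.inr (Or.inr (Or.inr e))]
        · rintro (rfl | rfl | rfl | rfl) <;> assumption
      rw [e, Set.ncard_coe_finset] at hΩodd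
      simp [Finset.card_insert_of_notMem, l1 ha1, l1 hb1, l1 hab1, l hba'.symm, l haba.symm,
        l habb.symm] at hΩodd
      exact absurd hΩodd (by decide)
  obtain ⟨⟨haΩ, hbΩ, habΩ⟩, htaΩ, htbΩ, htabΩ⟩ := hall
  refine ⟨?_, ?_⟩
  · intro s hs
    have hs2 : IsPGroup 2 (zpowers s) :=
      IsPGroup.of_card (n := 1) (by rw [Nat.card_zpowers, hs, pow_one])
    obtain ⟨P, hP⟩ := hs2.exists_le_sylow
    obtain ⟨c, hc⟩ := MulAction.exists_smul_eq G P S
    have hcs : c * s * c⁻¹ ∈ T := by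
      rw [← hS, ← hc, Sylow.coe_subgroup_smul]
      exact Subgroup.smul_mem_pointwise_smul s (MulAut.conj c) P.1 (hP (mem_zpowers s))
    have hΩs : c * s * c⁻¹ ∈ Ω := by
      have hx := (hF _).1 hcs
      simp only [F, Finset.mem_insert, Finset.mem_singleton] at hx
      rcases hx with e | e | e | e | e | e | e | e
      · exact absurd (conj_eq_one_iff.1 e) (by rintro rfl; simp at hs)
      all_goals rw [e]; assumption
    obtain ⟨n, -, hn⟩ := hΩmem.1 hΩs
    obtain ⟨g, hg⟩ : ∃ g : G, g * t * g⁻¹ = s := ⟨c⁻¹ * n, by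
      rw [show c⁻¹ * n * t * (c⁻¹ * n)⁻¹ = c⁻¹ * (n * t * n⁻¹) * c by group, hn]; group⟩
    refine ⟨K.map (MulAut.conj g).toMonoidHom, ⟨hs, ?_, ?_, fun x hx => ?_⟩,
      pslFacts_transport (K.equivMapOfInjective _ (MulAut.conj g).injective) hK⟩
    · rintro _ ⟨k, hk, rfl⟩
      rw [mem_centralizer_singleton_iff]
      show g * k * g⁻¹ * s = s * (g * k * g⁻¹)
      rw [← hg, show g * k * g⁻¹ * (g * t * g⁻¹) = g * (k * t) * g⁻¹ by group, h.comm hk]
      group
    · rw [← hg]
      rintro ⟨k, hk, e⟩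
      simp only [MulEquiv.coe_toMonoidHom, MulAut.conj_apply] at e
      exact h.notMem (mul_left_cancel (mul_right_cancel e) ▸ hk)
    · have hx' : g⁻¹ * x * g * t = t * (g⁻¹ * x * g) := by
        calc g⁻¹ * x * g * t = g⁻¹ * (x * (g * t * g⁻¹)) * g := by group
          _ = g⁻¹ * ((g * t * g⁻¹) * x) * g := by rw [hg, hx]
          _ = t * (g⁻¹ * x * g) := by group
      rcases h.decomp _ hx' with hk | hk
      · exact Or.inl ⟨_, hk, by simp [mul_assoc]⟩
      · exact Or.inr ⟨_, hk, by simp [← hg, mul_assoc]⟩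
  · obtain ⟨n₁, hn₁, hn₁a⟩ := hΩmem.1 haΩ
    set n := n₁⁻¹ with hndef
    have hnN : n ∈ normalizer (T : Set G) := inv_mem hn₁
    have hna : n * a * n⁻¹ = t := by rw [← hn₁a, hndef]; group
    set x := n * b * n⁻¹ with hx
    set s := n * t * n⁻¹ with hs
    set r := n * σ * n⁻¹ with hr
    have conj2 : ∀ y z : G, (n * y * n⁻¹) * (n * z * n⁻¹) = n * (y * z) * n⁻¹ := fun y z => by group
    have hconj : ∀ y : G, r * (n * y * n⁻¹) * r⁻¹ = n * (σ * y * σ⁻¹) * n⁻¹ := fun y => by
      rw [hr]; group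
    have hr3 : orderOf r = 3 := by
      rw [hr, show n * σ * n⁻¹ = MulAut.conj n σ from rfl, MulEquiv.orderOf_eq, hσdef, orderOf_coe,
        hσ₀]
    have r1 : r * t * r⁻¹ = x := by
      have := hconj a; rwa [hna, hσa', ← hx] at this
    have r2 : r * x * r⁻¹ = t * x := by
      rw [hx, hconj, hσb', ← conj2, hna]
    have hxT : x ∈ T := (Subgroup.mem_normalizer_iff.1 hnN b).1 hbT
    have hxo : orderOf x = 2 := by
      rw [hx, show n * b * n⁻¹ = MulAut.conj n b from rfl, MulEquiv.orderOf_eq, hbo]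
    have hxt : x * t = t * x := hcomm _ hxT _ htT
    have htxo : orderOf (t * x) = 2 := by
      rw [← r2, show r * x * r⁻¹ = MulAut.conj r x from rfl, MulEquiv.orderOf_eq, hxo]
    have hso : orderOf s = 2 := by
      rw [hs, show n * t * n⁻¹ = MulAut.conj n t from rfl, MulEquiv.orderOf_eq, h.orderOf_t]
    have hsT : s ∈ T := (Subgroup.mem_normalizer_iff.1 hnN t).1 htT
    have hsr : s * r = r * s := by rw [hs, hr, conj2, conj2, hσt]
    have cn : ∀ {y z : G}, n * y * n⁻¹ = n * z * n⁻¹ → y = z := fun e =>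
      mul_left_cancel (mul_right_cancel e)
    have s1 : s ≠ t := fun e => h.notMem (by
      have : t = a := cn (e.trans hna.symm)
      rw [this]; exact a₀.2)
    have s2 : s ≠ x := fun e => h.notMem (by
      have : t = b := cn e
      rw [this]; exact b₀.2)
    have s3 : s ≠ t * x := fun e => h.notMem (by
      have : t = a * b := cn (by rw [← hs, e, ← conj2, hna])
      rw [this]; exact K.mul_mem a₀.2 b₀.2)
    rcases h.decomp x hxt with hk | hk
    · exact ⟨r, x, s, ⟨hr3, hk, hxo, r1, r2, hso, ⟨s1, s2, s3⟩, hcomm _ hsT _ htT,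
        hcomm _ hsT _ hxT, hsr⟩⟩
    · have r3 : r * (t * x) * r⁻¹ = t := by
        rw [show r * (t * x) * r⁻¹ = (r * t * r⁻¹) * (r * x * r⁻¹) by group, r1, r2, ← mul_assoc,
          hxt, mul_assoc, show x * x = 1 by rw [← sq, ← hxo, pow_orderOf_eq_one], mul_one]
      refine ⟨r⁻¹, t * x, s, ⟨by rw [orderOf_inv, hr3], hk, htxo, ?_, ?_, hso,
        ⟨s1, s3, by rw [← mul_assoc, h.sq, one_mul]; exact s2⟩, hcomm _ hsT _ htT,
        hcomm _ hsT _ (T.mul_mem htT hxT), (show Commute s r from hsr).inv_right⟩⟩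
      · rw [inv_inv]; conv_lhs => rw [← r3]
        group
      · rw [inv_inv, ← mul_assoc t t x, h.sq, one_mul, ← r2]
        group

end Cfsg.Agent.ReeSThree
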