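import Cfsg.Agent.ReeSThree.KCharsBase

/-!
# The virtual characters of `PSL₂(q)` induced from `U` and `O`

With `B = N(U)` and `P = Ind ψ + Ind ψ̄`, all inner products follow by reciprocity from the
fusion in `U` and in `O`.
-/

set_option autoImplicit false
set_option linter.unusedSectionVars false
set_option linter.style.haveILetI false

noncomputable section

namespace Cfsg.Agent.ReeSThree

universe u

namespace KC

open scoped ComplexConjugate
open Subgroup Finset Cfsg.Agent.CharInd Cfsg.Agent.SingerTI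

variable {K : Type u} [Group K] [Fintype K]

/-- The facts used. -/
structure Data (q o : ℕ) (U O N : Subgroup K) (a : K) : Prop where
  q_mod : q % 8 = 3
  three_dvd : 3 ∣ q
  card_K : Nat.card K * 2 = q * (q ^ 2 - 1)
  card_U : Nat.card U = q
  cube : ∀ w ∈ U, w ^ 3 = 1
  commU : ∀ x ∈ U, ∀ y ∈ U, x * y = y * x
  centU : ∀ w ∈ U, w ≠ 1 → ∀ c : K, c * w = w * c ↔ c ∈ U
  normU : ∀ x : K, x ∈ N ↔ x ∈ normalizer (U : Set K)
  card_N : Nat.card N * 2 = q * (q - 1)
  card_O : Nat.card O = o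
  o_eq : o * 4 = q + 1
  commO : ∀ x ∈ O, ∀ y ∈ O, x * y = y * x
  centO : ∀ x ∈ O, x ≠ 1 → ∀ c : K, c * x = x * c ↔ c ∈ O ∨ c * a ∈ O
  conjO : ∀ x ∈ O, x ≠ 1 → ∀ g : K, g * x * g⁻¹ ∈ O → g * x * g⁻¹ = x ∨ g * x * g⁻¹ = x⁻¹
  invO : ∀ x ∈ O, x ≠ 1 → ∃ g : K, g * x * g⁻¹ = x⁻¹
  a_notMem : a ∉ O

theorem inv_ne {A : Type u} [Group A] {f : A →* ℂˣ} (hf : f ≠ 1) : f⁻¹ ≠ 1 := by
  intro e
  apply hf
  ext x
  have h := DFunLike.congr_fun e x
  simp only [MonoidHom.inv_apply, MonoidHom.one_apply, inv_eq_one] at h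
  simp [h]

theorem linFun_conj {A : Type u} [Group A] [Fintype A] (f : A →* ℂˣ) :
    (fun h => conj (linFun f h)) = linFun (f⁻¹) := by
  funext h
  rw [← Cfsg.Agent.Char.irr_inv (linFun_isIrr f) h]
  simp [linFun]

variable {q o : ℕ} {U O N : Subgroup K} {a : K} (D : Data q o U O N a)

include D

namespace Data

theorem o_odd : Odd o := by
  obtain ⟨k, hk⟩ : ∃ k, q = 8 * k + 3 := ⟨q / 8, by have := D.q_mod; omega⟩
  exact ⟨k, by have := D.o_eq; omega⟩

theorem q_odd : Odd q := Nat.odd_iff.2 (by have := D.q_mod; omega)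

theorem N_odd : Odd (Nat.card N) := by
  obtain ⟨k, hk⟩ : ∃ k, q = 8 * k + 3 := ⟨q / 8, by have := D.q_mod; omega⟩
  have h : Nat.card N = q * (4 * k + 1) := by
    have h1 := D.card_N
    rw [show q - 1 = 2 * (4 * k + 1) by omega] at h1
    rw [mul_comm 2 (4 * k + 1), ← mul_assoc] at h1
    exact Nat.eq_of_mul_eq_mul_right two_pos h1
  rw [h]
  exact D.q_odd.mul ⟨2 * k, by ring⟩

theorem q_two_le : 3 ≤ q := by have := D.q_mod; omega

theorem cast_K : (Nat.card K : ℂ) * 2 = (q : ℂ) * ((q : ℂ) ^ 2 - 1) := by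
  have h := congrArg (Nat.cast : ℕ → ℂ) D.card_K
  rw [Nat.cast_mul, Nat.cast_mul, Nat.cast_sub (Nat.one_le_pow _ _ (by have := D.q_two_le; omega))]
    at h
  simpa using h

theorem cast_N : (Nat.card N : ℂ) * 2 = (q : ℂ) * ((q : ℂ) - 1) := by
  have h := congrArg (Nat.cast : ℕ → ℂ) D.card_N
  rw [Nat.cast_mul, Nat.cast_mul, Nat.cast_sub (by have := D.q_two_le; omega)] at h
  simpa using h

theorem cast_o : (o : ℂ) * 4 = (q : ℂ) + 1 := by exact_mod_cast congrArg (Nat.cast : ℕ → ℂ) D.o_eq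

theorem q_ne : (q : ℂ) ≠ 0 := Nat.cast_ne_zero.2 (by have := D.q_two_le; omega)

theorem o_ne : (o : ℂ) ≠ 0 := Nat.cast_ne_zero.2 (by have := D.o_eq; omega)

theorem index_U : (U.index : ℂ) * q = (Nat.card K : ℂ) := by
  rw [← D.card_U]; exact_mod_cast U.index_mul_card

theorem index_O : (O.index : ℂ) * o = (Nat.card K : ℂ) := by
  rw [← D.card_O]; exact_mod_cast O.index_mul_card

theorem index_N : (N.index : ℂ) = (q : ℂ) + 1 := by
  have h : (N.index : ℂ) * (Nat.card N : ℂ) = (Nat.card K : ℂ) := by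
    exact_mod_cast N.index_mul_card
  have hN : (Nat.card N : ℂ) ≠ 0 := Nat.cast_ne_zero.2 Nat.card_pos.ne'
  refine mul_right_cancel₀ hN ?_
  linear_combination h + (1 / 2 : ℂ) * D.cast_K - ((q : ℂ) + 1) / 2 * D.cast_N

theorem U_le : U ≤ N := fun x hx => (D.normU x).2 (le_normalizer hx)

theorem conj_mem {x v : K} (hx : x ∈ N) (hv : v ∈ U) : x⁻¹ * v * x ∈ U := by
  have h := (mem_normalizer_iff.1 (inv_mem ((D.normU x).1 hx)) v).1 hv
  rwa [inv_inv] at h

theorem mem_N_of_conj {x v : K} (hv : v ∈ U) (h1 : v ≠ 1) (h : x⁻¹ * v * x ∈ U) : x ∈ N := by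
  have h1' : x⁻¹ * v * x ≠ 1 := fun e => h1 (by
    rw [show v = x * (x⁻¹ * v * x) * x⁻¹ by group, e]; group)
  rw [D.normU, mem_normalizer_iff]
  intro c
  rw [← D.centU v hv h1 (x * c * x⁻¹), ← D.centU _ h h1' c]
  constructor
  · intro e
    calc x * c * x⁻¹ * v = x * (c * (x⁻¹ * v * x)) * x⁻¹ := by group
      _ = x * (x⁻¹ * v * x * c) * x⁻¹ := by rw [e]
      _ = v * (x * c * x⁻¹) := by group
  · intro e
    calc c * (x⁻¹ * v * x) = x⁻¹ * (x * c * x⁻¹ * v) * x := by group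
      _ = x⁻¹ * (v * (x * c * x⁻¹)) * x := by rw [e]
      _ = x⁻¹ * v * x * c := by group

/-- An element of exponent three in `N` lies in `U`. -/
theorem mem_U_of_cube {z : K} (hz : z ∈ N) (h3 : z ^ 3 = 1) : z ∈ U := by
  haveI : (U.subgroupOf N).Normal := by
    refine ⟨fun v hv x => ?_⟩
    rw [Subgroup.mem_subgroupOf] at hv ⊢
    simpa using D.conj_mem (inv_mem x.2) hv
  have h2 : (QuotientGroup.mk (⟨z, hz⟩ : N) : N ⧸ U.subgroupOf N) ^ 3 = 1 := by
    rw [← QuotientGroup.mk_pow, QuotientGroup.eq_one_iff, Subgroup.mem_subgroupOf]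
    simp [h3]
  have h1 := pow_card_eq_one' (x := (QuotientGroup.mk (⟨z, hz⟩ : N) : N ⧸ U.subgroupOf N))
  have hi : Nat.card (N ⧸ U.subgroupOf N) * q = Nat.card N := by
    rw [← D.card_U, ← Nat.card_congr (Subgroup.subgroupOfEquivOfLe D.U_le).toEquiv]
    exact (U.subgroupOf N).index_mul_card
  have hcop : Nat.Coprime 3 (Nat.card (N ⧸ U.subgroupOf N)) := by
    rw [Nat.prime_three.coprime_iff_not_dvd]
    have h := D.card_N
    rw [← hi, mul_comm q, mul_assoc, mul_comm q, ← mul_assoc] at h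
    have h' := Nat.eq_of_mul_eq_mul_right (by have := D.q_two_le; omega) h
    intro hd
    have hd2 : 3 ∣ q - 1 := h' ▸ dvd_mul_of_dvd_left hd 2
    have := D.three_dvd
    have := D.q_two_le
    omega
  have h3' := pow_gcd_eq_one.2 ⟨h2, h1⟩
  rw [hcop.gcd_eq_one, pow_one, QuotientGroup.eq_one_iff] at h3'
  exact h3'

theorem card_centU {w : K} (hw : w ∈ U) (h1 : w ≠ 1) : Nat.card {c : K // c * w = w * c} = q := by
  rw [← D.card_U]
  exact Nat.card_congr (Equiv.subtypeEquivRight fun c => D.centU w hw h1 c)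

theorem card_centO {x : K} (hx : x ∈ O) (h1 : x ≠ 1) :
    Nat.card {c : K // c * x = x * c} = 2 * o := by
  classical
  have e : {c : K // c * x = x * c} ≃ {c : K // c ∈ O} ⊕ {c : K // c * a ∈ O} :=
    (Equiv.subtypeEquivRight fun c => D.centO x hx h1 c).trans
      (subtypeOrEquiv _ _ (by
        rw [disjoint_iff_inf_le]
        intro c hc
        exact D.a_notMem (by simpa using mul_mem (inv_mem hc.1) hc.2)))
  rw [Nat.card_congr e, Nat.card_sum, Nat.card_congr
    (Equiv.subtypeEquiv (Equiv.mulRight a) fun c => Iff.rfl :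
      {c : K // c * a ∈ O} ≃ {c : K // c ∈ O})]
  change Nat.card O + Nat.card O = _
  rw [D.card_O]; ring

/-! ### Values on `U` -/

theorem fib_U {w v : K} (hw : w ∈ U) (h1 : w ≠ 1) : fib w v = 0 ∨ fib w v = q := by
  by_cases h : ∃ x : K, x⁻¹ * w * x = v
  · obtain ⟨x, hx⟩ := h
    exact Or.inr ((fib_eq hx).trans (D.card_centU hw h1))
  · exact Or.inl (fib_eq_zero fun x hx => h ⟨x, hx⟩)

theorem fib_pair {w : K} (hw : w ∈ U) (h1 : w ≠ 1) (v : U) (hv : v ≠ 1) :
    fib w v + fib w (v⁻¹ : U) = q := by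
  classical
  letI : Fintype U := Fintype.ofFinite U
  have hv1 : fib w ((1 : U) : K) = 0 := fib_eq_zero fun x e => h1 (by
    rw [show w = x * (x⁻¹ * w * x) * x⁻¹ by group, e, Subgroup.coe_one]; group)
  have hsum : ∑ z : U, fib w z = Nat.card N := by
    rw [sum_fib]
    exact Nat.card_congr (Equiv.subtypeEquivRight fun x =>
      ⟨fun h => D.mem_N_of_conj hw h1 h, fun h => D.conj_mem h hw⟩)
  have hsum' : ∑ z : U, fib w (z⁻¹ : U) = Nat.card N := by
    rw [← hsum]
    exact Fintype.sum_equiv (Equiv.inv U) _ _ fun z => rfl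
  have hle : ∀ z : U, fib w z + fib w (z⁻¹ : U) ≤ q := by
    intro z
    rcases D.fib_U (v := (z : K)) hw h1 with h | h
    · rcases D.fib_U (v := ((z⁻¹ : U) : K)) hw h1 with h' | h' <;> omega
    · rcases D.fib_U (v := ((z⁻¹ : U) : K)) hw h1 with h' | h'
      · omega
      · exfalso
        obtain ⟨x, hx⟩ : ∃ x : K, x⁻¹ * w * x = z := by
          by_contra hc
          rw [fib_eq_zero fun x e => hc ⟨x, e⟩] at h
          have := D.q_two_le; omega
        obtain ⟨y, hy⟩ : ∃ y : K, y⁻¹ * w * y = (z : K)⁻¹ := by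
          by_contra hc
          rw [show ((z⁻¹ : U) : K) = (z : K)⁻¹ from rfl, fib_eq_zero fun x e => hc ⟨x, e⟩] at h'
          have := D.q_two_le; omega
        have hxN := D.mem_N_of_conj hw h1 (hx ▸ z.2)
        have hyN := D.mem_N_of_conj hw h1 (hy ▸ inv_mem z.2)
        have hg : (y * x⁻¹)⁻¹ * w * (y * x⁻¹) = w⁻¹ := by
          calc (y * x⁻¹)⁻¹ * w * (y * x⁻¹) = x * (y⁻¹ * w * y) * x⁻¹ := by group
            _ = x * (x⁻¹ * w * x)⁻¹ * x⁻¹ := by rw [hy, hx]
            _ = w⁻¹ := by group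
        set g := y * x⁻¹ with hgdef
        have hgg : g * g ∈ U := by
          rw [← D.centU w hw h1]
          have e1 : w * g = g * w⁻¹ := by
            calc w * g = g * (g⁻¹ * w * g) := by group
              _ = g * w⁻¹ := by rw [hg]
          have e2 : w⁻¹ * g = g * w := by
            calc w⁻¹ * g = g * (g⁻¹ * w * g)⁻¹ := by group
              _ = g * w := by rw [hg, inv_inv]
          calc g * g * w = g * (g * w) := mul_assoc _ _ _
            _ = g * w⁻¹ * g := by rw [← e2]; exact (mul_assoc _ _ _).symm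
            _ = w * (g * g) := by rw [← e1]; exact mul_assoc _ _ _
        have hgU : g ∈ U := mem_of_sq_mem D.N_odd (mul_mem hyN (inv_mem hxN)) hgg
        rw [mul_assoc, ← D.commU g hgU w hw, inv_mul_cancel_left] at hg
        exact h1 (eq_one_of_coprime (m := 3) (n := 2) (by norm_num) (D.cube w hw)
          (by rw [pow_two]; nth_rewrite 2 [hg]; simp))
  have htot : ∑ z : U, (fib w z + fib w (z⁻¹ : U)) = ∑ z : U, (if z = 1 then 0 else q) := by
    rw [Finset.sum_add_distrib, hsum, hsum', Finset.sum_ite, Finset.sum_const_zero,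
      Finset.sum_const, zero_add, smul_eq_mul, Finset.filter_ne' Finset.univ (1 : U),
      Finset.card_erase_of_mem (Finset.mem_univ _), Finset.card_univ, ← Nat.card_eq_fintype_card,
      D.card_U, mul_comm (q - 1)]
    have := D.card_N
    omega
  have hpw : ∀ z ∈ (Finset.univ : Finset U),
      fib w z + fib w (z⁻¹ : U) ≤ if z = 1 then 0 else q := by
    intro z _
    split_ifs with hz
    · subst hz; rw [inv_one, hv1]
    · exact hle z
  have := (Finset.sum_eq_sum_iff_of_le hpw).1 htot v (Finset.mem_univ _)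
  rwa [if_neg hv] at this

variable [Fintype U]

theorem ind_U_one (F : U → ℂ) : Cfsg.indFun U F 1 = (U.index : ℂ) * F 1 := indFun_one_apply U F

/-- Twice the value on `U`, for an even function. -/
theorem ind_U_even (F : U → ℂ) (hF : ∀ v, F v⁻¹ = F v) {w : K} (hw : w ∈ U) (h1 : w ≠ 1) :
    2 * Cfsg.indFun U F w = ∑ v : U, F v - F 1 := by
  classical
  have hc := card_mul_ind U F w
  rw [D.card_U] at hc
  have hc' : (q : ℂ) * Cfsg.indFun U F w = ∑ v : U, (fib w (v⁻¹ : U) : ℂ) * F v := by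
    rw [hc]
    exact Fintype.sum_equiv (Equiv.inv U) _ _ fun v => by simp [hF]
  have hv1 : fib w ((1 : U) : K) = 0 := fib_eq_zero fun x e => h1 (by
    rw [show w = x * (x⁻¹ * w * x) * x⁻¹ by group, e, Subgroup.coe_one]; group)
  refine mul_left_cancel₀ D.q_ne ?_
  rw [mul_comm 2, ← mul_assoc, mul_two]
  conv_lhs => arg 1; rw [hc]
  rw [hc', ← Finset.sum_add_distrib,
    show (∑ v : U, F v) - F 1 = ∑ v ∈ Finset.univ.erase (1 : U), F v from
      (Finset.sum_erase_eq_sub (Finset.mem_univ _)).symm, Finset.mul_sum]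
  rw [← Finset.sum_erase_add _ _ (Finset.mem_univ (1 : U))]
  rw [show ((fib w ((1 : U) : K) : ℕ) : ℂ) * F 1 + (fib w ((1 : U)⁻¹ : U) : ℂ) * F 1 = 0 by
    rw [inv_one, hv1]; simp, add_zero]
  refine Finset.sum_congr rfl fun v hv => ?_
  rw [← add_mul, ← Nat.cast_add, D.fib_pair hw h1 v (Finset.ne_of_mem_erase hv)]

/-- Even functions with equal sums and degrees induce equally. -/
theorem ind_U_eq {F F' : U → ℂ} (hF : ∀ v, F v⁻¹ = F v) (hF' : ∀ v, F' v⁻¹ = F' v)
    (h1 : F 1 = F' 1) (hs : ∑ v : U, F v = ∑ v : U, F' v) :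
    Cfsg.indFun U F = Cfsg.indFun U F' := by
  refine ind_ext fun w hw => ?_
  by_cases hw1 : w = 1
  · rw [hw1, D.ind_U_one, D.ind_U_one, h1]
  · have e := D.ind_U_even F' hF' hw hw1
    rw [← hs, ← h1, ← D.ind_U_even F hF hw hw1] at e
    exact mul_left_cancel₀ two_ne_zero e.symm

/-- `φ` conjugated. -/
def conjHom (φ : U →* ℂˣ) (x : N) : U →* ℂˣ where
  toFun v := φ ⟨(x : K)⁻¹ * v * x, D.conj_mem x.2 v.2⟩
  map_one' := by
    rw [← map_one φ]; exact congrArg φ (Subtype.ext (by simp))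
  map_mul' v w := by
    rw [← map_mul]
    refine congrArg φ (Subtype.ext ?_)
    simp only [Subgroup.coe_mul]
    group

open scoped Classical in
theorem q_sq_inner (ψ φ : U →* ℂˣ) [Fintype N] :
    (q : ℂ) ^ 2 * Cfsg.classInner (Cfsg.indFun U (linFun ψ)) (Cfsg.indFun U (linFun φ)) =
      (q : ℂ) * (#{x : N | ψ = D.conjHom φ x} : ℂ) + ((Nat.card K : ℂ) - Nat.card N) := by
  have hval : ∀ v : U, (q : ℂ) * Cfsg.indFun U (linFun φ) v =
      (∑ x : N, linFun (D.conjHom φ x) v) +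
        if v = 1 then ((Nat.card K : ℂ) - Nat.card N) else 0 := by
    intro v
    by_cases hv : v = 1
    · subst hv
      rw [Subgroup.coe_one, D.ind_U_one, linFun_one_apply, mul_one, if_pos rfl,
        mul_comm, D.index_U]
      simp [linFun_one_apply, Nat.card_eq_fintype_card]
    · rw [if_neg hv, add_zero,
        show (q : ℂ) = (Nat.card U : ℂ) from congrArg Nat.cast D.card_U.symm, card_mul_indFun,
        ← Finset.sum_filter_add_sum_filter_not (s := Finset.univ) (p := fun x : K => x ∈ N)]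
      rw [Finset.sum_eq_zero (s := Finset.univ.filter fun x : K => x ∉ N) fun x hx => ?_, add_zero]
      · rw [Finset.sum_subtype (p := fun x : K => x ∈ N) _ (by simp)]
        refine Finset.sum_congr rfl fun x _ => ?_
        rw [extendByZero_mem U _ (D.conj_mem x.2 v.2)]
        rfl
      · exact extendByZero_notMem U _ fun h => (Finset.mem_filter.1 hx).2
          (D.mem_N_of_conj v.2 (fun e => hv (Subtype.ext e)) h)
  rw [classInner_indFun_left U _ (indFun_isClassFunction U _), pow_two, mul_assoc]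
  rw [show (q : ℂ) * Cfsg.classInner (linFun ψ) (fun h : U => Cfsg.indFun U (linFun φ) h) =
      Cfsg.classInner (linFun ψ) ((∑ x : N, linFun (D.conjHom φ x)) +
        fun v => if v = 1 then ((Nat.card K : ℂ) - Nat.card N) else 0) by
    rw [show ((∑ x : N, linFun (D.conjHom φ x)) +
        fun v : U => if v = 1 then ((Nat.card K : ℂ) - Nat.card N) else 0) =
        (q : ℂ) • fun h : U => Cfsg.indFun U (linFun φ) h by
      funext v; simp [hval, Finset.sum_apply], classInner_smul_right]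
    simp]
  rw [classInner_add_right, CharInd.classInner_sum_right, mul_add]
  simp only [classInner_linFun]
  rw [Finset.sum_boole]
  congr 1
  rw [Cfsg.classInner, Finset.sum_eq_single (1 : U) (fun v _ hv => by simp [hv])
    (fun h => absurd (Finset.mem_univ _) h), D.card_U, linFun_one_apply, if_pos rfl, one_mul,
    ← mul_assoc, mul_inv_cancel₀ D.q_ne, one_mul]
  simp

theorem conjHom_ne (ψ : U →* ℂˣ) (hψ : ψ ≠ 1) (x : N) (hx : (x : K) ∉ U) :
    ψ ≠ D.conjHom ψ x := by
  intro he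
  apply hψ
  let T : U → U := fun v => v⁻¹ * ⟨(x : K)⁻¹ * v * x, D.conj_mem x.2 v.2⟩
  have hT : Function.Injective T := by
    intro v w h
    have h' : (v : K)⁻¹ * ((x : K)⁻¹ * v * x) = (w : K)⁻¹ * ((x : K)⁻¹ * w * x) :=
      congrArg Subtype.val h
    by_contra hne
    apply hx
    have hd1 : (w : K)⁻¹ * v ≠ 1 := fun e => hne (Subtype.ext (inv_mul_eq_one.1 e).symm)
    rw [← D.centU _ (mul_mem (inv_mem w.2) v.2) hd1]
    have hc := D.commU (v : K) v.2 (w : K)⁻¹ (inv_mem w.2)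
    have e : (x : K)⁻¹ * ((w : K)⁻¹ * v) * x = (w : K)⁻¹ * v := by
      calc (x : K)⁻¹ * ((w : K)⁻¹ * v) * x
          = ((x : K)⁻¹ * w * x)⁻¹ * (v * ((v : K)⁻¹ * ((x : K)⁻¹ * v * x))) := by group
        _ = ((x : K)⁻¹ * w * x)⁻¹ * (v * (w : K)⁻¹ * ((x : K)⁻¹ * w * x)) := by
              rw [h', ← mul_assoc (v : K)]
        _ = ((x : K)⁻¹ * w * x)⁻¹ * ((x : K)⁻¹ * w * x * ((w : K)⁻¹ * v)) := by
              rw [hc, D.commU _ (mul_mem (inv_mem w.2) v.2) _ (D.conj_mem x.2 w.2)]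
        _ = (w : K)⁻¹ * v := by group
    calc (x : K) * ((w : K)⁻¹ * v) = x * ((x : K)⁻¹ * ((w : K)⁻¹ * v) * x) := by rw [e]
      _ = (w : K)⁻¹ * v * x := by group
  ext v
  obtain ⟨v', hv'⟩ := Finite.surjective_of_injective hT v
  have h1 : ψ v' = ψ ⟨(x : K)⁻¹ * v' * x, D.conj_mem x.2 v'.2⟩ := DFunLike.congr_fun he v'
  rw [← hv']
  simp [T, map_mul, map_inv, ← h1]

theorem conjHom_ne_inv (ψ : U →* ℂˣ) (hψ : ψ ≠ 1) (x : N) : ψ⁻¹ ≠ D.conjHom ψ x := by
  intro he
  by_cases hxx : (x : K) * x ∈ U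
  · have hxU := mem_of_sq_mem D.N_odd x.2 hxx
    apply hψ
    ext v
    have h1 : (ψ v)⁻¹ = ψ ⟨(x : K)⁻¹ * v * x, D.conj_mem x.2 v.2⟩ := DFunLike.congr_fun he v
    rw [show (⟨(x : K)⁻¹ * v * x, D.conj_mem x.2 v.2⟩ : U) = v from Subtype.ext (by
      show (x : K)⁻¹ * v * x = v
      rw [mul_assoc, D.commU v v.2 x hxU, inv_mul_cancel_left])] at h1
    have h3 : ψ v ^ 3 = 1 := by
      rw [← map_pow, show v ^ 3 = 1 from Subtype.ext (D.cube v v.2), map_one]
    have h2 : ψ v * ψ v = 1 := by nth_rewrite 1 [← h1]; exact inv_mul_cancel _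
    rw [pow_succ, pow_two, h2, one_mul] at h3
    simp [h3]
  · refine D.conjHom_ne ψ hψ (x * x) hxx (MonoidHom.ext fun v => ?_)
    have h1 : (ψ v)⁻¹ = ψ ⟨(x : K)⁻¹ * v * x, D.conj_mem x.2 v.2⟩ := DFunLike.congr_fun he v
    have h2 : (ψ ⟨(x : K)⁻¹ * v * x, D.conj_mem x.2 v.2⟩)⁻¹ =
        ψ ⟨(x : K)⁻¹ * ((x : K)⁻¹ * v * x) * x, D.conj_mem x.2 (D.conj_mem x.2 v.2)⟩ :=
      DFunLike.congr_fun he (⟨(x : K)⁻¹ * v * x, D.conj_mem x.2 v.2⟩ : U)
    rw [← h1, inv_inv] at h2
    rw [h2]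
    refine congrArg ψ (Subtype.ext ?_)
    simp only [Subgroup.coe_mul]
    group

open scoped Classical in
theorem inner_same [Fintype N] (ψ : U →* ℂˣ) (hψ : ψ ≠ 1) :
    Cfsg.classInner (Cfsg.indFun U (linFun ψ)) (Cfsg.indFun U (linFun ψ)) = ((q : ℂ) + 1) / 2 := by
  have h := D.q_sq_inner ψ ψ
  have hc : #{x : N | ψ = D.conjHom ψ x} = q := by
    refine Eq.trans ?_ D.card_U
    rw [Nat.card_eq_fintype_card]
    refine (Finset.card_bij (s := (Finset.univ : Finset U))
      (fun u _ => (⟨(u : K), D.U_le u.2⟩ : N)) (fun u _ => ?_)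
      (fun u _ w _ e => Subtype.ext (congrArg Subtype.val e :)) (fun x hx => ?_)).symm
    · simp only [Finset.mem_filter, Finset.mem_univ, true_and]
      refine MonoidHom.ext fun v => congrArg ψ (Subtype.ext ?_)
      show (v : K) = (u : K)⁻¹ * v * u
      rw [mul_assoc, D.commU v v.2 u u.2, inv_mul_cancel_left]
    · refine ⟨⟨(x : K), ?_⟩, Finset.mem_univ _, rfl⟩
      by_contra hxU
      exact D.conjHom_ne ψ hψ x hxU (Finset.mem_filter.1 hx).2
  rw [hc] at h
  refine mul_left_cancel₀ (pow_ne_zero 2 D.q_ne) ?_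
  linear_combination h + (1 / 2 : ℂ) * D.cast_K - (1 / 2 : ℂ) * D.cast_N

open scoped Classical in
theorem inner_inv [Fintype N] (ψ : U →* ℂˣ) (hψ : ψ ≠ 1) :
    Cfsg.classInner (Cfsg.indFun U (linFun ψ⁻¹)) (Cfsg.indFun U (linFun ψ)) =
      ((q : ℂ) - 1) / 2 := by
  have h := D.q_sq_inner ψ⁻¹ ψ
  rw [Finset.filter_eq_empty_iff.2 fun x _ => D.conjHom_ne_inv ψ hψ x, Finset.card_empty,
    Nat.cast_zero, mul_zero, zero_add] at h
  refine mul_left_cancel₀ (pow_ne_zero 2 D.q_ne) ?_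
  linear_combination h + (1 / 2 : ℂ) * D.cast_K - (1 / 2 : ℂ) * D.cast_N

theorem exists_hom : ∃ ψ : U →* ℂˣ, ψ ≠ 1 := by
  haveI : Nontrivial U := Finite.one_lt_card_iff_nontrivial.1 (by
    rw [D.card_U]; have := D.q_two_le; omega)
  obtain ⟨v, hv⟩ := exists_ne (1 : U)
  obtain ⟨χ, hχ⟩ := Cfsg.Agent.Char.exists_irr_ne_degree hv
  obtain ⟨g, hg⟩ := Cfsg.Agent.Char.irr_exists_monoidHom_of_comm
    (fun x y : U => Subtype.ext (D.commU x x.2 y y.2)) χ.2
  exact ⟨g, fun h => hχ (by rw [hg v, hg 1, h]; simp)⟩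

theorem exists_linFun_U {ψ : U → ℂ} (h : Cfsg.IsIrrCharacter U ψ) :
    ∃ f : U →* ℂˣ, ψ = linFun f := by
  obtain ⟨g, hg⟩ := Cfsg.Agent.Char.irr_exists_monoidHom_of_comm
    (fun x y : U => Subtype.ext (D.commU x x.2 y y.2)) h
  exact ⟨g, funext hg⟩

variable [Fintype O]

theorem exists_linFun_O {θ : O → ℂ} (h : Cfsg.IsIrrCharacter O θ) :
    ∃ f : O →* ℂˣ, θ = linFun f := by
  obtain ⟨g, hg⟩ := Cfsg.Agent.Char.irr_exists_monoidHom_of_comm
    (fun x y : O => Subtype.ext (D.commO x x.2 y y.2)) h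
  exact ⟨g, funext hg⟩

/-- The common value of `Ind ψ + Ind ψ̄`. -/
def P (_ : Data q o U O N a) : K → ℂ :=
  Cfsg.indFun U fun v => open Classical in if v = 1 then (2 : ℂ) else -2 / ((q : ℂ) - 1)

theorem P_eq (ψ : U →* ℂˣ) (hψ : ψ ≠ 1) :
    Cfsg.indFun U (linFun ψ) + Cfsg.indFun U (linFun ψ⁻¹) = D.P := by
  classical
  rw [← indFun_add, P]
  refine D.ind_U_eq (fun v => ?_) (fun v => ?_) ?_ ?_
  · simp [linFun, map_inv, add_comm]
  · simp only [inv_eq_one]
  · simp [linFun]; norm_num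
  · rw [Finset.sum_congr rfl (fun v _ => Pi.add_apply (linFun ψ) (linFun ψ⁻¹) v),
      Finset.sum_add_distrib]
    have hψ' : ψ⁻¹ ≠ 1 := inv_ne hψ
    rw [show (∑ v : U, linFun ψ v) = 0 from Cfsg.Agent.Char.monoidHom_sum_eq_zero hψ,
      show (∑ v : U, linFun ψ⁻¹ v) = 0 from Cfsg.Agent.Char.monoidHom_sum_eq_zero hψ',
      Finset.sum_ite, Finset.sum_const, Finset.sum_const, Finset.filter_eq', if_pos
        (Finset.mem_univ _), Finset.card_singleton, Finset.filter_ne' Finset.univ (1 : U),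
      Finset.card_erase_of_mem (Finset.mem_univ _), Finset.card_univ, ← Nat.card_eq_fintype_card,
      D.card_U]
    have hq1 : (q : ℂ) - 1 ≠ 0 := by
      rw [sub_ne_zero]; exact_mod_cast (by have := D.q_two_le; omega : q ≠ 1)
    rw [nsmul_eq_mul, nsmul_eq_mul, Nat.cast_sub (by have := D.q_two_le; omega), Nat.cast_one]
    field_simp
    ring

/-! ### Values of `Ind θ` -/

theorem ind_O_zero (F : O → ℂ) {g : K} {m : ℕ} (hcop : Nat.Coprime o m) (hg : g ^ m = 1)
    (h1 : g ≠ 1) : Cfsg.indFun O F g = 0 := by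
  refine indFun_eq_zero_of_forall O F fun x hx => h1 ?_
  have e1 : (x⁻¹ * g * x) ^ m = 1 := by
    have h := conj_pow (a := x⁻¹) (b := g) (i := m)
    rw [inv_inv, hg, mul_one, inv_mul_cancel] at h
    exact h
  have e2 : (x⁻¹ * g * x) ^ o = 1 := D.card_O ▸ pow_card_mem hx
  have := eq_one_of_coprime hcop e2 e1
  calc g = x * (x⁻¹ * g * x) * x⁻¹ := by group
    _ = 1 := by rw [this]; group

theorem coprime_o_three : Nat.Coprime o 3 := by
  rw [Nat.coprime_comm, Nat.prime_three.coprime_iff_not_dvd]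
  have := D.o_eq; have := D.three_dvd
  omega

theorem ind_O_val (F : O → ℂ) (y : O) (hy : y ≠ 1) :
    Cfsg.indFun O F y = 2 * (F y + F y⁻¹) := by
  classical
  have hyK : (y : K) ≠ 1 := fun e => hy (Subtype.ext e)
  have hne : y ≠ y⁻¹ := by
    intro e
    exact hyK (eq_one_of_coprime (Nat.coprime_two_right.2 D.o_odd)
      (D.card_O ▸ pow_card_mem y.2) (by
        rw [pow_two]; nth_rewrite 2 [congrArg Subtype.val e]; simp))
  have hfib : ∀ v : O, fib (y : K) v = if v = y ∨ v = y⁻¹ then 2 * o else 0 := by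
    intro v
    split_ifs with h
    · rcases h with rfl | rfl
      · exact (fib_eq (x₀ := 1) (by simp)).trans (D.card_centO v.2 hyK)
      · obtain ⟨g, hg⟩ := D.invO y y.2 hyK
        exact (fib_eq (x₀ := g⁻¹) (by simpa using hg)).trans (D.card_centO y.2 hyK)
    · refine fib_eq_zero fun x hx => h ?_
      have hm : x⁻¹ * (y : K) * x⁻¹⁻¹ ∈ O := by rw [inv_inv, hx]; exact v.2
      rcases D.conjO y y.2 hyK x⁻¹ hm with e | e <;> rw [inv_inv, hx] at e
      · exact Or.inl (Subtype.ext e)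
      · exact Or.inr (Subtype.ext e)
  have hc := card_mul_ind O F (y : K)
  rw [D.card_O] at hc
  refine mul_left_cancel₀ D.o_ne ?_
  rw [hc, ← Finset.sum_subset (Finset.subset_univ ({y, y⁻¹} : Finset O)) (fun v _ hv => by
      rw [hfib, if_neg (by simpa [not_or] using hv)]; simp),
    Finset.sum_pair hne, hfib, hfib, if_pos (Or.inl rfl), if_pos (Or.inr rfl)]
  push_cast
  ring

theorem ind_O_conj (f : O →* ℂˣ) :
    Cfsg.indFun O (linFun f⁻¹) = Cfsg.indFun O (linFun f) := by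
  refine ind_ext fun g hg => ?_
  by_cases h : g = 1
  · subst h; simp [indFun_one_apply, linFun]
  · have h' : (⟨g, hg⟩ : O) ≠ 1 := fun e => h (congrArg Subtype.val e)
    have e1 := D.ind_O_val (linFun f⁻¹) ⟨g, hg⟩ h'
    have e2 := D.ind_O_val (linFun f) ⟨g, hg⟩ h'
    simp only at e1 e2
    rw [e1, e2]
    simp [linFun, map_inv, add_comm]

theorem inner_U_O (ψ : U →* ℂˣ) (f : O →* ℂˣ) :
    Cfsg.classInner (Cfsg.indFun U (linFun ψ)) (Cfsg.indFun O (linFun f)) = 2 * ((q : ℂ) - 1) := by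
  rw [classInner_indFun_left U _ (indFun_isClassFunction O _), Cfsg.classInner,
    Finset.sum_eq_single (1 : U) (fun v _ hv => ?_) (fun h => absurd (Finset.mem_univ _) h)]
  · rw [Subgroup.coe_one, indFun_one_apply, linFun_one_apply, linFun_one_apply, mul_one, one_mul,
      Complex.conj_natCast, D.card_U]
    refine mul_left_cancel₀ (mul_ne_zero D.o_ne D.q_ne) ?_
    rw [mul_assoc, ← mul_assoc (q : ℂ), mul_inv_cancel₀ D.q_ne, one_mul]
    linear_combination D.index_O + (1 / 2 : ℂ) * D.cast_K - (q : ℂ) * ((q : ℂ) - 1) / 2 * D.cast_o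
  · rw [D.ind_O_zero _ D.coprime_o_three (D.cube v v.2) (fun e => hv (Subtype.ext e))]
    simp

open scoped Classical in
theorem inner_O_O (f f' : O →* ℂˣ) :
    Cfsg.classInner (Cfsg.indFun O (linFun f)) (Cfsg.indFun O (linFun f')) =
      8 * (q : ℂ) - 16 + (if f = f' then 2 else 0) + (if f = f'⁻¹ then 2 else 0) := by
  rw [classInner_indFun_left O _ (indFun_isClassFunction O _)]
  have hval : (fun h : O => Cfsg.indFun O (linFun f') h) =
      (2 : ℂ) • linFun f' + (2 : ℂ) • linFun f'⁻¹ +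
        fun v => if v = 1 then (O.index : ℂ) - 4 else 0 := by
    funext y
    by_cases hy : y = 1
    · subst hy
      simp only [Subgroup.coe_one, indFun_one_apply, linFun_one_apply, Pi.add_apply,
        Pi.smul_apply, smul_eq_mul, ↓reduceIte]
      ring
    · rw [D.ind_O_val _ y hy]
      simp [hy, linFun, map_inv, mul_add]
  rw [hval, classInner_add_right, classInner_add_right, classInner_smul_right,
    classInner_smul_right, classInner_linFun, classInner_linFun]
  rw [show Cfsg.classInner (linFun f) (fun v : O => if v = 1 then (O.index : ℂ) - 4 else 0) =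
      8 * (q : ℂ) - 16 by
    rw [Cfsg.classInner, Finset.sum_eq_single (1 : O) (fun v _ hv => by simp [hv])
      (fun h => absurd (Finset.mem_univ _) h), D.card_O, linFun_one_apply, if_pos rfl, one_mul,
      map_sub, Complex.conj_natCast, map_ofNat]
    refine mul_left_cancel₀ (mul_ne_zero D.o_ne D.o_ne) ?_
    rw [mul_assoc (o : ℂ) (o : ℂ) ((o : ℂ)⁻¹ * _), ← mul_assoc (o : ℂ) (o : ℂ)⁻¹,
      mul_inv_cancel₀ D.o_ne, one_mul]
    linear_combination D.index_O + (1 / 2 : ℂ) * D.cast_K -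
      (1 + 2 * ((q : ℂ) - 2) * ((o : ℂ) + ((q : ℂ) + 1) / 4)) * D.cast_o]
  split_ifs <;> simp only [map_ofNat] <;> ring

theorem inner_P_U [Fintype N] (ψ : U →* ℂˣ) (hψ : ψ ≠ 1) :
    Cfsg.classInner (Cfsg.indFun U (linFun ψ)) D.P = q := by
  rw [← D.P_eq ψ hψ, classInner_add_right, D.inner_same ψ hψ, ← classInner_swap,
    D.inner_inv ψ hψ]
  simp only [map_div₀, map_sub, Complex.conj_natCast, map_one, map_ofNat]
  ring

theorem inner_P_P [Fintype N] : Cfsg.classInner D.P D.P = 2 * (q : ℂ) := by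
  obtain ⟨ψ, hψ⟩ := D.exists_hom
  have hψ' : ψ⁻¹ ≠ 1 := inv_ne hψ
  nth_rewrite 1 [← D.P_eq ψ hψ]
  rw [classInner_add_left, D.inner_P_U ψ hψ, D.inner_P_U _ hψ']
  ring

theorem inner_P_O (f : O →* ℂˣ) :
    Cfsg.classInner D.P (Cfsg.indFun O (linFun f)) = 4 * ((q : ℂ) - 1) := by
  obtain ⟨ψ, hψ⟩ := D.exists_hom
  rw [← D.P_eq ψ hψ, classInner_add_left, D.inner_U_O, D.inner_U_O]
  ring

open scoped Classical in
theorem inner_phi [Fintype N] (f f' : O →* ℂˣ) :
    Cfsg.classInner (phi O D.P (linFun f)) (phi O D.P (linFun f')) =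
      (if f = f' then 2 else 0) + (if f = f'⁻¹ then 2 else 0) := by
  have h2 : Cfsg.classInner (Cfsg.indFun O (linFun f)) D.P = 4 * ((q : ℂ) - 1) := by
    rw [← classInner_swap, D.inner_P_O, map_mul, map_sub, Complex.conj_natCast, map_one,
      Complex.conj_ofNat]
  simp only [phi, classInner_sub_left, classInner_sub_right, classInner_smul_left,
    classInner_smul_right, D.inner_P_P, D.inner_P_O, h2, D.inner_O_O, map_ofNat]
  ring

/-! ### The constituents of `Ind_U 1` -/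

theorem coprime_o_N : Nat.Coprime o (Nat.card N) := by
  refine Nat.coprime_of_dvd fun r hr hro hrN => ?_
  have h1 : r ∣ q + 1 := D.o_eq ▸ dvd_mul_of_dvd_left hro 4
  have hr2 : r ≠ 2 := fun e => Nat.not_even_iff_odd.2 D.o_odd (even_iff_two_dvd.2 (e ▸ hro))
  have h2 : r ∣ q * (q - 1) := D.card_N ▸ dvd_mul_of_dvd_left hrN 2
  rcases hr.dvd_mul.1 h2 with h | h
  · exact hr.ne_one (Nat.dvd_one.1 ((Nat.dvd_add_right h).1 h1))
  · have h3 := Nat.dvd_sub h1 h
    rw [show q + 1 - (q - 1) = 2 by have := D.q_two_le; omega] at h3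
    exact hr2 ((Nat.prime_dvd_prime_iff_eq hr Nat.prime_two).1 h3)

variable [Fintype N]

/-- The value on `U` of a character induced from `N`. -/
theorem ind_N_val {F : N → ℂ} (hF : Cfsg.IsClassFunction N F) {v : K} (hv : v ∈ U) (h1 : v ≠ 1) :
    Cfsg.indFun N F v = F ⟨v, D.U_le hv⟩ := by
  classical
  have key : ∀ x : K, Cfsg.extendByZero N F (x⁻¹ * v * x) =
      if x ∈ N then F ⟨v, D.U_le hv⟩ else 0 := by
    intro x
    by_cases hx : x ∈ N
    · rw [if_pos hx, ← extendByZero_coe N F ⟨v, D.U_le hv⟩]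
      simpa using extendByZero_conj_mem N hF (N.inv_mem hx) v
    · rw [if_neg hx]
      refine extendByZero_notMem N F fun h => hx (D.mem_N_of_conj hv h1 (D.mem_U_of_cube h ?_))
      have h' := conj_pow (a := x⁻¹) (b := v) (i := 3)
      rw [inv_inv, D.cube v hv, mul_one, inv_mul_cancel] at h'
      exact h'
  rw [indFun_apply]
  simp only [key]
  rw [← Finset.sum_filter, Finset.sum_const, nsmul_eq_mul,
    show #({x : K | x ∈ N} : Finset K) = Nat.card N by
      rw [Nat.card_eq_fintype_card, ← Fintype.card_subtype],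
    inv_mul_cancel_left₀ natCard_ne_zero]

theorem inner_N_U {F : N → ℂ} (hF : Cfsg.IsClassFunction N F)
    (hc : ∀ v (hv : v ∈ U), F ⟨v, D.U_le hv⟩ = F 1) (ψ : U →* ℂˣ) :
    Cfsg.classInner (Cfsg.indFun N F) (Cfsg.indFun U (linFun ψ)) =
      if ψ = 1 then 2 * F 1 else F 1 := by
  classical
  rw [classInner_indFun_right U _ (indFun_isClassFunction N _)]
  have hval : (fun h : U => Cfsg.indFun N F h) =
      F 1 • linFun (1 : U →* ℂˣ) + fun v => if v = 1 then (q : ℂ) * F 1 else 0 := by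
    funext v
    by_cases hv : v = 1
    · subst hv
      simp only [Subgroup.coe_one, indFun_one_apply, D.index_N, Pi.add_apply, Pi.smul_apply,
        linFun_one_apply, smul_eq_mul, ↓reduceIte]
      ring
    · rw [D.ind_N_val hF v.2 (fun e => hv (Subtype.ext e)), hc _ v.2]
      simp [hv, linFun]
  rw [hval, classInner_add_left, classInner_smul_left, classInner_linFun]
  rw [show Cfsg.classInner (fun v : U => if v = 1 then (q : ℂ) * F 1 else 0) (linFun ψ) = F 1 by
    rw [Cfsg.classInner, Finset.sum_eq_single (1 : U) (fun v _ hv => by simp [hv])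
      (fun h => absurd (Finset.mem_univ _) h), D.card_U, linFun_one_apply, if_pos rfl, map_one,
      mul_one, ← mul_assoc, inv_mul_cancel₀ D.q_ne, one_mul]]
  by_cases h : ψ = 1
  · simp [h]; ring
  · simp [h, Ne.symm h]

theorem inner_N_O {F : N → ℂ} (f : O →* ℂˣ) :
    Cfsg.classInner (Cfsg.indFun N F) (Cfsg.indFun O (linFun f)) = 4 * F 1 := by
  rw [classInner_indFun_left N _ (indFun_isClassFunction O _), Cfsg.classInner,
    Finset.sum_eq_single (1 : N) (fun v _ hv => ?_) (fun h => absurd (Finset.mem_univ _) h)]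
  · rw [Subgroup.coe_one, indFun_one_apply, linFun_one_apply, mul_one, Complex.conj_natCast]
    have hN : (Nat.card N : ℂ) ≠ 0 := Nat.cast_ne_zero.2 Nat.card_pos.ne'
    refine mul_left_cancel₀ (mul_ne_zero D.o_ne hN) ?_
    rw [mul_assoc, ← mul_assoc (Nat.card N : ℂ), mul_inv_cancel₀ hN, one_mul]
    linear_combination F 1 * D.index_O + F 1 / 2 * D.cast_K -
      2 * F 1 * (o : ℂ) * D.cast_N - F 1 * (q : ℂ) * ((q : ℂ) - 1) / 2 * D.cast_o
  · rw [D.ind_O_zero _ D.coprime_o_N (pow_card_mem v.2) (fun e => hv (Subtype.ext e))]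
    simp

theorem inner_N_P {F : N → ℂ} (hF : Cfsg.IsClassFunction N F)
    (hc : ∀ v (hv : v ∈ U), F ⟨v, D.U_le hv⟩ = F 1) :
    Cfsg.classInner (Cfsg.indFun N F) D.P = 2 * F 1 := by
  classical
  obtain ⟨ψ, hψ⟩ := D.exists_hom
  rw [← D.P_eq ψ hψ, classInner_add_right, D.inner_N_U hF hc, D.inner_N_U hF hc, if_neg hψ,
    if_neg (inv_ne hψ)]
  ring

theorem borel : ∃ (m : ℕ) (f : Fin m → K → ℂ), ∑ i, f i = Cfsg.indFun U (fun _ => 1) ∧
    ∀ i, Cfsg.IsGeneralizedCharacter K (f i) ∧ (∀ g : K, Even (orderOf g) → f i g = 0) ∧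
      (∃ k : ℕ, k ≤ 2 ∧ Cfsg.classInner (f i) (f i) = k) ∧
      ∀ θ : O → ℂ, Cfsg.IsIrrCharacter O θ →
        Cfsg.classInner (f i) (phi O D.P θ) = 0 := by
  classical
  haveI : Finite (Cfsg.IrrCharacter N) := finite_irrCharacter
  letI := Fintype.ofFinite (Cfsg.IrrCharacter N)
  letI : Fintype (U.subgroupOf N) := Fintype.ofFinite _
  let R : N → ℂ := Cfsg.indFun (U.subgroupOf N) fun _ => 1
  have hR : Cfsg.IsCharacter N R :=
    isCharacter_indFun _ (Cfsg.Agent.Char.isCharacter_of_irr irr_one_const)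
  obtain ⟨c, hc⟩ := isCharacter_coef hR
  haveI hnor : (U.subgroupOf N).Normal := by
    refine ⟨fun v hv x => ?_⟩
    rw [Subgroup.mem_subgroupOf] at hv ⊢
    simpa using D.conj_mem (inv_mem x.2) hv
  have hRval : ∀ v (hv : v ∈ U), R ⟨v, D.U_le hv⟩ = R 1 := by
    intro v hv
    have e : ∀ z : U.subgroupOf N, R (z : N) =
        (Nat.card (U.subgroupOf N) : ℂ)⁻¹ * (Nat.card N : ℂ) := by
      intro z
      simp [R, indFun_normal_mem, Nat.card_eq_fintype_card]
    have e1 := e ⟨⟨v, D.U_le hv⟩, Subgroup.mem_subgroupOf.2 hv⟩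
    have e2 := e 1
    exact e1.trans e2.symm
  have hker : ∀ χ : Cfsg.IrrCharacter N, c χ ≠ 0 → ∀ v (hv : v ∈ U),
      (χ : N → ℂ) ⟨v, D.U_le hv⟩ = (χ : N → ℂ) 1 := by
    intro χ hχ v hv
    have h0 : ∑ ξ : Cfsg.IrrCharacter N, (c ξ : ℝ) *
        (((ξ : N → ℂ) 1).re - ((ξ : N → ℂ) ⟨v, D.U_le hv⟩).re) = 0 := by
      have e1 := congrFun hc 1
      have e2 := congrFun hc ⟨v, D.U_le hv⟩
      rw [hRval v hv, e1] at e2
      have := congrArg Complex.re e2
      simp only [Finset.sum_apply, Pi.smul_apply, smul_eq_mul, Complex.re_sum] at this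
      simp only [mul_sub, Finset.sum_sub_distrib]
      simp only [Complex.mul_re, Complex.natCast_re, Complex.natCast_im, zero_mul, sub_zero]
        at this
      linarith
    have hnn : ∀ ξ : Cfsg.IrrCharacter N,
        0 ≤ ((ξ : N → ℂ) 1).re - ((ξ : N → ℂ) ⟨v, D.U_le hv⟩).re := fun ξ => by
      have := (Complex.re_le_norm _).trans
        (Cfsg.Agent.Char.isCharacter_norm_le (Cfsg.Agent.Char.isCharacter_of_irr ξ.2) ⟨v, D.U_le hv⟩)
      linarith
    have hz := (Finset.sum_eq_zero_iff_of_nonneg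
      (fun ξ _ => mul_nonneg (Nat.cast_nonneg _) (hnn ξ))).1 h0 χ (Finset.mem_univ _)
    rcases mul_eq_zero.1 hz with h | h
    · exact absurd (Nat.cast_eq_zero.1 h) hχ
    · exact eq_one_of_re (Cfsg.Agent.Char.isCharacter_of_irr χ.2) (by linarith)
  have hcd : ∀ χ : Cfsg.IrrCharacter N, c χ ≠ 0 → (c χ : ℂ) = (χ : N → ℂ) 1 := by
    intro χ hχ
    have h1 : Cfsg.classInner R (χ : N → ℂ) = (c χ : ℂ) := by
      rw [hc]; exact classInner_irrSum (fun ξ => (c ξ : ℂ)) χ
    rw [← h1, classInner_indFun_left _ _ (fun g h => Cfsg.Agent.CharInd.genChar_isClassFunction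
      (genChar_irr χ.2) g h), Cfsg.classInner]
    have : ∀ z : U.subgroupOf N, (1 : ℂ) * conj ((χ : N → ℂ) (z : N)) = (χ : N → ℂ) 1 := by
      intro z
      rw [one_mul, show (χ : N → ℂ) (z : N) = (χ : N → ℂ) 1 from
        hker χ hχ ((z : N) : K) z.2]
      obtain ⟨n, -, hn⟩ := Cfsg.Agent.Char.irr_one_pos χ.2
      rw [hn, Complex.conj_natCast]
    rw [Finset.sum_congr rfl fun z _ => this z, Finset.sum_const, Finset.card_univ, nsmul_eq_mul,
      ← Nat.card_eq_fintype_card, inv_mul_cancel_left₀ natCard_ne_zero]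
  let ι := Σ χ : Cfsg.IrrCharacter N, Fin (c χ)
  let e : Fin (Fintype.card ι) ≃ ι := (Fintype.equivFin ι).symm
  refine ⟨Fintype.card ι, fun i => Cfsg.indFun N (e i).1, ?_, fun i => ?_⟩
  · rw [Equiv.sum_comp e (fun j : ι => Cfsg.indFun N (j.1 : N → ℂ)), Fintype.sum_sigma]
    simp only [Finset.sum_const, Finset.card_univ, Fintype.card_fin]
    rw [← indFun_indFun U N D.U_le (fun _ => (1 : ℂ))]
    show _ = Cfsg.indFun N R
    rw [hc, indFun_sum]
    refine Finset.sum_congr rfl fun χ _ => ?_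
    rw [indFun_smul, Nat.cast_smul_eq_nsmul]
  · simp only
    generalize e i = z
    obtain ⟨χ, j⟩ := z
    dsimp only
    have hχ : c χ ≠ 0 := by have := j.2; omega
    have hcf : Cfsg.IsClassFunction N (χ : N → ℂ) := genChar_isClassFunction (genChar_irr χ.2)
    refine ⟨genChar_indFun N (genChar_irr χ.2), fun g hg => ?_, ?_, fun θ hθ => ?_⟩
    · refine indFun_eq_zero_of_forall N _ fun x hx => ?_
      have h1 : orderOf g ∣ Nat.card N := by
        apply orderOf_dvd_of_pow_eq_one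
        have h := conj_pow (a := x⁻¹) (b := g) (i := Nat.card N)
        rw [inv_inv, pow_card_mem hx] at h
        calc g ^ Nat.card N = x * (x⁻¹ * g ^ Nat.card N * x) * x⁻¹ := by group
          _ = 1 := by rw [← h]; group
      exact Nat.not_even_iff_odd.2 (D.N_odd.of_dvd_nat h1) hg
    · -- norm at most two
      have hnat : ∀ ξ : Cfsg.IrrCharacter N, ∃ k : ℕ, Cfsg.classInner
          (Cfsg.indFun N (χ : N → ℂ)) (Cfsg.indFun N (ξ : N → ℂ)) = k := fun ξ =>
        inner_nat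
          (isCharacter_indFun N (Cfsg.Agent.Char.isCharacter_of_irr χ.2))
          (isCharacter_indFun N (Cfsg.Agent.Char.isCharacter_of_irr ξ.2))
      choose k hk using hnat
      refine ⟨k χ, ?_, hk χ⟩
      have h2 := D.inner_N_U hcf (hker χ hχ) (1 : U →* ℂˣ)
      rw [if_pos rfl, linFun_one, ← indFun_indFun U N D.U_le (fun _ => (1 : ℂ))] at h2
      change Cfsg.classInner _ (Cfsg.indFun N R) = _ at h2
      rw [hc, indFun_sum, CharInd.classInner_sum_right, ← hcd χ hχ] at h2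
      simp only [indFun_smul, classInner_smul_right, hk, Complex.conj_natCast] at h2
      have h3 : ∑ ξ, c ξ * k ξ = 2 * c χ := by exact_mod_cast h2
      have h4 : c χ * k χ ≤ 2 * c χ :=
        h3 ▸ Finset.single_le_sum (f := fun ξ => c ξ * k ξ) (fun ξ _ => Nat.zero_le _)
          (Finset.mem_univ χ)
      exact Nat.le_of_mul_le_mul_left (by rwa [mul_comm 2] at h4) (Nat.pos_of_ne_zero hχ)
    · obtain ⟨f, rfl⟩ := D.exists_linFun_O hθ
      rw [phi, classInner_sub_right, classInner_smul_right, D.inner_N_P hcf (hker χ hχ),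
        D.inner_N_O, map_ofNat]
      ring

end Data

end KC

/-- The characters needed for the groups of Ree type. -/
theorem kChars {K : Type u} [Group K] [Fintype K] {q : ℕ} (hK : PslFacts K q) (hq : 27 ≤ q)
    {a u : K} (ha : orderOf a = 2) (hu : orderOf u = 3) (U O : Subgroup K) [Fintype U] [Fintype O]
    (hU : U = Subgroup.centralizer ({u} : Set K)) (hO : Nat.card O * 4 = q + 1)
    (hOa : ∀ x ∈ O, x * a = a * x) : ∃ P : K → ℂ, KChars U O P := by
  classical
  have _ := hq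
  obtain ⟨U', huU, hcard, hcube, hcomm, hcent, hN⟩ := hK.three u hu
  have hu1 : u ≠ 1 := by rintro rfl; simp at hu
  obtain rfl : U = U' := hU.trans (hcent u huU hu1)
  obtain ⟨-, O', hO', -, hcommO, hodd, hrest⟩ := hK.torus a ha
  have hoOdd : Odd (Nat.card O) := by
    have := hK.q_mod
    exact Nat.odd_iff.2 (by omega)
  have hle : O ≤ O' := fun x hx => hodd x (hOa x hx) (hoOdd.of_dvd_nat (O.orderOf_dvd_natCard hx))
  obtain rfl : O = O' := Subgroup.eq_of_le_of_card_ge hle (by omega)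
  letI : Fintype (Subgroup.normalizer (U : Set K) : Subgroup K) := Fintype.ofFinite _
  have D : KC.Data q (Nat.card O) U O (Subgroup.normalizer (U : Set K)) a :=
    { q_mod := hK.q_mod
      three_dvd := hK.three_dvd
      card_K := hK.card_K
      card_U := hcard
      cube := hcube
      commU := hcomm
      centU := fun w hw h1 c => by
        rw [← Subgroup.mem_centralizer_singleton_iff, hcent w hw h1]
      normU := fun _ => Iff.rfl
      card_N := hN
      card_O := rfl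
      o_eq := hO
      commO := hcommO
      centO := fun x hx h1 => (hrest x hx h1).1
      conjO := fun x hx h1 => (hrest x hx h1).2.1
      invO := fun x hx h1 => (hrest x hx h1).2.2
      a_notMem := fun h => by
        have h2 := O.orderOf_dvd_natCard h
        rw [ha] at h2
        exact Nat.not_even_iff_odd.2 hoOdd (even_iff_two_dvd.2 h2) }
  have hlin : ∀ {A : Type u} [Group A] [Fintype A] (f : A →* ℂˣ),
      SingerTI.linFun f ≠ (fun _ => 1) → f ≠ 1 := by
    intro A _ _ f h e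
    exact h (e ▸ SingerTI.linFun_one)
  refine ⟨D.P, ?_⟩
  constructor
  · rw [hcard]; exact D.q_odd
  · exact hoOdd
  · intro ψ hψ h1
    obtain ⟨f, rfl⟩ := D.exists_linFun_U hψ
    rw [KC.linFun_conj]
    exact D.P_eq f (hlin f h1)
  · intro ψ hψ h1
    obtain ⟨f, rfl⟩ := D.exists_linFun_U hψ
    have hf := hlin f h1
    have hf' : f⁻¹ ≠ 1 := KC.inv_ne hf
    rw [KC.linFun_conj, CharInd.classInner_sub_left, CharInd.classInner_sub_right,
      CharInd.classInner_sub_right, D.inner_same f hf, D.inner_same _ hf', D.inner_inv f hf,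
      ← CharInd.classInner_swap (Cfsg.indFun U (SingerTI.linFun f⁻¹))
        (Cfsg.indFun U (SingerTI.linFun f)), D.inner_inv f hf]
    simp only [map_div₀, map_sub, Complex.conj_natCast, map_one, map_ofNat]
    ring
  · intro ψ hψ h1 θ hθ
    obtain ⟨f, rfl⟩ := D.exists_linFun_U hψ
    obtain ⟨g, rfl⟩ := D.exists_linFun_O hθ
    have hf := hlin f h1
    have hf' : f⁻¹ ≠ 1 := KC.inv_ne hf
    rw [KC.linFun_conj, phi, CharInd.classInner_sub_left, CharInd.classInner_sub_right,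
      CharInd.classInner_sub_right, CharInd.classInner_smul_right, CharInd.classInner_smul_right,
      D.inner_P_U f hf, D.inner_P_U _ hf', D.inner_U_O, D.inner_U_O]
    ring
  · intro θ hθ
    obtain ⟨g, rfl⟩ := D.exists_linFun_O hθ
    rw [KC.linFun_conj]
    exact D.ind_O_conj g
  · intro θ hθ h1
    obtain ⟨g, rfl⟩ := D.exists_linFun_O hθ
    have hg : g ≠ g⁻¹ := by
      intro e
      apply hlin g h1
      ext x
      have h2 : g x ^ 2 = 1 := by
        rw [pow_two]; nth_rewrite 2 [DFunLike.congr_fun e x]; simp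
      have h3 : g x ^ Nat.card O = 1 := by rw [← map_pow, pow_card_eq_one', map_one]
      have := pow_gcd_eq_one.2 ⟨h2, h3⟩
      rw [Nat.coprime_two_left.2 hoOdd, pow_one] at this
      simp [this]
    rw [D.inner_phi, if_pos rfl, if_neg hg, add_zero]
  · rw [← SingerTI.linFun_one, D.inner_phi, if_pos rfl, if_pos (by ext; simp)]
    norm_num
  · intro θ θ' hθ hθ' hne hne'
    obtain ⟨g, rfl⟩ := D.exists_linFun_O hθ
    obtain ⟨g', rfl⟩ := D.exists_linFun_O hθ'
    rw [KC.linFun_conj] at hne'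
    rw [D.inner_phi, if_neg (fun e => hne (congrArg SingerTI.linFun e.symm)), if_neg (fun e => hne' (by
      rw [e]; congr 1)), add_zero]
  · exact D.borel

end Cfsg.Agent.ReeSThree
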