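import Cfsg.Agent.ReeSThree.SetupDef
import Cfsg.Agent.ReeSThree.Local
import Cfsg.Agent.ReeSThree.KChars
import Cfsg.Agent.ReeSThree.CaseA

/-!
# The case where the element of order three acts on the odd torus
-/

set_option autoImplicit false

noncomputable section

namespace Cfsg.Agent.ReeSThree

open Subgroup
open Classical

universe u

variable {G : Type u} [Group G] [Finite G]

/-- `C(t) = ⟨t⟩ × K` from an internal direct product. -/
theorem ctr_of_product {t : G} {K : Subgroup G} (ht : orderOf t = 2)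
    (h : Cfsg.IsInternalDirectProduct (zpowers t) K (centralizer ({t} : Set G))) : Ctr t K := by
  obtain ⟨-, hK, hcomm, hinf, hsup⟩ := h
  have ht2 : t * t = 1 := by rw [← sq, ← ht, pow_orderOf_eq_one]
  have hmem : ∀ z ∈ zpowers t, z = 1 ∨ z = t := by
    intro z hz
    obtain ⟨n, rfl⟩ := mem_zpowers_iff.1 hz
    rcases Int.even_or_odd n with ⟨j, rfl⟩ | ⟨j, rfl⟩
    · left; rw [← two_mul, zpow_mul, zpow_two, ht2, one_zpow]
    · right; rw [zpow_add, zpow_mul, zpow_two, ht2, one_zpow, one_mul, zpow_one]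
  refine ⟨ht, hK, fun htK => ?_, fun g hg => ?_⟩
  · have : t ∈ zpowers t ⊓ K := ⟨mem_zpowers t, htK⟩
    rw [hinf, mem_bot] at this
    simp [this] at ht
  · have hg' : g ∈ zpowers t ⊔ K := hsup ▸ mem_centralizer_singleton_iff.2 hg
    rw [sup_eq_closure_mul] at hg'
    have key : g ∈ K ∨ t * g ∈ K := by
      induction hg' using closure_induction with
      | mem x hx =>
        obtain ⟨z, hz, k, hk, rfl⟩ := hx
        rcases hmem z hz with rfl | rfl
        · left; simpa using hk
        · right; simp only [← mul_assoc, ht2, one_mul]; exact hk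
      | one => exact Or.inl K.one_mem
      | mul x y hx hy ihx ihy =>
        have hxt : x * t = t * x := mem_centralizer_singleton_iff.1
          ((closure_le _).2 (by
            rintro _ ⟨z, hz, k, hk, rfl⟩
            exact mul_mem (zpowers_le.2 (mem_centralizer_singleton_iff.2 rfl) hz) (hK hk)) hx)
        rcases ihx (hxt) with h1 | h1 <;>
          rcases ihy (mem_centralizer_singleton_iff.1 ((closure_le _).2 (by
            rintro _ ⟨z, hz, k, hk, rfl⟩
            exact mul_mem (zpowers_le.2 (mem_centralizer_singleton_iff.2 rfl) hz) (hK hk)) hy))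
            with h2 | h2
        · exact Or.inl (K.mul_mem h1 h2)
        · right
          rw [← mul_assoc, ← hxt, mul_assoc]
          exact K.mul_mem h1 h2
        · right; rw [← mul_assoc]; exact K.mul_mem h1 h2
        · left
          have := K.mul_mem h1 h2
          rwa [← mul_assoc, mul_assoc t x t, hxt, ← mul_assoc, ht2, one_mul] at this
      | inv x hx ihx =>
        have hxt : x * t = t * x := mem_centralizer_singleton_iff.1
          ((closure_le _).2 (by
            rintro _ ⟨z, hz, k, hk, rfl⟩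
            exact mul_mem (zpowers_le.2 (mem_centralizer_singleton_iff.2 rfl) hz) (hK hk)) hx)
        rcases ihx hxt with h1 | h1
        · exact Or.inl (K.inv_mem h1)
        · right
          have := K.inv_mem h1
          rw [mul_inv_rev, inv_eq_of_mul_eq_one_right ht2] at this
          rwa [show t * x⁻¹ = x⁻¹ * t from ((Commute.inv_left (hxt : Commute x t)).eq).symm]
    exact key

/-- The character case: `r` does not centralise the odd torus. -/
theorem case_a {t r a s : G} {K : Subgroup G} {q : ℕ} (hni : NoInvThree G) (h : Ctr t K)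
    (hK : PslFacts K q) (hq : 27 ≤ q) (hc : Cycle t K r a s) (O : Subgroup K)
    (hO : Nat.card O * 4 = q + 1) (hOa : ∀ x ∈ O, (x : G) * a = a * x)
    (hOab : ∀ x ∈ O, ∀ y ∈ O, x * y = y * x)
    (hOmem : ∀ c : K, (c : G) * a = a * c → Odd (orderOf c) → c ∈ O)
    {x₀ : K} (hx₀ : x₀ ∈ O) (hne : r * (x₀ : G) ≠ (x₀ : G) * r) : False := by
  letI := Fintype.ofFinite G
  haveI : Fact (Nat.Prime 3) := ⟨Nat.prime_three⟩
  have hOodd : Odd (Nat.card O) := by
    have := hK.q_mod
    rw [Nat.odd_iff]; omega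
  have ha2 : a * a = 1 := by rw [← sq, ← hc.a_order, pow_orderOf_eq_one]
  have hta : r * (t * a) * r⁻¹ = t := by
    rw [show r * (t * a) * r⁻¹ = r * t * r⁻¹ * (r * a * r⁻¹) by group, hc.rt, hc.ra,
      ← mul_assoc, h.comm hc.a_mem, mul_assoc, ha2, mul_one]
  have hmove : ∀ x : K, x ∈ O → r * (x : G) * r⁻¹ ∈ K ∧
      ∀ hy : r * (x : G) * r⁻¹ ∈ K, (⟨_, hy⟩ : K) ∈ O := by
    intro x hx
    have h1 : (x : G) * t = t * x := h.comm x.2
    have h2 : (x : G) * (t * a) = t * a * x := by
      rw [← mul_assoc, h1, mul_assoc, hOa x hx, ← mul_assoc]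
    have conj2 : ∀ v w : G, (x : G) * v = v * x → r * v * r⁻¹ = w →
        r * (x : G) * r⁻¹ * w = w * (r * (x : G) * r⁻¹) := by
      rintro v w hv rfl
      calc r * (x : G) * r⁻¹ * (r * v * r⁻¹) = r * ((x : G) * v) * r⁻¹ := by group
        _ = r * (v * (x : G)) * r⁻¹ := by rw [hv]
        _ = _ := by group
    have ho : Odd (orderOf (r * (x : G) * r⁻¹)) := by
      rw [show orderOf (r * (x : G) * r⁻¹) = orderOf (x : G) by
        simpa using orderOf_injective (MulAut.conj r).toMonoidHom (MulAut.conj r).injective (x : G),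
        orderOf_coe]
      exact hOodd.of_dvd_nat (Subgroup.orderOf_dvd_natCard _ hx)
    refine ⟨h.mem_of_odd (conj2 _ _ h2 hta) ho, fun hy => ?_⟩
    exact hOmem ⟨_, hy⟩ (conj2 _ _ h1 hc.rt) (by rwa [Subgroup.orderOf_mk])
  let σ₀ : O →* O := MonoidHom.mk'
    (fun x => ⟨⟨_, (hmove x x.2).1⟩, (hmove x x.2).2 _⟩)
    (fun x y => by ext; simp)
  have hinj : Function.Injective σ₀ := fun x y e => by
    have e' := congrArg (fun z : O => ((z : K) : G)) e
    simp only [σ₀, MonoidHom.mk'_apply, mul_left_inj, mul_right_inj] at e'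
    exact Subtype.ext (Subtype.ext e')
  let σ : O ≃* O := MulEquiv.ofBijective σ₀ ⟨hinj, Finite.surjective_of_injective hinj⟩
  have hσval : ∀ x : O, ((σ x : K) : G) = r * (x : K) * r⁻¹ := fun x => rfl
  have h3K : 3 ∣ Nat.card K := by
    refine (Nat.Coprime.dvd_of_dvd_mul_right (by norm_num : Nat.Coprime 3 2) ?_)
    rw [hK.card_K]
    exact dvd_mul_of_dvd_left hK.three_dvd _
  obtain ⟨u, hu⟩ := exists_prime_orderOf_dvd_card' 3 h3K
  obtain ⟨U, huU, hUcard, -, hUab, hUC, -⟩ := hK.three u hu
  have hU : U = centralizer ({u} : Set K) := (hUC u huU fun e => by simp [e] at hu).symm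
  letI := Fintype.ofFinite U
  letI := Fintype.ofFinite O
  obtain ⟨P, hP⟩ := kChars hK hq (a := ⟨a, hc.a_mem⟩) (by rw [Subgroup.orderOf_mk]; exact hc.a_order)
    hu U O hU hO (fun x hx => Subtype.ext (hOa x hx))
  obtain ⟨W, hW⟩ := local_three h hK hni u.2 (by rwa [orderOf_coe])
  have hi2 : ∀ i : G, IsConj t i → orderOf i = 2 := fun i hi => by
    obtain ⟨g, rfl⟩ := isConj_iff.1 hi
    have := orderOf_injective (MulAut.conj g).toMonoidHom (MulAut.conj g).injective t
    simpa [h.orderOf_t] using this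
  refine char_contra h hP hUab hOab (by rw [hO, hUcard]) σ
    (fun χ hχ x => by rw [hσval]; exact hχ _ _) (fun x => ?_) (x₀ := ⟨x₀, hx₀⟩) (fun e => ?_)
    huU hu (fun i hi hiu => hW.conj i hiu (hi2 i hi)) (fun i hi hiu => ?_) hW.count
  · apply Subtype.ext; apply Subtype.ext
    rw [hσval, hσval, hσval]
    have h3 : r ^ 3 = 1 := by rw [← hc.r_order, pow_orderOf_eq_one]
    calc r * (r * (r * ((x : K) : G) * r⁻¹) * r⁻¹) * r⁻¹ = r ^ 3 * (x : K) * (r ^ 3)⁻¹ := by
          simp only [pow_succ, pow_zero, one_mul, mul_inv_rev, mul_assoc]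
      _ = ((x : K) : G) := by rw [h3]; simp
  · apply hne
    have := congrArg (fun z : O => ((z : K) : G)) e
    simp only [hσval] at this
    exact mul_inv_eq_iff_eq_mul.1 this
  · have hmemodd : ∀ g : G, g ∈ W → Odd (orderOf g) := fun g hg =>
      hW.odd.of_dvd_nat (Subgroup.orderOf_dvd_natCard _ hg)
    have hiW : i ∉ W := fun hiW => by
      have := hmemodd i hiW
      rw [hi2 i hi] at this
      exact absurd this (by decide)
    have hti : t * i ∈ W := (hW.cover i hiu).resolve_left hiW
    have hit : i * t ∈ W := by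
      have := W.inv_mem hti
      rw [mul_inv_rev, inv_eq_of_mul_eq_one_right h.sq,
        inv_eq_of_mul_eq_one_right (show i * i = 1 by rw [← sq, ← hi2 i hi, pow_orderOf_eq_one])]
        at this
      exact this
    rw [← mul_assoc]
    exact hmemodd _ (W.mul_mem hit (hW.mem_of_odd u rfl (by rw [orderOf_coe, hu]; decide)))

end Cfsg.Agent.ReeSThree
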