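import Cfsg.Agent.ReeSThree.KDef
import Cfsg.Agent.SingerTI.AbelianChar
import Cfsg.Agent.CharInd.GenChar
import Cfsg.Agent.Char.Kernel

/-!
# Counting facts for the induced characters of `PSL₂(q)`
-/

set_option autoImplicit false
set_option linter.unusedSectionVars false
set_option linter.style.haveILetI false

noncomputable section

namespace Cfsg.Agent.ReeSThree.KC

open scoped ComplexConjugate
open Subgroup Finset Cfsg.Agent.CharInd Cfsg.Agent.SingerTI

universe u

variable {K : Type u} [Group K] [Fintype K]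

open scoped Classical in
/-- The number of elements conjugating `g` to `v`. -/
def fib (g v : K) : ℕ := #{x : K | x⁻¹ * g * x = v}

theorem fib_eq_zero {g v : K} (h : ∀ x : K, x⁻¹ * g * x ≠ v) : fib g v = 0 := by
  classical
  simp [fib, h]

theorem fib_eq {g v x₀ : K} (h : x₀⁻¹ * g * x₀ = v) :
    fib g v = Nat.card {c : K // c * g = g * c} := by
  classical
  rw [Nat.card_eq_fintype_card, Fintype.card_subtype, fib]
  refine Finset.card_equiv (Equiv.mulRight x₀⁻¹) fun x => ?_
  simp only [Finset.mem_filter, Finset.mem_univ, true_and, Equiv.coe_mulRight, ← h]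
  constructor
  · intro e
    calc x * x₀⁻¹ * g = x * (x₀⁻¹ * g * x₀) * x₀⁻¹ := by group
      _ = x * (x⁻¹ * g * x) * x₀⁻¹ := by rw [e]
      _ = g * (x * x₀⁻¹) := by group
  · intro e
    calc x⁻¹ * g * x = x⁻¹ * (g * (x * x₀⁻¹)) * x₀ := by group
      _ = x⁻¹ * (x * x₀⁻¹ * g) * x₀ := by rw [e]
      _ = x₀⁻¹ * g * x₀ := by group

theorem ext_eq_sum (H : Subgroup K) [Fintype H] [DecidableEq K] (F : H → ℂ) (z : K) :
    Cfsg.extendByZero H F z = ∑ v : H, if z = v then F v else 0 := by
  by_cases hz : z ∈ H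
  · rw [extendByZero_mem H F hz, Finset.sum_eq_single ⟨z, hz⟩
      (fun v _ hv => if_neg fun e => hv (Subtype.ext e.symm))
      (fun h => absurd (Finset.mem_univ _) h), if_pos rfl]
  · rw [extendByZero_notMem H F hz]
    refine (Finset.sum_eq_zero fun v _ => ?_).symm
    rw [if_neg]
    intro e
    exact hz (e ▸ v.2)

theorem card_mul_ind (H : Subgroup K) [Fintype H] (F : H → ℂ) (g : K) :
    (Nat.card H : ℂ) * Cfsg.indFun H F g = ∑ v : H, (fib g v : ℂ) * F v := by
  classical
  rw [card_mul_indFun]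
  simp only [ext_eq_sum]
  rw [Finset.sum_comm]
  refine Finset.sum_congr rfl fun v _ => ?_
  rw [← Finset.sum_filter, Finset.sum_const, nsmul_eq_mul]
  congr 2

theorem sum_fib (H : Subgroup K) [Fintype H] (g : K) :
    ∑ v : H, fib g v = Nat.card {x : K // x⁻¹ * g * x ∈ H} := by
  classical
  rw [Nat.card_eq_fintype_card, Fintype.card_subtype]
  rw [Finset.card_eq_sum_card_fiberwise (f := fun x => x⁻¹ * g * x)
    (t := Finset.univ.map ⟨((↑) : H → K), Subtype.val_injective⟩)]
  · rw [Finset.sum_map]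
    refine Finset.sum_congr rfl fun v _ => ?_
    simp only [fib, Function.Embedding.coeFn_mk]
    congr 1
    ext x
    simp only [Finset.mem_filter, Finset.mem_univ, true_and]
    exact ⟨fun e => ⟨e ▸ v.2, e⟩, fun e => e.2⟩
  · intro x hx
    simp only [Finset.coe_filter, Finset.mem_univ, true_and, Set.mem_ofPred_eq] at hx
    simp only [Finset.coe_map, Finset.coe_univ, Set.image_univ, Set.mem_range]
    exact ⟨⟨_, hx⟩, rfl⟩

/-- Two induced functions agree if they do so on a subgroup meeting every relevant class. -/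
theorem ind_ext {H : Subgroup K} [Fintype H] {F F' : H → ℂ}
    (h : ∀ v ∈ H, Cfsg.indFun H F v = Cfsg.indFun H F' v) :
    Cfsg.indFun H F = Cfsg.indFun H F' := by
  funext g
  by_cases hg : ∃ x : K, x⁻¹ * g * x ∈ H
  · obtain ⟨x, hx⟩ := hg
    have e : ∀ F'' : H → ℂ, Cfsg.indFun H F'' (x⁻¹ * g * x) = Cfsg.indFun H F'' g := fun F'' => by
      simpa using indFun_isClassFunction H F'' g x⁻¹
    rw [← e, ← e]
    exact h _ hx
  · rw [indFun_eq_zero_of_forall H F fun x hx => hg ⟨x, hx⟩,
      indFun_eq_zero_of_forall H F' fun x hx => hg ⟨x, hx⟩]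

theorem eq_one_of_coprime {x : K} {m n : ℕ} (h : Nat.Coprime m n) (hm : x ^ m = 1)
    (hn : x ^ n = 1) : x = 1 := by
  have := pow_gcd_eq_one.2 ⟨hm, hn⟩
  rwa [h.gcd_eq_one, pow_one] at this

theorem pow_card_mem {H : Subgroup K} {x : K} (hx : x ∈ H) : x ^ Nat.card H = 1 :=
  congrArg Subtype.val (pow_card_eq_one' (x := (⟨x, hx⟩ : H)))

/-- An element of an odd order subgroup whose square lies in a subgroup lies there. -/
theorem mem_of_sq_mem {N H : Subgroup K} (hN : Odd (Nat.card N)) {x : K} (hx : x ∈ N)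
    (h : x * x ∈ H) : x ∈ H := by
  obtain ⟨j, hj⟩ := hN
  have h2 : (x * x) ^ (j + 1) = x := by
    rw [← pow_two, ← pow_mul, show 2 * (j + 1) = Nat.card N + 1 by omega, pow_succ,
      pow_card_mem hx, one_mul]
  exact h2 ▸ pow_mem h _

/-- The inner product of two characters is a natural number. -/
theorem inner_nat {χ η : K → ℂ} (h : Cfsg.IsCharacter K χ) (h' : Cfsg.IsCharacter K η) :
    ∃ k : ℕ, Cfsg.classInner χ η = k := by
  classical
  haveI : Finite (Cfsg.IrrCharacter K) := finite_irrCharacter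
  letI := Fintype.ofFinite (Cfsg.IrrCharacter K)
  obtain ⟨m, hm⟩ := isCharacter_coef h
  obtain ⟨n, rfl⟩ := isCharacter_coef h'
  refine ⟨∑ ξ, n ξ * m ξ, ?_⟩
  rw [CharInd.classInner_sum_right, Nat.cast_sum]
  refine Finset.sum_congr rfl fun ξ _ => ?_
  rw [classInner_smul_right, hm, classInner_irrSum (fun ξ => (m ξ : ℂ)) ξ, Complex.conj_natCast,
    Nat.cast_mul]

/-- A character value of real part the degree is the degree. -/
theorem eq_one_of_re {G : Type u} [Group G] [Finite G] {χ : G → ℂ} (h : Cfsg.IsCharacter G χ)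
    {g : G} (hre : (χ g).re = (χ 1).re) : χ g = χ 1 := by
  have hle := Cfsg.Agent.Char.isCharacter_norm_le h g
  have h1 := Cfsg.Agent.Char.isCharacter_one_eq h
  have hn := (Complex.abs_re_le_norm (χ g)).trans hle
  rw [h1]
  refine Complex.ext (by simpa using hre) ?_
  have h2 : (χ g).re ^ 2 + (χ g).im ^ 2 ≤ (χ 1).re ^ 2 := by
    have h3 : ‖χ g‖ ^ 2 ≤ (χ 1).re ^ 2 := pow_le_pow_left₀ (norm_nonneg _) hle 2
    rw [← Complex.normSq_eq_norm_sq, Complex.normSq_apply] at h3
    linarith
  rw [hre] at h2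
  have h4 : (χ g).im = 0 := by nlinarith
  simpa using h4

end Cfsg.Agent.ReeSThree.KC
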