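import Cfsg.Agent.ReeSThree.Basic
import Cfsg.Agent.CharInd.Basic

/-!
# Interface for the virtual characters of `PSL₂(q)` vanishing on elements of even order
-/

set_option autoImplicit false

noncomputable section

namespace Cfsg.Agent.ReeSThree

open scoped ComplexConjugate

universe u

variable {K : Type u} [Group K] [Fintype K]

/-- `2P - Ind θ`. -/
def phi (O : Subgroup K) (P : K → ℂ) (θ : O → ℂ) : K → ℂ :=
  (2 : ℂ) • P - Cfsg.indFun O θ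

/-- What is used of the characters of `K` induced from `U` and `O`. -/
structure KChars (U O : Subgroup K) [Fintype U] [Fintype O] (P : K → ℂ) : Prop where
  oddU : Odd (Nat.card U)
  oddO : Odd (Nat.card O)
  P_eq : ∀ ψ : U → ℂ, Cfsg.IsIrrCharacter U ψ → ψ ≠ (fun _ => 1) →
    Cfsg.indFun U ψ + Cfsg.indFun U (fun h => conj (ψ h)) = P
  sub_norm : ∀ ψ : U → ℂ, Cfsg.IsIrrCharacter U ψ → ψ ≠ (fun _ => 1) →
    Cfsg.classInner (Cfsg.indFun U ψ - Cfsg.indFun U (fun h => conj (ψ h)))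
      (Cfsg.indFun U ψ - Cfsg.indFun U (fun h => conj (ψ h))) = 2
  sub_phi : ∀ ψ : U → ℂ, Cfsg.IsIrrCharacter U ψ → ψ ≠ (fun _ => 1) →
    ∀ θ : O → ℂ, Cfsg.IsIrrCharacter O θ →
      Cfsg.classInner (Cfsg.indFun U ψ - Cfsg.indFun U (fun h => conj (ψ h))) (phi O P θ) = 0
  ind_conj : ∀ θ : O → ℂ, Cfsg.IsIrrCharacter O θ →
    Cfsg.indFun O (fun h => conj (θ h)) = Cfsg.indFun O θ
  phi_self : ∀ θ : O → ℂ, Cfsg.IsIrrCharacter O θ → θ ≠ (fun _ => 1) →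
    Cfsg.classInner (phi O P θ) (phi O P θ) = 2
  phi_one : Cfsg.classInner (phi O P fun _ => 1) (phi O P fun _ => 1) = 4
  phi_orth : ∀ θ θ' : O → ℂ, Cfsg.IsIrrCharacter O θ → Cfsg.IsIrrCharacter O θ' → θ' ≠ θ →
    θ' ≠ (fun h => conj (θ h)) → Cfsg.classInner (phi O P θ) (phi O P θ') = 0
  borel : ∃ (m : ℕ) (f : Fin m → K → ℂ), ∑ i, f i = Cfsg.indFun U (fun _ => 1) ∧
    ∀ i, Cfsg.IsGeneralizedCharacter K (f i) ∧ (∀ g : K, Even (orderOf g) → f i g = 0) ∧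
      (∃ k : ℕ, k ≤ 2 ∧ Cfsg.classInner (f i) (f i) = k) ∧
      ∀ θ : O → ℂ, Cfsg.IsIrrCharacter O θ → Cfsg.classInner (f i) (phi O P θ) = 0

end Cfsg.Agent.ReeSThree
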