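import Cfsg.Agent.ReeSThree.Basic
import Cfsg.Agent.S1163
import Mathlib.LinearAlgebra.Matrix.SpecialLinearGroup
import Mathlib.FieldTheory.Finite.Basic

/-!
# The section `S₃` in `PSL₂(q)` and in the Suzuki groups
-/

set_option autoImplicit false

namespace Cfsg.Agent.ReeSThree

open Matrix

section Psl

variable {F : Type} [Field F]

/-- A central element of `SL₂` is `1` or `-1`. -/
theorem center_cases {z : Matrix.SpecialLinearGroup (Fin 2) F}
    (hz : z ∈ Subgroup.center (Matrix.SpecialLinearGroup (Fin 2) F)) :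
    (z : Matrix (Fin 2) (Fin 2) F) = 1 ∨ (z : Matrix (Fin 2) (Fin 2) F) = -1 := by
  obtain ⟨r, hr, h⟩ := Matrix.SpecialLinearGroup.mem_center_iff.1 hz
  rw [Fintype.card_fin, sq_eq_one_iff] at hr
  rcases hr with rfl | rfl
  · left; rw [← h, map_one]
  · right; rw [← h, map_neg, map_one]

theorem not_mem_center_of_entry {z : Matrix.SpecialLinearGroup (Fin 2) F} {i j : Fin 2} (hij : i ≠ j)
    (h : (z : Matrix (Fin 2) (Fin 2) F) i j ≠ 0) :
    z ∉ Subgroup.center (Matrix.SpecialLinearGroup (Fin 2) F) := fun hz => h (by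
  rcases center_cases hz with e | e <;> simp [e, hij])

variable [Fintype F] {G : Type*} [Group G] [Finite G]

omit [Fintype F] in
/-- A solution of `a² + ab + b² = -1` gives a section `S₃`. -/
theorem psl_involves_of_solution (_h3 : (3 : F) ≠ 0) {a b : F} (hab : a * a + a * b + b * b = -1)
    (e : G ≃* ProjectiveSpecialLinearGroup (Fin 2) F) :
    Cfsg.Involves (Equiv.Perm (Fin 3)) G := by
  refine involves_three fun hno => ?_
  have hdx : (!![(0 : F), -1; 1, -1]).det = 1 := by simp [Matrix.det_fin_two]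
  have hdt : (!![a, b; a + b, -a]).det = 1 := by
    rw [Matrix.det_fin_two_of]; linear_combination -hab
  set x : Matrix.SpecialLinearGroup (Fin 2) F := ⟨_, hdx⟩ with hx
  set t : Matrix.SpecialLinearGroup (Fin 2) F := ⟨_, hdt⟩ with ht
  have hx3 : x ^ 3 = 1 := by
    refine Subtype.ext ?_
    rw [Matrix.SpecialLinearGroup.coe_pow, Matrix.SpecialLinearGroup.coe_one]
    ext i j
    fin_cases i <;> fin_cases j <;> simp [hx, pow_succ, Matrix.mul_apply, Fin.sum_univ_two]
  have htt : t * t ∈ Subgroup.center (Matrix.SpecialLinearGroup (Fin 2) F) := by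
    refine Matrix.SpecialLinearGroup.mem_center_iff.2 ⟨-1, by simp, ?_⟩
    rw [Matrix.SpecialLinearGroup.coe_mul]
    ext i j
    fin_cases i <;> fin_cases j <;>
      simp [ht, Matrix.mul_apply, Fin.sum_univ_two, Matrix.scalar_apply] <;>
      first | linear_combination -hab | ring
  have htx : t * x * t = x⁻¹ * (t * t) := by
    rw [← mul_assoc]
    congr 1
    refine Subtype.ext ?_
    rw [Matrix.SpecialLinearGroup.coe_mul, Matrix.SpecialLinearGroup.coe_mul, Matrix.SpecialLinearGroup.coe_inv,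
      show (x : Matrix (Fin 2) (Fin 2) F) = !![(0 : F), -1; 1, -1] from rfl,
      show (t : Matrix (Fin 2) (Fin 2) F) = !![a, b; a + b, -a] from rfl, Matrix.adjugate_fin_two_of]
    ext i j
    fin_cases i <;> fin_cases j <;> simp [Matrix.mul_apply, Fin.sum_univ_two] <;> ring
  let π : Matrix.SpecialLinearGroup (Fin 2) F →* G :=
    e.symm.toMonoidHom.comp (QuotientGroup.mk' (Subgroup.center (Matrix.SpecialLinearGroup (Fin 2) F)))
  have hπ : ∀ z, π z = 1 ↔ z ∈ Subgroup.center (Matrix.SpecialLinearGroup (Fin 2) F) := fun z => by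
    show e.symm (QuotientGroup.mk z) = 1 ↔ _
    rw [MulEquiv.map_eq_one_iff, QuotientGroup.eq_one_iff]
  have h2 : Fact (Nat.Prime 2) := ⟨Nat.prime_two⟩
  have h3' : Fact (Nat.Prime 3) := ⟨Nat.prime_three⟩
  refine hno (π t) (π x) (orderOf_eq_prime ?_ ?_) (orderOf_eq_prime ?_ ?_) ?_
  · rw [sq, ← map_mul, hπ]; exact htt
  · rw [Ne, hπ]
    intro hc
    rcases center_cases hc with h | h <;>
    · have e01 : b = 0 := by simpa [ht] using congrFun (congrFun h 0) 1
      have e10 : a + b = 0 := by simpa [ht] using congrFun (congrFun h 1) 0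
      subst e01
      rw [add_zero] at e10
      subst e10
      simp at hab
  · rw [← map_pow, hx3, map_one]
  · rw [Ne, hπ]
    exact not_mem_center_of_entry (i := 1) (j := 0) (by decide) (by simp [hx])
  · rw [← map_mul, ← map_mul, ← map_inv, htx, map_mul, (hπ _).2 htt, mul_one]

theorem psl_even_involves {n : ℕ} (hq : Fintype.card F = 2 ^ n) (_hn : 1 ≤ n)
    (e : G ≃* ProjectiveSpecialLinearGroup (Fin 2) F) :
    Cfsg.Involves (Equiv.Perm (Fin 3)) G := by
  have : Fact (Nat.Prime 2) := ⟨Nat.prime_two⟩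
  have : CharP F 2 := charP_of_card_eq_prime_pow hq
  have h2 : (2 : F) = 0 := by exact_mod_cast CharP.cast_eq_zero F 2
  refine psl_involves_of_solution (fun h => one_ne_zero (α := F) (by linear_combination h - h2))
    (a := 1) (b := 0) ?_ e
  linear_combination h2

theorem psl_odd_involves (hodd : Odd (Fintype.card F)) (h3 : ¬ 3 ∣ Fintype.card F)
    (e : G ≃* ProjectiveSpecialLinearGroup (Fin 2) F) :
    Cfsg.Involves (Equiv.Perm (Fin 3)) G := by
  obtain ⟨p, hp⟩ := CharP.exists F
  obtain ⟨k, hpp, hk⟩ := FiniteField.card F p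
  have h3F : (3 : F) ≠ 0 := fun h => h3 (by
    rw [hk, ← (Nat.prime_dvd_prime_iff_eq hpp Nat.prime_three).1
      ((CharP.cast_eq_zero_iff F p 3).1 (by exact_mod_cast h))]
    exact dvd_pow_self p k.ne_zero)
  have h2F : (2 : F) ≠ 0 := fun h => by
    have := (Nat.prime_dvd_prime_iff_eq hpp Nat.prime_two).1
      ((CharP.cast_eq_zero_iff F p 2).1 (by exact_mod_cast h))
    rw [hk, this, Nat.odd_iff, Nat.pow_mod] at hodd
    simp at hodd
  open Polynomial in
  obtain ⟨u, w, huw⟩ := FiniteField.exists_root_sum_quadratic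
    (f := (X ^ 2 + C 4 : F[X])) (g := (C 3 * X ^ 2 : F[X]))
    (degree_X_pow_add_C (by norm_num) _) (by rw [degree_C_mul_X_pow _ h3F]; rfl)
    (Nat.odd_iff.1 hodd)
  simp at huw
  refine psl_involves_of_solution h3F (a := (u - w) / 2) (b := w) ?_ e
  field_simp
  linear_combination huw

/-- In characteristic three, with `-1` no square, no element inverts a nontrivial `3`-element. -/
theorem psl_three_not_involves {n : ℕ} (hq : Fintype.card F = 3 ^ (2 * n + 1))
    (e : G ≃* ProjectiveSpecialLinearGroup (Fin 2) F) :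
    ¬ Cfsg.Involves (Equiv.Perm (Fin 3)) G := by
  intro hinv
  have : Fact (Nat.Prime 3) := ⟨Nat.prime_three⟩
  have : CharP F 3 := charP_of_card_eq_prime_pow hq
  obtain ⟨ed⟩ := dihedral_three_iso
  obtain ⟨x, y, -, ⟨k, hyk⟩, hy1, hxy⟩ :=
    EvenLocal.exists_inverted_of_involves (p := 3) (by norm_num)
      (EvenLocal.involves_congr ed.symm hinv)
  obtain ⟨X, hX⟩ := QuotientGroup.mk_surjective (e x)
  obtain ⟨Y₀, hY₀⟩ := QuotientGroup.mk_surjective (e y)
  have hodd3 : Odd (3 ^ k) := Odd.pow (by decide)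
  have h1 : Y₀ ^ 3 ^ k ∈ Subgroup.center (Matrix.SpecialLinearGroup (Fin 2) F) := by
    rw [← QuotientGroup.eq_one_iff, QuotientGroup.mk_pow, hY₀, ← map_pow, ← hyk, pow_orderOf_eq_one,
      map_one]
  -- a lift of `y` which is unipotent
  obtain ⟨Y, hY, hYk⟩ : ∃ Y : Matrix.SpecialLinearGroup (Fin 2) F,
      QuotientGroup.mk (s := Subgroup.center (Matrix.SpecialLinearGroup (Fin 2) F)) Y = e y ∧
        (Y : Matrix (Fin 2) (Fin 2) F) ^ 3 ^ k = 1 := by
    rcases center_cases h1 with h | h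
    · exact ⟨Y₀, hY₀, by rw [← Matrix.SpecialLinearGroup.coe_pow, h]⟩
    · refine ⟨-Y₀, ?_, ?_⟩
      · rw [← hY₀]
        refine QuotientGroup.eq.2 ?_
        refine Matrix.SpecialLinearGroup.mem_center_iff.2 ⟨-1, by simp, ?_⟩
        rw [show (-Y₀)⁻¹ * Y₀ = -1 by rw [inv_mul_eq_iff_eq_mul, mul_neg, mul_one, neg_neg]]
        ext i j
        rcases eq_or_ne i j with rfl | hij <;> simp [Matrix.scalar_apply, Matrix.diagonal, *]
      · rw [Matrix.SpecialLinearGroup.coe_neg, hodd3.neg_pow, ← Matrix.SpecialLinearGroup.coe_pow, h, neg_neg]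
  set N : Matrix (Fin 2) (Fin 2) F := (Y : Matrix (Fin 2) (Fin 2) F) - 1 with hN
  have hNk : N ^ 3 ^ k = 0 := by
    rw [hN, sub_pow_char_pow_of_commute (p := 3) (n := k) (h := Commute.one_right _), hYk, one_pow, sub_self]
  have hYN : (Y : Matrix (Fin 2) (Fin 2) F) = 1 + N := by rw [hN]; abel
  have hdN : N.det = 0 := by
    have := congrArg Matrix.det hNk
    rw [Matrix.det_pow, Matrix.det_zero] at this
    exact eq_zero_of_pow_eq_zero this
  have hdY := Y.2
  rw [hYN, Matrix.det_fin_two] at hdY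
  rw [Matrix.det_fin_two] at hdN
  have htr : N 1 1 = -N 0 0 := by
    simp at hdY
    linear_combination hdY - hdN
  have hxY : QuotientGroup.mk (s := Subgroup.center (Matrix.SpecialLinearGroup (Fin 2) F))
      (X * Y * X⁻¹) = QuotientGroup.mk Y⁻¹ := by
    rw [QuotientGroup.mk_mul, QuotientGroup.mk_mul, QuotientGroup.mk_inv, QuotientGroup.mk_inv,
      hX, hY, ← map_inv, ← map_mul, ← map_mul, hxy, map_inv]
  have hN0 : N ≠ 0 := fun h => hy1 (by
    refine e.injective ?_
    rw [map_one, ← hY, show Y = 1 from Subtype.ext (by rw [hYN, h, add_zero]; rfl),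
      QuotientGroup.mk_one])
  have hsq : ¬ IsSquare (-1 : F) := by
    rw [FiniteField.isSquare_neg_one_iff, hq, not_not, pow_succ, pow_mul, Nat.mul_mod, Nat.pow_mod]
    norm_num
  obtain ⟨z, hz, hzeq⟩ : ∃ z ∈ Subgroup.center (Matrix.SpecialLinearGroup (Fin 2) F),
      X * Y = z * (Y⁻¹ * X) := by
    refine ⟨X * Y * X⁻¹ * Y, ?_, by group⟩
    rw [← QuotientGroup.eq_one_iff, QuotientGroup.mk_mul, hxY, QuotientGroup.mk_inv,
      inv_mul_cancel]
  have hYinv : ((Y⁻¹ : Matrix.SpecialLinearGroup (Fin 2) F) : Matrix (Fin 2) (Fin 2) F) = 1 - N := by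
    rw [Matrix.SpecialLinearGroup.coe_inv, Matrix.adjugate_fin_two, hYN]
    ext i j
    fin_cases i <;> fin_cases j <;> simp [htr] <;> ring
  have hm := congrArg (fun g : Matrix.SpecialLinearGroup (Fin 2) F => (g : Matrix (Fin 2) (Fin 2) F)) hzeq
  simp only [Matrix.SpecialLinearGroup.coe_mul, hYinv, hYN] at hm
  rcases center_cases hz with hz1 | hz1 <;> rw [hz1] at hm
  · replace hm : (X : Matrix (Fin 2) (Fin 2) F) * N + N * (X : Matrix (Fin 2) (Fin 2) F) = 0 := by
      linear_combination (norm := noncomm_ring) hm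
    have a00 := congrFun (congrFun hm 0) 0
    have a01 := congrFun (congrFun hm 0) 1
    have a10 := congrFun (congrFun hm 1) 0
    simp [Matrix.mul_apply, Fin.sum_univ_two, htr] at a00 a01 a10
    have hdX := X.2
    rw [Matrix.det_fin_two] at hdX
    set p := (X : Matrix (Fin 2) (Fin 2) F) 0 0
    set q := (X : Matrix (Fin 2) (Fin 2) F) 0 1
    set r := (X : Matrix (Fin 2) (Fin 2) F) 1 0
    set s := (X : Matrix (Fin 2) (Fin 2) F) 1 1
    set a := N 0 0 with ha
    set b := N 0 1 with hb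
    set c := N 1 0 with hc
    rw [htr] at hdN
    by_cases hb0 : b = 0
    · have hc0 : c ≠ 0 := by
        intro hc0
        apply hN0
        have ha0 : a = 0 := by
          have : a * a = 0 := by rw [hb0] at hdN; linear_combination -hdN
          exact mul_self_eq_zero.1 this
        ext i j
        fin_cases i <;> fin_cases j <;> simp [← ha, ← hb, ← hc, ha0, hb0, hc0, htr]
      have hs : p + s = 0 := by
        refine (mul_eq_zero.1 ?_).resolve_left hc0
        linear_combination a10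
      refine hsq ⟨(c * p - a * r) / c, ?_⟩
      field_simp
      linear_combination c ^ 2 * hdX - c ^ 2 * p * hs + c * r * a00 + r ^ 2 * hdN
    · have hs : p + s = 0 := by
        refine (mul_eq_zero.1 ?_).resolve_left hb0
        linear_combination a01
      refine hsq ⟨(b * p - a * q) / b, ?_⟩
      field_simp
      linear_combination b ^ 2 * hdX - b ^ 2 * p * hs + b * q * a00 + q ^ 2 * hdN
  · have hconj : Matrix.trace ((X * Y * X⁻¹ : Matrix.SpecialLinearGroup (Fin 2) F) :
        Matrix (Fin 2) (Fin 2) F) = Matrix.trace (Y : Matrix (Fin 2) (Fin 2) F) := by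
      rw [Matrix.SpecialLinearGroup.coe_mul, Matrix.trace_mul_comm, ← Matrix.SpecialLinearGroup.coe_mul,
        ← mul_assoc, inv_mul_cancel, one_mul]
    rw [show X * Y * X⁻¹ = z * Y⁻¹ by rw [hzeq]; group, Matrix.SpecialLinearGroup.coe_mul, hz1, hYinv,
      hYN, neg_mul, one_mul] at hconj
    simp [Matrix.trace_fin_two, htr] at hconj
    have h3 : (3 : F) = 0 := by exact_mod_cast CharP.cast_eq_zero F 3
    exact one_ne_zero (α := F) (by linear_combination -hconj - h3)

end Psl

theorem suzuki_not_involves {G : Type*} [Group G] [Finite G] (h : Cfsg.Lie.IsoSuzuki G) :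
    ¬ Cfsg.Involves (Equiv.Perm (Fin 3)) G := by
  intro hinv
  obtain ⟨F, _, _, m, hm, hF, ⟨e⟩⟩ := h
  obtain ⟨A, f, hf⟩ := EvenLocal.exists_surjective_of_involves hinv
  have h6 : 6 ∣ Nat.card G := by
    have h1 := (Subgroup.card_dvd_of_surjective f hf).trans A.card_subgroup_dvd_card
    rwa [Nat.card_perm, Nat.card_fin] at h1
  rw [Nat.card_congr e.toEquiv, (S1163.result hm hF).1] at h6
  have h3 : (3 : ℕ) ∣ (2 ^ (2 * m + 1)) ^ 2 * (2 ^ (2 * m + 1) - 1) * ((2 ^ (2 * m + 1)) ^ 2 + 1) :=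
    (by norm_num : (3 : ℕ) ∣ 6).trans h6
  have hq : 2 ^ (2 * m + 1) % 3 = 2 := by
    rw [pow_succ, pow_mul, Nat.mul_mod, Nat.pow_mod]; norm_num
  generalize 2 ^ (2 * m + 1) = q at h3 hq
  rcases (Nat.Prime.dvd_mul Nat.prime_three).1 h3 with h | h
  · rcases (Nat.Prime.dvd_mul Nat.prime_three).1 h with h | h
    · have := Nat.prime_three.dvd_of_dvd_pow h; omega
    · omega
  · rw [Nat.dvd_iff_mod_eq_zero, Nat.add_mod, Nat.pow_mod, hq] at h
    norm_num at h

end Cfsg.Agent.ReeSThree
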