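import Cfsg.Agent.ReeSThree.Basic
import Cfsg.Agent.ReeSThree.Pair

/-!
# Interface for the configuration in groups of Ree type
-/

set_option autoImplicit false

namespace Cfsg.Agent.ReeSThree

/-- Every involution centraliser is `⟨s⟩ × K` with `K` like `PSL₂(q)`. -/
def AllCtr (G : Type*) [Group G] (q : ℕ) : Prop :=
  ∀ s : G, orderOf s = 2 → ∃ K : Subgroup G, Ctr s K ∧ PslFacts K q

/-- An element `r` of order three cycles `t, a, t a` and centralises an involution `s` outside
`⟨t, a⟩` commuting with both. -/
structure Cycle {G : Type*} [Group G] (t : G) (K : Subgroup G) (r a s : G) : Prop where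
  r_order : orderOf r = 3
  a_mem : a ∈ K
  a_order : orderOf a = 2
  rt : r * t * r⁻¹ = a
  ra : r * a * r⁻¹ = t * a
  s_order : orderOf s = 2
  s_out : s ≠ t ∧ s ≠ a ∧ s ≠ t * a
  st : s * t = t * s
  sa : s * a = a * s
  sr : s * r = r * s

end Cfsg.Agent.ReeSThree
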