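import Cfsg.Agent.ReeSThree.Basic
import Cfsg.Agent.SporB.J1Group
import Cfsg.Prelude.Def_Classical

/-!
`S₃` is involved in `PSU₃(2ⁿ)` and in `J₁`
-/

set_option autoImplicit false
set_option linter.style.haveILetI false

namespace Cfsg.Agent.ReeSThree

open Subgroup Matrix

/-- A permutation matrix as an element of `SL₃` in characteristic two. -/
def permSL {F : Type*} [Field F] [CharP F 2] (σ : Equiv.Perm (Fin 3)) :
    Matrix.SpecialLinearGroup (Fin 3) F :=
  ⟨σ.permMatrix F, by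
    rw [Matrix.det_permutation]
    rcases Int.units_eq_one_or (Equiv.Perm.sign σ) with h | h <;> simp [h, CharTwo.neg_eq]⟩

theorem involves_three_of_pair {G : Type*} [Group G] [Finite G] (t x : G) (ht : orderOf t = 2)
    (hx : orderOf x = 3) (h : t * x * t = x⁻¹) : Cfsg.Involves (Equiv.Perm (Fin 3)) G :=
  involves_three fun hG => hG t x ht hx h

/-- `S₃` is involved in `PSU₃(2ⁿ)`. -/
theorem psu_involves {G : Type*} [Group G] [Finite G] {F : Type} [Field F] [Fintype F] {n : ℕ}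
    (hn : 2 ≤ n) (hq : Fintype.card F = 4 ^ n) (e : G ≃* Cfsg.PSU 3 F (2 ^ n)) :
    Cfsg.Involves (Equiv.Perm (Fin 3)) G := by
  classical
  haveI : CharP F 2 := by
    haveI : Fact (Nat.Prime 2) := ⟨Nat.prime_two⟩
    exact charP_of_card_eq_prime_pow (f := 2 * n) (by rw [hq, pow_mul]; norm_num)
  have hmem : ∀ σ : Equiv.Perm (Fin 3), (permSL (F := F) σ) ∈ Cfsg.SU 3 F (2 ^ n) := by
    intro σ u v
    have hm : Cfsg.slToMat 3 F (permSL (F := F) σ) = σ.permMatrix F := rfl
    simp only [hm, Matrix.permMatrix_mulVec, Cfsg.hermForm, Function.comp_apply]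
    exact Equiv.sum_comp σ (fun i => u i * v i ^ 2 ^ n)
  let t₀ : Cfsg.SU 3 F (2 ^ n) := ⟨permSL (Equiv.swap 0 1), hmem _⟩
  let x₀ : Cfsg.SU 3 F (2 ^ n) := ⟨permSL (finRotate 3), hmem _⟩
  have hval : ∀ σ : Equiv.Perm (Fin 3),
      ((((⟨permSL σ, hmem σ⟩ : Cfsg.SU 3 F (2 ^ n)) : Matrix.SpecialLinearGroup (Fin 3) F)) :
        Matrix (Fin 3) (Fin 3) F) = σ.permMatrix F := fun σ => rfl
  let f : Equiv.Perm (Fin 3) → Cfsg.SU 3 F (2 ^ n) := fun σ => ⟨permSL σ, hmem σ⟩
  have hmul : ∀ σ τ, f σ * f τ = f (τ * σ) := fun σ τ =>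
    Subtype.ext (Subtype.ext (Matrix.permMatrix_mul τ σ).symm)
  have hone : f 1 = 1 := Subtype.ext (Subtype.ext Matrix.permMatrix_one)
  have hinj : Function.Injective f := by
    intro σ τ h
    have h' : σ.permMatrix F = τ.permMatrix F :=
      congrArg (fun g : Cfsg.SU 3 F (2 ^ n) =>
        ((g : Matrix.SpecialLinearGroup (Fin 3) F) : Matrix (Fin 3) (Fin 3) F)) h
    ext i
    have h2 := congrFun (congrFun h' i) (σ i)
    simp [Equiv.Perm.permMatrix, PEquiv.toMatrix_apply, Equiv.toPEquiv_apply] at h2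
    rw [h2]
  have hrel : t₀ * x₀ * t₀ * x₀ = 1 ∧ t₀ * t₀ = 1 ∧ x₀ * x₀ * x₀ = 1 := by
    show f _ * f _ * f _ * f _ = 1 ∧ f _ * f _ = 1 ∧ f _ * f _ * f _ = 1
    simp only [hmul, ← hone]
    exact ⟨congrArg f (by decide +kernel), congrArg f (by decide +kernel),
      congrArg f (by decide +kernel)⟩
  have hnc : ∀ {a b : Cfsg.SU 3 F (2 ^ n)}, a * b ≠ b * a →
      a ∉ center (Cfsg.SU 3 F (2 ^ n)) := fun {a b} h hc =>
    h ((Subgroup.mem_center_iff.1 hc b).symm)
  have hne : t₀ * x₀ ≠ x₀ * t₀ := by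
    show f _ * f _ ≠ f _ * f _
    rw [hmul, hmul]
    exact fun h => absurd (hinj h) (by decide +kernel)
  set π := QuotientGroup.mk' (center (Cfsg.SU 3 F (2 ^ n))) with hπ
  have ht1 : π t₀ ≠ 1 := fun h => hnc hne ((QuotientGroup.eq_one_iff _).1 h)
  have hx1 : π x₀ ≠ 1 := fun h => hnc (Ne.symm hne) ((QuotientGroup.eq_one_iff _).1 h)
  haveI : Fact (Nat.Prime 2) := ⟨Nat.prime_two⟩
  haveI : Fact (Nat.Prime 3) := ⟨Nat.prime_three⟩
  refine involves_three_of_pair (e.symm (π t₀)) (e.symm (π x₀)) ?_ ?_ ?_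
  · rw [MulEquiv.orderOf_eq]
    exact orderOf_eq_prime (by rw [sq, ← map_mul, hrel.2.1, map_one]) ht1
  · rw [MulEquiv.orderOf_eq]
    exact orderOf_eq_prime (by rw [pow_three, ← map_mul, ← map_mul, ← mul_assoc, hrel.2.2,
      map_one]) hx1
  · refine eq_inv_of_mul_eq_one_left ?_
    rw [← map_mul, ← map_mul, ← map_mul, ← map_mul, ← map_mul, ← map_mul, hrel.1, map_one, map_one]

/-- A simple group of order divisible by three but not by nine involves `S₃`. -/
theorem simple_involves_three {G : Type*} [Group G] [Finite G] [IsSimpleGroup G]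
    (h3 : 3 ∣ Nat.card G) (h9 : ¬ 9 ∣ Nat.card G) (hne : Nat.card G ≠ 3) :
    Cfsg.Involves (Equiv.Perm (Fin 3)) G := by
  haveI : Fact (Nat.Prime 3) := ⟨Nat.prime_three⟩
  have P : Sylow 3 G := default
  have hP : Nat.card P = 3 := by
    obtain ⟨k, hk⟩ := P.2.exists_card_eq
    have hd : 3 ^ k ∣ Nat.card G := hk ▸ Subgroup.card_subgroup_dvd_card (P : Subgroup G)
    have h0 : k ≠ 0 := by
      rintro rfl
      have h31 := P.dvd_card_of_dvd_card h3
      rw [hk] at h31
      norm_num at h31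
    have h1 : k = 1 := by
      by_contra h
      exact h9 ((pow_dvd_pow 3 (show 2 ≤ k by omega)).trans hd)
    rw [hk, h1, pow_one]
  have hno : ¬ normalizer ((P : Subgroup G) : Set G) ≤ centralizer (P : Set G) := by
    intro hle
    have hc := MonoidHom.ker_transferSylow_isComplement' P hle
    rcases IsSimpleGroup.eq_bot_or_eq_top_of_normal _
      (MonoidHom.normal_ker (MonoidHom.transferSylow P hle)) with hk | hk
    · rw [hk] at hc
      exact hne (by rw [← hP, (Subgroup.isComplement'_bot_left.1 hc), Subgroup.card_top])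
    · rw [hk] at hc
      have : (P : Subgroup G) = ⊥ := Subgroup.isComplement'_top_left.1 hc
      rw [this, Subgroup.card_bot] at hP
      omega
  obtain ⟨g, hg, hgc⟩ := SetLike.not_le_iff_exists.1 hno
  obtain ⟨y, hy, hgy⟩ : ∃ y ∈ (P : Subgroup G), g * y * g⁻¹ ≠ y := by
    by_contra h
    push_neg at h
    exact hgc (Subgroup.mem_centralizer_iff.2 fun y hy => (mul_inv_eq_iff_eq_mul.1 (h y hy)).symm)
  have hy1 : y ≠ 1 := by rintro rfl; simp at hgy
  have hyo : orderOf y = 3 := orderOf_eq_prime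
    (by rw [← hP]; exact congrArg Subtype.val (pow_card_eq_one' (x := (⟨y, hy⟩ : (P : Subgroup G))))) hy1
  have hz : zpowers y = (P : Subgroup G) := Subgroup.eq_of_le_of_card_ge (zpowers_le.2 hy)
    (by rw [Nat.card_zpowers, hyo, hP])
  have hinv : g * y * g⁻¹ = y⁻¹ := by
    have hm : g * y * g⁻¹ ∈ zpowers y := hz ▸ (Subgroup.mem_normalizer_iff.1 hg y).1 hy
    classical
    rw [mem_zpowers_iff_mem_range_orderOf, hyo, Finset.mem_image] at hm
    obtain ⟨i, hi, he⟩ := hm
    rw [Finset.mem_range] at hi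
    interval_cases i
    · exact absurd (conj_eq_one_iff.1 (by rw [← he, pow_zero])) hy1
    · exact absurd (by rw [← he, pow_one]) hgy
    · rw [← he, eq_inv_iff_mul_eq_one, ← pow_succ]
      exact (congrArg (y ^ ·) hyo.symm).trans (pow_orderOf_eq_one y)
  obtain ⟨m, hm, hgo⟩ := EvenLocal.exists_odd_mul_two_pow g
  obtain ⟨d⟩ := dihedral_three_iso
  exact EvenLocal.involves_congr d (EvenLocal.involves_of_inverted (p := 3) (by norm_num) hgo
    ⟨1, by rw [hyo, pow_one]⟩ hy1 (EvenLocal.conj_eq_inv_of_odd_pow hinv hm))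

/-- `S₃` is involved in `J₁`. -/
theorem j1_involves {G : Type*} [Group G] [Finite G] (h : Cfsg.Spor.IsoJ1 G) :
    Cfsg.Involves (Equiv.Perm (Fin 3)) G := by
  obtain ⟨e⟩ := h
  haveI : IsSimpleGroup Cfsg.Spor.J1 := SporB.J1.isSimple_J1
  haveI : IsSimpleGroup G := MulEquiv.isSimpleGroup e
  have hc : Nat.card G = 175560 := by rw [Nat.card_congr e.toEquiv, SporB.J1.card_J1]
  exact simple_involves_three (by rw [hc]; norm_num) (by rw [hc]; norm_num) (by rw [hc]; norm_num)

end Cfsg.Agent.ReeSThree
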